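import Cfsg.Agent.H25.OrthExt

/-! The similarity group of the four-dimensional orthogonal space of plus type. -/

set_option autoImplicit false
set_option linter.unusedSectionVars false
set_option linter.unusedSimpArgs false
set_option linter.style.haveILetI false

namespace Cfsg.Agent.H25

open Matrix Cfsg.Geo Module
open QuadraticMap (polar)
open scoped Kronecker MatrixGroups commutatorElement

variable {ι κ : Type} [Fintype ι] [DecidableEq ι] [Fintype κ] [DecidableEq κ]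
  {F : Type*} [Field F] {ε : F}
  {f : (ι → F) → (ι → F) → F} {Q : (ι → F) → F} {H : Subgroup (GL ι F)}

lemma plus_of_family (hQ : IsNondegenerateQuadraticForm Q) {w : κ → ι → F}
    (hw : LinearIndependent F w) (h0 : ∀ i, Q (w i) = 0) (h1 : ∀ i j, polar Q (w i) (w j) = 0)
    (hc : Fintype.card ι ≤ 2 * Fintype.card κ) : IsPlusTypeOn Q ⊤ := by
  have h := sq_polar hQ
  refine plus_of_le hQ (U := Submodule.span F (Set.range w)) (fun v hv => ?_)
    (by rwa [finrank_span_eq_card hw])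
  have h2 : ∀ u ∈ Submodule.span F (Set.range w), ∀ v ∈ Submodule.span F (Set.range w),
      polar Q u v = 0 := fun u hu v hv => by
    obtain ⟨c, rfl⟩ := (Submodule.mem_span_range_iff_exists_fun F).1 hu
    obtain ⟨d, rfl⟩ := (Submodule.mem_span_range_iff_exists_fun F).1 hv
    simp only [h.sesq.sum_left, h.sesq.sum_right, h.sesq.smul_left, h.sesq.smul_right, h1,
      mul_zero, Finset.sum_const_zero]
  induction hv using Submodule.span_induction with
  | mem x hx => obtain ⟨i, rfl⟩ := hx; exact h0 i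
  | zero => exact quad_zero hQ
  | add x y hx hy h3 h4 => rw [quad_add Q, h3, h4, h2 x hx y hy]; ring
  | smul c x _ h3 => rw [hQ.smul, h3, mul_zero]

lemma linearIndependent_single_comp {τ : Type} [Fintype τ] [DecidableEq τ]
    (T : (τ → F) ≃ₗ[F] (ι → F)) {e : κ → τ} (he : Function.Injective e) :
    LinearIndependent F fun i => T (Pi.single (e i) 1) := by
  have := ((Pi.basisFun F τ).linearIndependent.comp e he).map' T.toLinearMap T.ker
  simpa only [Function.comp_def, Pi.basisFun_apply, LinearEquiv.coe_coe] using this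

lemma plus_of_tensor_two (hQ : IsNondegenerateQuadraticForm Q) {b : ℕ}
    {T : (Fin 2 × Fin b → F) ≃ₗ[F] (ι → F)} (h0 : ∀ x y, Q (T (pure2 x y)) = 0) :
    IsPlusTypeOn Q ⊤ := by
  refine plus_of_family hQ (linearIndependent_single_comp T (e := fun j : Fin b => ((0 : Fin 2), j))
    fun i j h => congrArg Prod.snd h) (fun j => by rw [← pure2_single, h0]) (fun i j => ?_)
    (by rw [card_eq_of_linearEquiv T]; simp)
  have : pure2 (Pi.single (0 : Fin 2) (1 : F)) (Pi.single i 1 + Pi.single j 1) =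
      Pi.single (0, i) 1 + Pi.single (0, j) 1 := by
    rw [← pure2_single, ← pure2_single]
    funext p
    simp only [pure2, Pi.add_apply, mul_add]
  rw [polar, ← map_add, ← this, ← pure2_single, ← pure2_single, h0, h0, h0]
  ring

/-- The tensor square of the determinant form. -/
def g4 (F : Type*) [Field F] : (Fin 2 × Fin 2 → F) → (Fin 2 × Fin 2 → F) → F :=
  form (idF F) (gramMatrix det2 ⊗ₖ gramMatrix det2)

lemma sq_g4 : Sq (idF F) 1 (g4 F) := by
  have := sq_kron (sq_det2 (F := F)) sq_det2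
  rwa [neg_mul_neg, one_mul] at this

lemma adj_g4 (a b : Matrix (Fin 2) (Fin 2) F) :
    adj (idF F) (g4 F) (a ⊗ₖ b) = (a.trace • 1 - a) ⊗ₖ (b.trace • 1 - b) := by
  rw [g4, adj_form_kron sq_det2 sq_det2, adj_det2, adj_det2]

lemma g4_pure (x x' y y' : Fin 2 → F) :
    g4 F (pure2 x y) (pure2 x' y') = det2 x x' * det2 y y' := by
  rw [g4, form_kron_pure2, ← sq_det2.sesq.eq_form, ← sq_det2.sesq.eq_form]

lemma g4_kron (a b : Matrix (Fin 2) (Fin 2) F) (u v : Fin 2 × Fin 2 → F) :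
    g4 F ((a ⊗ₖ b) *ᵥ u) ((a ⊗ₖ b) *ᵥ v) = a.det * b.det * g4 F u v := by
  rw [sq_g4.adj_spec, Matrix.mulVec_mulVec, g4, adj_form_kron sq_det2 sq_det2,
    ← Matrix.mul_kronecker_mul, adj_det2_mul, adj_det2_mul, Matrix.smul_kronecker,
    Matrix.kronecker_smul, Matrix.one_kronecker_one, smul_smul, Matrix.smul_mulVec,
    Matrix.one_mulVec, (sesq_form _ _).smul_right]
  rfl

lemma mul_self_of_trace {a : Matrix (Fin 2) (Fin 2) F} (ha : a.trace = 0) :
    a * a = (-a.det) • 1 := by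
  have := adj_det2_mul a
  rw [adj_det2, ha, zero_smul, zero_sub, neg_mul] at this
  rw [neg_smul, ← this, neg_neg]

lemma exists_traceless (h2 : (2 : F) ≠ 0) (a : Matrix (Fin 2) (Fin 2) F) :
    ∃ (a₀ : Matrix (Fin 2) (Fin 2) F) (c : F), a₀.trace = 0 ∧ a = a₀ + c • 1 :=
  ⟨a - (a.trace / 2) • 1, a.trace / 2, by
    rw [Matrix.trace_sub, Matrix.trace_smul, Matrix.trace_one, Fintype.card_fin, smul_eq_mul]
    field_simp
    norm_num, by rw [sub_add_cancel]⟩

lemma skew_g4 (h2 : (2 : F) ≠ 0) {z : Matrix (Fin 2 × Fin 2) (Fin 2 × Fin 2) F}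
    (hz : adj (idF F) (g4 F) z = -z) : ∃ a b : Matrix (Fin 2) (Fin 2) F, a.trace = 0 ∧ b.trace = 0 ∧
      z = a ⊗ₖ 1 + 1 ⊗ₖ b := by
  have key : ∀ x : Matrix (Fin 2 × Fin 2) (Fin 2 × Fin 2) F, ∃ a b : Matrix (Fin 2) (Fin 2) F,
      a.trace = 0 ∧ b.trace = 0 ∧ x - adj (idF F) (g4 F) x = a ⊗ₖ 1 + 1 ⊗ₖ b := by
    refine kron_induction ?_ ⟨0, 0, by simp, by simp, by simp [sq_g4.adj_zero]⟩ fun a b => ?_
    · rintro x y ⟨a, b, h1, h3, h4⟩ ⟨a', b', h1', h3', h4'⟩
      refine ⟨a + a', b + b', by rw [Matrix.trace_add, h1, h1', add_zero],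
        by rw [Matrix.trace_add, h3, h3', add_zero], ?_⟩
      rw [sq_g4.adj_add, add_sub_add_comm, h4, h4', Matrix.add_kronecker, Matrix.kronecker_add]
      abel
    · obtain ⟨a, c, ha, rfl⟩ := exists_traceless h2 a
      obtain ⟨b, d, hb, rfl⟩ := exists_traceless h2 b
      refine ⟨(2 * d) • a, (2 * c) • b, by rw [Matrix.trace_smul, ha, smul_zero],
        by rw [Matrix.trace_smul, hb, smul_zero], ?_⟩
      rw [adj_g4]
      simp only [Matrix.trace_add, Matrix.trace_smul, ha, hb, Matrix.trace_one, Fintype.card_fin]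
      ext ⟨i, j⟩ ⟨k, l⟩
      simp only [Matrix.sub_apply, Matrix.add_apply, Matrix.kroneckerMap_apply, Matrix.smul_apply,
        smul_eq_mul]
      push_cast
      ring
  obtain ⟨a, b, h1, h3, h4⟩ := key z
  refine ⟨(2 : F)⁻¹ • a, (2 : F)⁻¹ • b, by rw [Matrix.trace_smul, h1, smul_zero],
    by rw [Matrix.trace_smul, h3, smul_zero], ?_⟩
  rw [Matrix.smul_kronecker, Matrix.kronecker_smul, ← smul_add, ← h4, hz, sub_neg_eq_add,
    ← two_smul F, smul_smul, inv_mul_cancel₀ h2, one_smul]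

lemma kron_eq_zero {a : Matrix ι ι F} {b : Matrix κ κ F} (h : a ⊗ₖ b = 0) : a = 0 ∨ b = 0 := by
  by_contra hc
  push Not at hc
  obtain ⟨i, j, h1⟩ : ∃ i j, a i j ≠ 0 := by
    by_contra h1
    push Not at h1
    exact hc.1 (Matrix.ext h1)
  obtain ⟨k, l, h3⟩ : ∃ i j, b i j ≠ 0 := by
    by_contra h1
    push Not at h1
    exact hc.2 (Matrix.ext h1)
  exact mul_ne_zero h1 h3 (congrFun (congrFun h (i, k)) (j, l))

lemma go4_elem (h2 : (2 : F) ≠ 0) {y : GL (Fin 2 × Fin 2) F} (hy : y ∈ similarityGroup (g4 F))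
    (a : Matrix (Fin 2) (Fin 2) F) : (∃ a', cj y (a ⊗ₖ 1) = a' ⊗ₖ 1) ∨
      ∃ a', cj y (a ⊗ₖ 1) = 1 ⊗ₖ a' := by
  obtain ⟨a, c, ha, rfl⟩ := exists_traceless h2 a
  have h1 : adj (idF F) (g4 F) (cj y (a ⊗ₖ 1)) = -cj y (a ⊗ₖ 1) := by
    rw [sq_g4.adj_cj hy, adj_g4, ha, zero_smul, zero_sub, Matrix.trace_one, Fintype.card_fin,
      Nat.cast_ofNat, two_smul, add_sub_cancel_right, ← map_neg]
    congr 1
    ext; simp
  obtain ⟨a', b', h3, h4, h5⟩ := skew_g4 h2 h1
  have h6 : cj y (a ⊗ₖ 1) * cj y (a ⊗ₖ 1) = (-a.det) • 1 := by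
    rw [← map_mul, ← Matrix.mul_kronecker_mul, mul_self_of_trace ha, mul_one, Matrix.smul_kronecker,
      Matrix.one_kronecker_one, map_smul, map_one]
  rw [h5, add_mul, mul_add, mul_add] at h6
  simp only [← Matrix.mul_kronecker_mul, mul_one, one_mul, mul_self_of_trace h3,
    mul_self_of_trace h4, Matrix.smul_kronecker, Matrix.kronecker_smul,
    Matrix.one_kronecker_one] at h6
  have h7 : (2 : F) • (a' ⊗ₖ b') = (a'.det + b'.det - a.det) • 1 := by
    rw [two_smul, sub_smul, add_smul]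
    simp only [neg_smul] at h6
    linear_combination (norm := abel_nf) h6
  have h8 := congrArg Matrix.trace h7
  rw [Matrix.trace_smul, Matrix.trace_smul, Matrix.trace_kronecker, h3, zero_mul, smul_zero,
    Matrix.trace_one, smul_eq_mul] at h8
  have h9 : a'.det + b'.det - a.det = 0 := (mul_eq_zero.1 h8.symm).resolve_right (by
    rw [Fintype.card_prod, Fintype.card_fin, Nat.cast_mul]
    exact mul_ne_zero h2 h2)
  rw [h9, zero_smul] at h7
  have h10 : cj y ((a + c • 1) ⊗ₖ 1) = a' ⊗ₖ 1 + 1 ⊗ₖ b' + c • 1 := by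
    rw [Matrix.add_kronecker, Matrix.smul_kronecker, Matrix.one_kronecker_one, map_add, map_smul,
      map_one, h5]
  rcases kron_eq_zero ((smul_eq_zero.1 h7).resolve_left h2) with rfl | rfl
  · refine Or.inr ⟨b' + c • 1, ?_⟩
    rw [h10, Matrix.zero_kronecker, zero_add, Matrix.kronecker_add, Matrix.kronecker_smul,
      Matrix.one_kronecker_one]
  · refine Or.inl ⟨a' + c • 1, ?_⟩
    rw [h10, Matrix.kronecker_zero, add_zero, Matrix.add_kronecker, Matrix.smul_kronecker,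
      Matrix.one_kronecker_one]

/-- The matrix interchanging the two tensor factors. -/
def swapM (F : Type*) [Field F] : Matrix (Fin 2 × Fin 2) (Fin 2 × Fin 2) F :=
  Matrix.of fun p q => if q = p.swap then 1 else 0

lemma swapM_mul (a : Matrix (Fin 2 × Fin 2) (Fin 2 × Fin 2) F) (p q : Fin 2 × Fin 2) :
    (swapM F * a) p q = a p.swap q := by
  simp [swapM, Matrix.mul_apply]

lemma mul_swapM (a : Matrix (Fin 2 × Fin 2) (Fin 2 × Fin 2) F) (p q : Fin 2 × Fin 2) :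
    (a * swapM F) p q = a p q.swap := by
  rw [Matrix.mul_apply, Finset.sum_eq_single q.swap]
  · simp [swapM]
  · intro b _ hb
    rw [swapM, Matrix.of_apply, if_neg, mul_zero]
    rintro rfl
    exact hb rfl
  · simp

lemma swapM_mul_self : swapM F * swapM F = 1 := by
  ext p q
  rw [swapM_mul, swapM, Matrix.of_apply, Prod.swap_swap, Matrix.one_apply]
  exact if_congr eq_comm rfl rfl

/-- The interchange of the two tensor factors as an invertible matrix. -/
def swapG (F : Type*) [Field F] : GL (Fin 2 × Fin 2) F := glOf _ _ swapM_mul_self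

lemma cj_swapG (a b : Matrix (Fin 2) (Fin 2) F) : cj (swapG F) (a ⊗ₖ b) = b ⊗ₖ a := by
  ext p q
  change (swapM F * (a ⊗ₖ b) * swapM F) p q = _
  rw [mul_swapM, swapM_mul]
  simp [mul_comm]

lemma swapM_pure (x y : Fin 2 → F) : swapM F *ᵥ pure2 x y = pure2 y x := by
  funext p
  simp [swapM, Matrix.mulVec, dotProduct, pure2, mul_comm]

lemma g4_swapM (u v : Fin 2 × Fin 2 → F) : g4 F (swapM F *ᵥ u) (swapM F *ᵥ v) = g4 F u v := by
  have h := (sq_g4 (F := F)).sesq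
  induction u using pure2_induction with
  | h0 => rw [Matrix.mulVec_zero, h.zero_left, h.zero_left]
  | hadd x y hx hy => rw [Matrix.mulVec_add, h.add_left, h.add_left, hx, hy]
  | hp x y =>
    induction v using pure2_induction with
    | h0 => rw [Matrix.mulVec_zero, h.zero_right, h.zero_right]
    | hadd x y hx hy => rw [Matrix.mulVec_add, h.add_right, h.add_right, hx, hy]
    | hp x' y' => rw [swapM_pure, swapM_pure, g4_pure, g4_pure, mul_comm]

lemma det_swapM : (swapM F).det = -1 := by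
  have : swapM F = Equiv.Perm.permMatrix F (Equiv.swap ((0 : Fin 2), (1 : Fin 2)) (1, 0)) := by
    ext p q
    rw [swapM, Matrix.of_apply, Equiv.Perm.permMatrix, PEquiv.toMatrix_apply, Equiv.toPEquiv_apply]
    refine if_congr ?_ rfl rfl
    revert p q
    decide
  rw [this, Matrix.det_permutation, Equiv.Perm.sign_swap (by decide)]
  simp

/-- A similarity of the plus-type space of dimension four fixes or interchanges the factors. -/
theorem go4_cases (h2 : (2 : F) ≠ 0) {y : GL (Fin 2 × Fin 2) F} (hy : y ∈ similarityGroup (g4 F)) :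
    ∃ a b : GL (Fin 2) F, (y : Matrix (Fin 2 × Fin 2) (Fin 2 × Fin 2) F) =
      (a : Matrix (Fin 2) (Fin 2) F) ⊗ₖ (b : Matrix (Fin 2) (Fin 2) F) ∨
      ((swapG F * y : GL (Fin 2 × Fin 2) F) : Matrix (Fin 2 × Fin 2) (Fin 2 × Fin 2) F) =
        (a : Matrix (Fin 2) (Fin 2) F) ⊗ₖ (b : Matrix (Fin 2) (Fin 2) F) := by
  by_cases h : ∀ a : Matrix (Fin 2) (Fin 2) F, ∃ a', cj y (a ⊗ₖ 1) = a' ⊗ₖ 1
  · obtain ⟨a, b, h1⟩ := exists_kron_of_normalizes y h
    exact ⟨a, b, Or.inl h1⟩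
  push Not at h
  obtain ⟨a₀, h⟩ := h
  obtain ⟨a₁, h1⟩ := (go4_elem h2 hy a₀).resolve_left fun ⟨a', h'⟩ => h a' h'
  obtain ⟨a, b, h3⟩ := exists_kron_of_normalizes (swapG F * y) fun a => by
    rw [cj_mul, kronL_apply]
    rcases go4_elem h2 hy a with ⟨a', h3⟩ | ⟨a', h3⟩
    swap
    · exact ⟨a', by rw [h3, cj_swapG, kronL_apply]⟩
    rcases go4_elem h2 hy (a + a₀) with ⟨a'', h4⟩ | ⟨a'', h4⟩ <;>
      rw [Matrix.add_kronecker, map_add] at h4
    · refine (h (a'' - a') ?_).elim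
      rw [← kronL_apply (a'' - a'), map_sub, kronL_apply, kronL_apply, ← h4, h3, add_sub_cancel_left]
    · refine ⟨a'' - a₁, ?_⟩
      rw [kronL_apply, ← cj_swapG 1 (a'' - a₁), ← kronR_apply (a'' - a₁), map_sub, kronR_apply, kronR_apply,
        ← h4, h1, add_sub_cancel_right]
  exact ⟨a, b, Or.inr h3⟩

theorem go4_of_det (h2 : (2 : F) ≠ 0) {y : GL (Fin 2 × Fin 2) F} {c : F}
    (hy : ∀ u v, g4 F ((y : Matrix _ _ F) *ᵥ u) ((y : Matrix _ _ F) *ᵥ v) = c * g4 F u v)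
    (hd : (y : Matrix (Fin 2 × Fin 2) (Fin 2 × Fin 2) F).det ≠ -c ^ 2) :
    ∃ a b : GL (Fin 2) F, (y : Matrix (Fin 2 × Fin 2) (Fin 2 × Fin 2) F) =
      (a : Matrix (Fin 2) (Fin 2) F) ⊗ₖ (b : Matrix (Fin 2) (Fin 2) F) := by
  obtain ⟨a, b, h | h⟩ := go4_cases h2 (mem_sim_of sq_g4.sesq sq_g4.nondeg hy)
  · exact ⟨a, b, h⟩
  refine (hd ?_).elim
  obtain ⟨u, v, huv⟩ := Sesq.exists_ne_zero (sq_g4 (F := F)).nondeg
  have h1 := g4_kron (a : Matrix (Fin 2) (Fin 2) F) b u v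
  have h3 := congrArg Matrix.det h
  rw [← h, Units.val_mul, ← Matrix.mulVec_mulVec, ← Matrix.mulVec_mulVec] at h1
  change g4 F (swapM F *ᵥ _) (swapM F *ᵥ _) = _ at h1
  rw [g4_swapM, hy] at h1
  rw [Units.val_mul, Matrix.det_mul, Matrix.det_kronecker] at h3
  change (swapM F).det * _ = _ at h3
  rw [det_swapM, Fintype.card_fin] at h3
  rw [mul_right_cancel₀ huv h1]
  linear_combination -h3

lemma exists_g4_iso [Finite F] (h2 : (2 : F) ≠ 0) {f₂ : (Fin 4 → F) → (Fin 4 → F) → F}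
    (h : Sq (idF F) 1 f₂) (hp : IsPlusTypeOn (fun v => f₂ v v) ⊤) :
    ∃ S : (Fin 2 × Fin 2 → F) ≃ₗ[F] (Fin 4 → F), ∀ u v, f₂ (S u) (S v) = g4 F u v := by
  have h0 := (sq_g4 (F := F)).isNQF_self h2
  have hp0 := plus_of_tensor_two h0 (T := LinearEquiv.refl F _) fun x y => by
    change g4 F (pure2 x y) (pure2 x y) = 0
    rw [g4_pure, det2_self, zero_mul]
  rw [plus_top_iff] at hp hp0
  obtain ⟨S, hS⟩ := H79.iso_of_isPlus_iff (m := 2) (by simp) (by simp) _ (nd_ofGeo h0) _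
    (nd_ofGeo (h.isNQF_self h2)) (iff_of_true hp0 hp)
  have hS' : ∀ u, f₂ (S u) (S u) = g4 F u u := hS
  refine ⟨S, fun u v => mul_left_cancel₀ h2 ?_⟩
  have := hS' (u + v)
  rw [map_add] at this
  simp only [h.sesq.add_left, h.sesq.add_right, sq_g4.sesq.add_left, sq_g4.sesq.add_right, hS',
    h.symm (S v) (S u), sq_g4.symm v u] at this
  linear_combination this

lemma det_conjT (T : (κ → F) ≃ₗ[F] (ι → F)) (a : Matrix κ κ F) : (conjT T a).det = a.det := by
  obtain ⟨e, P, rfl⟩ := exists_frame T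
  rw [conjT_frameEquiv, cj_apply, Matrix.det_units_conj, Matrix.det_reindex_self]

/-- A group of determinant-one isometries preserving a decomposition `O₃ ⊗ O₄⁺` preserves a tensor
decomposition with a two-dimensional factor. -/
theorem TensorData.exists_two_six [Finite F] (h2 : (2 : F) ≠ 0) (hf : Sq (idF F) 1 f)
    {T : (Fin 3 × Fin 4 → F) ≃ₗ[F] (ι → F)} {f₁ : (Fin 3 → F) → (Fin 3 → F) → F}
    {f₂ : (Fin 4 → F) → (Fin 4 → F) → F} (h : TensorData (idF F) f T 1 1 f₁ f₂)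
    (hp : IsPlusTypeOn (fun v => f₂ v v) ⊤) (hT : PresT H T) (hH : H ≤ isom f)
    (hd : H ≤ specialLinear ι F) :
    ∃ (T' : (Fin 2 × Fin 6 → F) ≃ₗ[F] (ι → F)) (ε₁ ε₂ : F) (g₁ : (Fin 2 → F) → (Fin 2 → F) → F)
      (g₂ : (Fin 6 → F) → (Fin 6 → F) → F), TensorData (idF F) f T' ε₁ ε₂ g₁ g₂ ∧ PresT H T' := by
  obtain ⟨S, hS⟩ := exists_g4_iso h2 h.sq₂ hp
  have hS' : (fun u v => f₂ (S u) (S v)) = g4 F := funext fun u => funext (hS u)
  let ψ : Matrix (Fin 2) (Fin 2) F →ₐ[F] Matrix ι ι F := (conjT T).toAlgHom.comp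
    ((kronR (Fin 3) (Fin 4) F).comp ((conjT S).toAlgHom.comp (kronL (Fin 2) (Fin 2) F)))
  have hψ : ∀ a, ψ a = conjT T (1 ⊗ₖ conjT S (a ⊗ₖ 1)) := fun _ => rfl
  obtain ⟨b, T', hT'⟩ := exists_tensor_of_algHom ψ
  obtain rfl : b = 6 := by
    have h1 := card_eq_of_linearEquiv T
    have h3 := card_eq_of_linearEquiv T'
    simp only [Fintype.card_prod, Fintype.card_fin] at h1 h3
    omega
  obtain ⟨ε₁, ε₂, g₁, g₂, hTD⟩ := hf.exists_tensorData (by omega) (by omega) T' fun a =>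
    ⟨a.trace • 1 - a, by
      rw [← hT', ← hT', hψ, hψ, h.adj_kron, h.sq₁.adj_one, h.sq₂.adj_conjT, hS', adj_g4,
        Matrix.trace_one, Fintype.card_fin, Nat.cast_ofNat, two_smul, add_sub_cancel_right]⟩
  refine ⟨T', ε₁, ε₂, g₁, g₂, hTD, presT_of_nrm (by omega) (by omega) (B := ψ.range) ?_
    fun x => ⟨fun ⟨y, hy⟩ => ⟨y, by rw [← hT', ← hy]; rfl⟩, fun ⟨y, hy⟩ => ⟨y, by rw [hy, ← hT']; rfl⟩⟩⟩
  rintro g hg _ ⟨a, rfl⟩
  obtain ⟨x, y, hxy⟩ := hT g hg
  obtain ⟨⟨l, hl⟩, ⟨m, hm⟩⟩ := h.mem_sim hf (by omega) (by omega) (isom_le_sim (hH hg)) hxy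
  have hlm : (l : F) * m = 1 := by
    obtain ⟨c, hc, hp⟩ := h.prop_pure
    obtain ⟨u, u', hu⟩ := Sesq.exists_ne_zero h.sq₁.nondeg
    obtain ⟨v, v', hv⟩ := Sesq.exists_ne_zero h.sq₂.nondeg
    have := mem_isom.1 (hH hg) (T (pure2 u v)) (T (pure2 u' v'))
    rw [hxy, conjT_mulVec, conjT_mulVec, kron_mulVec_pure2, kron_mulVec_pure2, hp, hp, hl,
      hm] at this
    refine mul_right_cancel₀ (mul_ne_zero hc (mul_ne_zero hu hv)) ?_
    linear_combination this
  have hdet : (x : Matrix (Fin 3) (Fin 3) F).det ^ 4 * (y : Matrix (Fin 4) (Fin 4) F).det ^ 3 = 1 := by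
    have := congrArg Units.val (MonoidHom.mem_ker.1 (hd hg))
    rwa [Matrix.GeneralLinearGroup.val_det_apply, hxy, det_conjT, Matrix.det_kronecker,
      Fintype.card_fin, Fintype.card_fin] at this
  have hx := h.sq₁.det_sq_of_sim hl
  rw [Fintype.card_fin] at hx
  obtain ⟨a₁, b₁, h1⟩ := go4_of_det h2 (y := pullGL (conjT S) y) (c := m) (fun u v => by
    rw [← hS, ← hS, ← conjT_mulVec, ← conjT_mulVec, map_pullGL, hm]) fun h1 => h2 (by
      rw [← det_conjT S, map_pullGL] at h1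
      rw [h1, show (4 : ℕ) = 2 * 2 from rfl, pow_mul, hx] at hdet
      linear_combination (-1) * hdet - ((l * m) ^ 5 + (l * m) ^ 4 + (l * m) ^ 3 + (l * m) ^ 2 +
        (l * m) + 1) * hlm)
  refine ⟨cj a₁ a, ?_⟩
  change ψ _ = cj g (ψ a)
  rw [hψ, hψ, cj_conjT_kron hxy, map_one, ← map_cj_pullGL,
    cj_apply (pullGL (conjT S) y), Units.inv_eq_of_mul_eq_one_right
      (a := ((a₁⁻¹ : GL (Fin 2) F) : Matrix (Fin 2) (Fin 2) F) ⊗ₖ
        ((b₁⁻¹ : GL (Fin 2) F) : Matrix (Fin 2) (Fin 2) F)) (by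
      rw [h1, ← Matrix.mul_kronecker_mul, gl_mul_inv, gl_mul_inv, Matrix.one_kronecker_one]),
    h1, ← Matrix.mul_kronecker_mul, ← Matrix.mul_kronecker_mul, mul_one, gl_mul_inv, cj_apply]

end Cfsg.Agent.H25
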