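import Cfsg.Agent.H17.LPDefs

/-! Project LP, piece E10: finite checks. -/

set_option autoImplicit false
set_option maxRecDepth 100000

namespace Cfsg.Agent.H25.LpE10

open Cfsg.Agent.H17.LP Finset

abbrev U6 := F × F × F × F × F × F
abbrev W4 := F × F × F × F

/-- product of unitriangular `4 × 4` matrices -/
def mu : U6 → U6 → U6
  | (a, b, c, d, e, f), (a', b', c', d', e', f') =>
    (a' + a, b' + a * d' + b, c' + a * e' + b * f' + c, d' + d, e' + d * f' + e, f' + f)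

def fW : U6 → W4 → Prop
  | (a, b, c, d, e, f), (_, v1, v2, v3) =>
    f * v3 = 0 ∧ d * v2 + e * v3 = 0 ∧ a * v1 + b * v2 + c * v3 = 0

def fL : U6 → U6 → Prop
  | (a, b, c, d, e, f), (_, p1, p2, p3, p4, p5) =>
    d * p5 = 0 ∧ f * p4 + (d * f + e) * p5 = 0 ∧ a * p4 + b * p5 = 0 ∧
    f * p2 + a * p3 + a * f * p4 + (b * f + c) * p5 = 0 ∧
    d * p1 + e * p2 + (a * d + b) * p3 + (a * e + c) * p4 + (b * e + c * d) * p5 = 0

def wd : W4 → W4 → Prop
  | (u0, u1, u2, u3), (v0, v1, v2, v3) =>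
    u0 * v1 + u1 * v0 = 0 ∧ u0 * v2 + u2 * v0 = 0 ∧ u0 * v3 + u3 * v0 = 0 ∧
    u1 * v2 + u2 * v1 = 0 ∧ u1 * v3 + u3 * v1 = 0 ∧ u2 * v3 + u3 * v2 = 0

def bl (x : U6) : Prop := x.1 = 0 ∧ x.2.2.2.2.2 = 0
def iv (x : U6) : Prop := mu x x = 0
def cm (x y : U6) : Prop := mu x y = mu y x

instance (x : U6) (v : W4) : Decidable (fW x v) := by
  obtain ⟨a, b, c, d, e, f⟩ := x; obtain ⟨v0, v1, v2, v3⟩ := v; unfold fW; infer_instance
instance (x p : U6) : Decidable (fL x p) := by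
  obtain ⟨a, b, c, d, e, f⟩ := x; obtain ⟨v0, v1, v2, v3, v4, v5⟩ := p; unfold fL; infer_instance
instance (x v : W4) : Decidable (wd x v) := by
  obtain ⟨a, b, c, d⟩ := x; obtain ⟨v0, v1, v2, v3⟩ := v; unfold wd; infer_instance
instance (x : U6) : Decidable (bl x) := by unfold bl; infer_instance
instance (x : U6) : Decidable (iv x) := by unfold iv; infer_instance
instance (x y : U6) : Decidable (cm x y) := by unfold cm; infer_instance

theorem d0 : ∀ u v : W4, wd u v → u = 0 ∨ v = 0 ∨ u = v := by decide +kernel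

theorem d1 : ∀ x : U6, iv x → x ≠ 0 →
    #{p : U6 | fL x p} ≤ 16 ∧ #{v : W4 | fW x v} ≤ 8 := by decide +kernel

set_option synthInstance.maxSize 2000 in
set_option synthInstance.maxHeartbeats 200000 in
theorem d2 : ∀ x : U6, iv x → x ≠ 0 → ∀ y : U6, iv y → y ≠ 0 → x ≠ y → cm x y →
    #{p : U6 | fL x p ∧ fL y p} * max #{v : W4 | fW x v ∧ fW y v} 4 ≤ 64 := by decide +kernel

theorem d3 : #{x : U6 | bl x} = 16 ∧ #{p : U6 | 8 < #{x : U6 | bl x ∧ fL x p}} ≤ 8 ∧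
    #{v : W4 | 8 < #{x : U6 | bl x ∧ fW x v}} ≤ 4 := by decide +kernel

theorem d4 : ∀ x : U6, iv x → ¬ bl x →
    #{y : U6 | iv y ∧ cm x y ∧ 8 < #{w : U6 | iv w ∧ cm x w ∧ cm y w}} ≤ 8 := by decide +kernel

/-- the numerical bound -/
theorem bound (S1 S4 : Finset U6) (S : Finset W4) (n : ℕ) (hn : n ≤ #S ∨ n ≤ 4)
    (hi : ∀ x ∈ S1, iv x) (hc : ∀ x ∈ S1, ∀ y ∈ S1, cm x y) (hL : ∀ x ∈ S1, ∀ p ∈ S4, fL x p)
    (hW : ∀ x ∈ S1, ∀ v ∈ S, fW x v) (x : U6) (hx : x ∈ S1) (x0 : x ≠ 0) :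
    #S1 * (#S4 * n) ≤ 512 := by
  by_cases h4 : #S1 ≤ 4
  · obtain ⟨a, b⟩ := d1 x (hi x hx) x0
    have a' : #S4 ≤ 16 := (card_le_card fun p hp => mem_filter.2 ⟨mem_univ _, hL x hx p hp⟩).trans a
    have b' : #S ≤ 8 := (card_le_card fun p hp => mem_filter.2 ⟨mem_univ _, hW x hx p hp⟩).trans b
    calc _ ≤ 4 * (16 * 8) := Nat.mul_le_mul h4 (Nat.mul_le_mul a' (by omega))
      _ = _ := by norm_num
  by_cases h8 : #S1 ≤ 8
  · obtain ⟨y, hy, hy'⟩ : ∃ y ∈ S1, y ∉ ({0, x} : Finset U6) :=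
      exists_mem_notMem_of_card_lt_card (lt_of_le_of_lt card_le_two (by omega))
    rw [mem_insert, mem_singleton, not_or] at hy'
    have a := d2 x (hi x hx) x0 y (hi y hy) hy'.1 (Ne.symm hy'.2) (hc x hx y hy)
    have a' : #S4 ≤ #{p : U6 | fL x p ∧ fL y p} :=
      card_le_card fun p hp => mem_filter.2 ⟨mem_univ _, hL x hx p hp, hL y hy p hp⟩
    have b' : #S ≤ #{v : W4 | fW x v ∧ fW y v} :=
      card_le_card fun p hp => mem_filter.2 ⟨mem_univ _, hW x hx p hp, hW y hy p hp⟩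
    calc _ ≤ 8 * 64 := Nat.mul_le_mul h8 ((Nat.mul_le_mul a' (by omega)).trans a)
      _ = _ := by norm_num
  have hb : ∀ y ∈ S1, bl y := fun y hy => by
    by_contra h
    refine h8 ((card_le_card fun w hw => mem_filter.2 ⟨mem_univ _, hi w hw, hc y hy w hw, ?_⟩).trans
      (d4 y (hi y hy) h))
    exact lt_of_lt_of_le (not_le.1 h8) (card_le_card fun t ht =>
      mem_filter.2 ⟨mem_univ _, hi t ht, hc y hy t ht, hc w hw t ht⟩)
  obtain ⟨a, b, c⟩ := d3
  have a' : #S1 ≤ 16 := a ▸ card_le_card fun p hp => mem_filter.2 ⟨mem_univ _, hb p hp⟩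
  have b' : #S4 ≤ 8 := (card_le_card fun p hp => mem_filter.2 ⟨mem_univ _,
    lt_of_lt_of_le (not_le.1 h8) (card_le_card fun t ht =>
      mem_filter.2 ⟨mem_univ _, hb t ht, hL t ht p hp⟩)⟩).trans b
  have c' : #S ≤ 4 := (card_le_card fun p hp => mem_filter.2 ⟨mem_univ _,
    lt_of_lt_of_le (not_le.1 h8) (card_le_card fun t ht =>
      mem_filter.2 ⟨mem_univ _, hb t ht, hW t ht p hp⟩)⟩).trans c
  calc _ ≤ 16 * (8 * 4) := Nat.mul_le_mul a' (Nat.mul_le_mul b' (by omega))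
    _ = _ := by norm_num

theorem wedge (S2 S3 : Finset W4) (h : ∀ u ∈ S2, ∀ v ∈ S3, wd u v) :
    (∀ u ∈ S2, u = 0) ∨ (∀ v ∈ S3, v = 0) ∨ #S2 * #S3 ≤ 4 := by
  by_contra c
  simp only [not_or, not_forall] at c
  obtain ⟨⟨u, hu, u0⟩, ⟨v, hv, v0⟩, c⟩ := c
  have a : #S2 ≤ 2 := (card_le_card fun w hw => by
    rcases d0 w v (h w hw v hv) with e | e | e
    · simp [e]
    · exact absurd e v0
    · simp [e]).trans (card_le_two (a := 0) (b := v))
  have b : #S3 ≤ 2 := (card_le_card fun w hw => by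
    rcases d0 u w (h u hu w hw) with e | e | e
    · exact absurd e u0
    · simp [e]
    · simp [e]).trans (card_le_two (a := 0) (b := u))
  exact c (Nat.mul_le_mul a b)

open Matrix

/-- unitriangular matrices -/
def GM : U6 → W4 → M5
  | (a, b, c, d, e, f), (u0, u1, u2, u3) =>
    !![1, a, b, c, u0; 0, 1, d, e, u1; 0, 0, 1, f, u2; 0, 0, 0, 1, u3; 0, 0, 0, 0, 1]

/-- alternating matrices -/
def AM : U6 → W4 → M5
  | (a, b, c, d, e, f), (u0, u1, u2, u3) =>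
    !![0, a, b, c, u0; a, 0, d, e, u1; b, d, 0, f, u2; c, e, f, 0, u3; u0, u1, u2, u3, 0]

def ub (m : M5) : U6 := (m 0 1, m 0 2, m 0 3, m 1 2, m 1 3, m 2 3)
def uc (m : M5) : W4 := (m 0 4, m 1 4, m 2 4, m 3 4)

theorem formG {n : N0} (h : n ∈ T0) : n.g.1 = GM (ub n.g.1) (uc n.g.1) := by
  have h2 := (mem_Pat.1 h).2
  ext i j
  fin_cases i <;> fin_cases j <;> first | rfl | exact h2 _ _ (by decide)

theorem formA (n : N0) : n.a = AM (ub n.a) (uc n.a) := by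
  ext i j
  fin_cases i <;> fin_cases j <;> first | rfl | exact n.alt.2 _ | exact n.alt.symm _ _

theorem e1 (a b : F) : a + b = a ↔ b = 0 := by revert a b; decide

theorem ub_mul (x y : U6) (u v : W4) : ub (GM x u * GM y v) = mu x y := by
  obtain ⟨a, b, c, d, e, f⟩ := x; obtain ⟨u0, u1, u2, u3⟩ := u
  obtain ⟨a', b', c', d', e', f'⟩ := y; obtain ⟨v0, v1, v2, v3⟩ := v
  simp [ub, GM, mu, mul_apply, Fin.sum_univ_five]

theorem fW_of (x : U6) (u v : W4) (h : GM x u * GM 0 v = GM 0 v * GM x u) : fW x v := by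
  obtain ⟨a, b, c, d, e, f⟩ := x; obtain ⟨u0, u1, u2, u3⟩ := u; obtain ⟨v0, v1, v2, v3⟩ := v
  change GM _ _ * GM (0, 0, 0, 0, 0, 0) _ = GM (0, 0, 0, 0, 0, 0) _ * GM _ _ at h
  have h0 := congrFun (congrFun h 0) 4
  have h1 := congrFun (congrFun h 1) 4
  have h2 := congrFun (congrFun h 2) 4
  simp [GM, mul_apply, Fin.sum_univ_five] at h0 h1 h2
  refine ⟨?_, ?_, ?_⟩
  · linear_combination h2
  · linear_combination h1
  · linear_combination h0

theorem act_of (x p : U6) (u v : W4) (h : GM x u * AM p v * (GM x u)ᵀ = AM p v) :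
    fW x v ∧ (v = 0 → fL x p) ∧ (x = 0 → wd u v) := by
  obtain ⟨a, b, c, d, e, f⟩ := x; obtain ⟨u0, u1, u2, u3⟩ := u; obtain ⟨v0, v1, v2, v3⟩ := v
  obtain ⟨p0, p1, p2, p3, p4, p5⟩ := p
  have h04 := congrFun (congrFun h 0) 4
  have h14 := congrFun (congrFun h 1) 4
  have h24 := congrFun (congrFun h 2) 4
  have h01 := congrFun (congrFun h 0) 1
  have h02 := congrFun (congrFun h 0) 2
  have h03 := congrFun (congrFun h 0) 3
  have h12 := congrFun (congrFun h 1) 2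
  have h13 := congrFun (congrFun h 1) 3
  have h23 := congrFun (congrFun h 2) 3
  simp only [GM, AM, mul_apply, transpose_apply, Fin.sum_univ_five, of_apply, cons_val', cons_val_zero,
    cons_val_one, Matrix.cons_val, cons_val_fin_one] at h04 h14 h24 h01 h02 h03 h12 h13 h23
  refine ⟨⟨?_, ?_, ?_⟩, fun hv => ?_, fun hx => ?_⟩
  · linear_combination h24
  · linear_combination h14
  · linear_combination h04
  · simp only [Prod.mk_eq_zero] at hv
    obtain ⟨rfl, rfl, rfl, rfl⟩ := hv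
    refine ⟨?_, ?_, ?_, ?_, ?_⟩
    · linear_combination h13
    · linear_combination h12
    · linear_combination h03
    · linear_combination h02
    · linear_combination h01
  · simp only [Prod.mk_eq_zero] at hx
    obtain ⟨rfl, rfl, rfl, rfl, rfl, rfl⟩ := hx
    refine ⟨?_, ?_, ?_, ?_, ?_, ?_⟩
    · linear_combination h01
    · linear_combination h02
    · linear_combination h03
    · linear_combination h12
    · linear_combination h13
    · linear_combination h23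

theorem cnt {G α : Type} [Group G] [Finite G] [DecidableEq α] (B K : Subgroup G) (f : G → α)
    (hf : ∀ x ∈ B, ∀ y ∈ B, f x = f y → x⁻¹ * y ∈ K) :
    ∃ S : Finset α, (∀ s, s ∈ S ↔ ∃ x ∈ B, f x = s) ∧
      Nat.card B ≤ Nat.card ↥(B ⊓ K) * #S := by
  classical
  have := Fintype.ofFinite B
  have := Fintype.ofFinite ↥(B ⊓ K)
  refine ⟨univ.image fun x : B => f x, fun s => by simp, ?_⟩
  rw [Nat.card_eq_fintype_card, ← card_univ]
  refine card_le_mul_card_image _ _ fun s hs => ?_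
  obtain ⟨x, -, rfl⟩ := mem_image.1 hs
  rw [Nat.card_eq_fintype_card, ← card_univ]
  · refine card_le_card_of_injOn (fun y : B => if h : f x = f y then
      (⟨x⁻¹ * y, B.mul_mem (B.inv_mem x.2) y.2, hf x x.2 y y.2 h⟩ : ↥(B ⊓ K)) else 1)
      (fun _ _ => mem_univ _) fun y hy w hw e => ?_
    have h1 : f x = f y := (mem_filter.1 hy).2.symm
    have h2 : f x = f w := (mem_filter.1 hw).2.symm
    simp only [dif_pos h1, dif_pos h2] at e
    exact Subtype.ext (mul_left_cancel (congrArg Subtype.val e))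

theorem mem_J {n : N0} (h : n ∈ T0) : n ∈ J0 ↔ ub n.g.1 = 0 := by
  constructor
  · intro hj
    have h2 := (mem_Pat.1 hj).2
    simp only [ub, Prod.mk_eq_zero]
    exact ⟨h2 0 1 (by decide), h2 0 2 (by decide), h2 0 3 (by decide), h2 1 2 (by decide),
      h2 1 3 (by decide), h2 2 3 (by decide)⟩
  · intro e
    refine mem_Pat.2 ⟨fun i j hij => absurd hij (by simp), fun i j hij => ?_⟩
    rw [formG h, e]
    generalize uc n.g.1 = u
    obtain ⟨u0, u1, u2, u3⟩ := u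
    fin_cases i <;> fin_cases j <;> first | rfl | exact absurd hij (by decide)

theorem mem_A {n : N0} : n ∈ A0 ↔ n.g = 1 :=
  ⟨fun h => Subtype.ext (Matrix.ext fun i j => (mem_Pat.1 h).2 i j rfl),
    fun e => mem_Pat.2 ⟨fun i j hij => absurd hij (by simp), fun i j _ => by rw [e]; rfl⟩⟩

theorem mem_Z {n : N0} : n ∈ Z6 ↔ n.g = 1 ∧ uc n.a = 0 := by
  constructor
  · intro h
    obtain ⟨h1, h2⟩ := mem_Pat.1 h
    refine ⟨Subtype.ext (Matrix.ext fun i j => h2 i j rfl), ?_⟩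
    simp only [uc, Prod.mk_eq_zero]
    exact ⟨h1 0 4 (by decide), h1 1 4 (by decide), h1 2 4 (by decide), h1 3 4 (by decide)⟩
  · rintro ⟨e1, e⟩
    refine mem_Pat.2 ⟨fun i j hij => ?_, fun i j _ => by rw [e1]; rfl⟩
    rw [formA n, e]
    generalize ub n.a = u
    obtain ⟨u0, u1, u2, u3, u4, u5⟩ := u
    fin_cases i <;> fin_cases j <;> first | rfl | exact absurd hij (by decide)

theorem Z_le : Z6 ≤ Ap := fun n h => by
  obtain ⟨h1, h2⟩ := mem_Pat.1 h
  exact mem_Pat.2 ⟨h1, fun i j _ => h2 i j rfl⟩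

set_option synthInstance.maxSize 2000 in
set_option synthInstance.maxHeartbeats 200000 in
theorem mu_eq : ∀ x y : U6, iv x → (mu x y = 0 ↔ x = y) := by decide +kernel

theorem one_act (a : M5) : (1 : SL5).1 * a * (1 : SL5).1ᵀ = a := by
  change (1 : M5) * a * (1 : M5)ᵀ = a
  simp

theorem uc_add (a b : M5) : uc (a + b) = uc a + uc b := rfl
theorem ub_add (a b : M5) : ub (a + b) = ub a + ub b := rfl

theorem e10 (n : NrmStmt) (k : KitStmt) : E10Stmt := by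
  intro B hT h2 hc
  have hi : ∀ x ∈ B, x⁻¹ = x := fun x hx => inv_eq_of_mul_eq_one_right (h2 x hx)
  have com : ∀ x ∈ B, ∀ y ∈ B, x * y = y * x := fun x hx y hy => by
    rw [← hi _ (mul_mem hx hy), _root_.mul_inv_rev, hi x hx, hi y hy]
  have um : ∀ x ∈ B, ∀ y ∈ B, ub (x * y).g.1 = mu (ub x.g.1) (ub y.g.1) := fun x hx y hy => by
    rw [mul_g, coe_mul', formG (hT hx), formG (hT hy), ub_mul, ← formG (hT hx), ← formG (hT hy)]
  have ivx : ∀ x ∈ B, iv (ub x.g.1) := fun x hx => by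
    rw [iv, ← um x hx x hx, h2 x hx]; rfl
  have act : ∀ x ∈ B, ∀ y ∈ B, y.g = 1 → fW (ub x.g.1) (uc y.a) ∧
      (uc y.a = 0 → fL (ub x.g.1) (ub y.a)) ∧ (ub x.g.1 = 0 → wd (uc x.g.1) (uc y.a)) := by
    intro x hx y hy e
    refine act_of _ _ _ _ ?_
    rw [← formG (hT hx), ← formA]
    have := congrArg N0.a (com x hx y hy)
    rw [mul_a, mul_a, e] at this
    rw [one_act, add_comm y.a] at this
    exact add_left_cancel this
  obtain ⟨S1, m1, c1⟩ := cnt B J0 (fun x => ub x.g.1) fun x hx y hy e => by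
    rw [hi x hx, mem_J (hT (mul_mem hx hy)), um x hx y hy, mu_eq _ _ (ivx x hx)]
    exact e
  obtain ⟨S2, m2, c2⟩ := cnt (B ⊓ J0) A0 (fun x => uc x.g.1) fun x hx y hy e => by
    rw [mem_A, mul_g, inv_g, inv_mul_eq_one]
    refine Subtype.ext ?_
    rw [formG (hT hx.1), formG (hT hy.1), (mem_J (hT hx.1)).1 hx.2, (mem_J (hT hy.1)).1 hy.2]
    exact congrArg _ e
  obtain ⟨S3, m3, c3⟩ := cnt (B ⊓ J0 ⊓ A0) Z6 (fun x => uc x.a) fun x hx y hy e => by
    have gx := mem_A.1 hx.2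
    rw [hi x hx.1.1, mem_Z, mul_g, mul_a, gx, mem_A.1 hy.2, one_mul]
    refine ⟨rfl, ?_⟩
    rw [one_act, uc_add, show uc y.a = uc x.a from e.symm, ← uc_add, add_self_M]
    rfl
  obtain ⟨S4, m4, c4⟩ := cnt (B ⊓ J0 ⊓ A0 ⊓ Z6) ⊥ (fun x => ub x.a) fun x hx y hy e => by
    rw [Subgroup.mem_bot, inv_mul_eq_one]
    obtain ⟨a1, a2⟩ := mem_Z.1 hx.2
    obtain ⟨b1, b2⟩ := mem_Z.1 hy.2
    refine N0.ext ?_ (a1.trans b1.symm)
    rw [formA x, formA y, a2, b2]
    exact congrArg (AM · 0) e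
  rw [inf_bot_eq, Subgroup.card_bot, one_mul] at c4
  have tot : 1024 ≤ #S1 * (#S4 * (#S2 * #S3)) := by
    calc 1024 ≤ Nat.card B := hc
      _ ≤ #S4 * #S3 * #S2 * #S1 := c1.trans (Nat.mul_le_mul_right _ (c2.trans
        (Nat.mul_le_mul_right _ (c3.trans (Nat.mul_le_mul_right _ c4)))))
      _ = _ := by ring
  have wg := wedge S2 S3 fun u hu v hv => by
    obtain ⟨x, hx, rfl⟩ := (m2 u).1 hu
    obtain ⟨y, hy, rfl⟩ := (m3 v).1 hv
    exact (act x hx.1 y hy.1.1 (mem_A.1 hy.2)).2.2 ((mem_J (hT hx.1)).1 hx.2)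
  have one : ∀ {α : Type} [Zero α] (S : Finset α), (∀ u ∈ S, u = 0) → #S ≤ 1 := fun S h =>
    card_le_one.2 fun a ha b hb => (h a ha).trans (h b hb).symm
  have hJ : B ≤ J0 := fun x hx => by
    rw [mem_J (hT hx)]
    by_contra x0
    have key := fun (S : Finset W4) hn hW => bound S1 S4 S (#S2 * #S3) hn
      (fun u hu => by obtain ⟨x, hx, rfl⟩ := (m1 u).1 hu; exact ivx x hx)
      (fun u hu v hv => by
        obtain ⟨x, hx, rfl⟩ := (m1 u).1 hu
        obtain ⟨y, hy, rfl⟩ := (m1 v).1 hv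
        rw [cm, ← um x hx y hy, ← um y hy x hx, com x hx y hy])
      (fun u hu v hv => by
        obtain ⟨x, hx, rfl⟩ := (m1 u).1 hu
        obtain ⟨y, hy, rfl⟩ := (m4 v).1 hv
        exact (act x hx y hy.1.1.1 (mem_Z.1 hy.2).1).2.1 (mem_Z.1 hy.2).2)
      hW _ ((m1 _).2 ⟨x, hx, rfl⟩) x0
    have w3 : ∀ u ∈ S1, ∀ v ∈ S3, fW u v := fun u hu v hv => by
      obtain ⟨x, hx, rfl⟩ := (m1 u).1 hu
      obtain ⟨y, hy, rfl⟩ := (m3 v).1 hv
      exact (act x hx y hy.1.1 (mem_A.1 hy.2)).1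
    have w2 : ∀ u ∈ S1, ∀ v ∈ S2, fW u v := fun u hu v hv => by
      obtain ⟨x, hx, rfl⟩ := (m1 u).1 hu
      obtain ⟨y, hy, rfl⟩ := (m2 v).1 hv
      refine fW_of _ (uc x.g.1) _ ?_
      rw [← (mem_J (hT hy.1)).1 hy.2, ← formG (hT hx), ← formG (hT hy.1), ← coe_mul', ← coe_mul',
        ← mul_g, ← mul_g, com x hx y hy.1]
    rcases wg with h | h | h
    · have := key S3 (Or.inl (by simpa using Nat.mul_le_mul_right #S3 (one S2 h))) w3
      omega
    · have := key S2 (Or.inl (by simpa using Nat.mul_le_mul_left #S2 (one S3 h))) w2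
      omega
    · have := key S2 (Or.inr h) w2
      omega
  have fin : ∀ K : Subgroup N0, B ≤ K → Nat.card K = 2 ^ 10 → B = K := fun K h e =>
    Subgroup.eq_of_le_of_card_ge h (e ▸ hc)
  rcases wg with h | h | h
  · refine Or.inl (fin _ (fun x hx => mem_A.2 (Subtype.ext ?_)) k.2.1)
    rw [formG (hT hx), (mem_J (hT hx)).1 (hJ hx), h _ ((m2 _).2 ⟨x, ⟨hx, hJ hx⟩, rfl⟩)]
    decide
  · have u : ∀ x ∈ B, x ∈ Ap ∨ x ∈ App := fun x hx => by
      rcases n.2.2.2.2.2.2.2.2.2.2.2.2.2.2.1 x (hJ hx) (h2 x hx) with e | e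
      · exact Or.inl (Z_le (mem_Z.2 ⟨mem_A.1 e, h _ ((m3 _).2 ⟨x, ⟨⟨hx, hJ hx⟩, e⟩, rfl⟩)⟩))
      · exact e
    right
    by_cases a : B ≤ Ap
    · exact Or.inl (fin _ a k.2.2.2.2.2.2.1)
    · refine Or.inr (fin _ (fun y hy => ?_) k.2.2.2.2.2.2.2.1)
      obtain ⟨x, hx, xa⟩ := SetLike.not_le_iff_exists.1 a
      have xb := (u x hx).resolve_left xa
      rcases u y hy with e | e
      · rcases u _ (mul_mem hx hy) with f | f
        · exact absurd ((Subgroup.mul_mem_cancel_right _ e).1 f) xa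
        · exact (Subgroup.mul_mem_cancel_left _ xb).1 f
      · exact e
  · exfalso
    have a : #S1 ≤ 1 := one S1 fun u hu => by
      obtain ⟨x, hx, rfl⟩ := (m1 u).1 hu
      exact (mem_J (hT hx)).1 (hJ hx)
    have b : #S4 ≤ 64 := (card_le_univ S4).trans (by decide +kernel)
    have := Nat.mul_le_mul a (Nat.mul_le_mul b h)
    omega

end Cfsg.Agent.H25.LpE10
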