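import Cfsg.Agent.H25.Orthogonal
import Cfsg.Agent.H30.OrthNonMaxDec

/-! Maximal subgroups of `Ω` in dimension at most twelve. -/

set_option autoImplicit false
set_option linter.unusedSectionVars false
set_option linter.unusedSimpArgs false
set_option linter.style.haveILetI false

namespace Cfsg.Agent.H25

open Matrix Cfsg.Geo Module
open QuadraticMap (polar)
open scoped Kronecker MatrixGroups commutatorElement

variable {ι : Type} [Fintype ι] [DecidableEq ι] {F : Type*} [Field F] [Fintype F]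
  {Q : (ι → F) → F} {H : Subgroup (GL ι F)}

lemma isNQF_quadFormOdd (m : ℕ) (hq : Odd (Fintype.card F)) :
    IsNondegenerateQuadraticForm (quadFormOdd m F) :=
  H30.isNondegenerateQuadraticForm_of ((H79.nd_iff _).2 (H79.nd_qOdd m (two_ne_zero_of_odd hq)))

lemma quadRat_quadFormOdd (m : ℕ) (F₀ : Subfield F) :
    IsQuadFormRationalStructure (quadFormOdd m F) F₀ 1 := fun u hu => by
  rw [Units.val_one, Matrix.one_mulVec]
  exact F₀.add_mem (F₀.pow_mem (hu _) 2) (F₀.sum_mem fun i _ => F₀.mul_mem (hu _) (hu _))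

lemma card_odd_index (m : ℕ) : Fintype.card (Unit ⊕ (Fin m ⊕ Fin m)) = 2 * m + 1 := by
  simp; ring

lemma card_ne_six : Fintype.card F ≠ 6 := fun h => by
  have := FiniteField.isPrimePow_card F
  rw [h] at this
  exact absurd this (by decide)

lemma odd_card_of_odd_finrank (hQ : IsNondegenerateQuadraticForm Q) {W : Submodule F (ι → F)}
    (hW : IsNondegenerateOn (polar Q) W) (h : Odd (finrank F W)) : Odd (Fintype.card F) := by
  by_contra hq
  exact Nat.not_even_iff_odd.2 h ((sq_polar hQ).even_finrank hW fun v _ =>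
    (isSymplecticForm_polar hQ (two_eq_zero_of_not_odd hq)).alternating v)

lemma isSquare_neg_one_iff_of_odd (hq : Odd (Fintype.card F)) {m : ℕ} (hm : Odd m) :
    IsSquare ((-1 : F) ^ m) ↔ Fintype.card F % 4 = 1 := by
  rw [H79.isSquare_neg_one_pow_iff]
  obtain ⟨k, hk⟩ := hq
  simp only [hm, and_true]
  omega

/-- The possible maximal subgroups of `Ω`. -/
inductive OMax (Q : (ι → F) → F) (H : Subgroup (GL ι F)) : Prop
  | ts (W : Submodule F (ι → F)) : W ≠ ⊥ → IsTotallySingularQuad Q W →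
      (IsPlusTypeOn Q ⊤ → 2 * (finrank F W + 1) ≠ Fintype.card ι) →
      H = subspaceStabilizer W ⊓ omegaGL Q → OMax Q H
  | nd (W : Submodule F (ι → F)) : W ≠ ⊥ → W ≠ ⊤ → IsNondegenerateOn (polar Q) W →
      0 < finrank F W → 2 * finrank F W ≤ Fintype.card ι →
      (Odd (finrank F W) → Odd (Fintype.card F)) →
      (finrank F W = 2 → IsPlusTypeOn Q W → 4 ≤ Fintype.card F) →
      (2 * finrank F W = Fintype.card ι → Even (finrank F W) ∧ ¬ IsPlusTypeOn Q ⊤) →
      H = subspaceStabilizer W ⊓ omegaGL Q → OMax Q H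
  | npair (k : ℕ) (D : Fin 2 → Submodule F (ι → F)) : Odd k → Odd (Fintype.card F) →
      2 * k = Fintype.card ι → IsNondegenerateMDecomposition (polar Q) k D →
      ¬ AreIsometricFor Q (D 0) (D 1) → (IsPlusTypeOn Q ⊤ ↔ ¬ Fintype.card F % 4 = 1) →
      H = decompositionStabilizer D ⊓ omegaGL Q → OMax Q H
  | pt (v : ι → F) : ¬ Odd (Fintype.card F) → Q v ≠ 0 →
      H = subspaceStabilizer (F ∙ v) ⊓ omegaGL Q → OMax Q H
  | dec (t k : ℕ) (D : Fin t → Submodule F (ι → F)) : IsOrthogonalMDecomposition Q k D →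
      2 ≤ t → 0 < k → t * k = Fintype.card ι → (k = 1 → (Fintype.card F).Prime) →
      (Odd k → Odd (Fintype.card F)) → (k = 2 → Fintype.card F ≠ 3) →
      (k = 2 → (∀ i, IsPlusTypeOn Q (D i)) → 7 ≤ Fintype.card F) →
      (k = 3 → 5 ≤ Fintype.card F) →
      (k = 4 → (∀ i, IsPlusTypeOn Q (D i)) → 3 ≤ Fintype.card F) →
      H = decompositionStabilizer D ⊓ omegaGL Q → OMax Q H
  | pair (k : ℕ) (D : Fin 2 → Submodule F (ι → F)) : Even k → IsPlusTypeOn Q ⊤ →
      2 * k = Fintype.card ι → IsMDecomposition k D → (∀ i, IsTotallySingularQuad Q (D i)) →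
      H = decompositionStabilizer D ⊓ omegaGL Q → OMax Q H
  | sub (F₀ : Subfield F) (r : ℕ) (P : GL ι F) (ζ : F) : r.Prime →
      Fintype.card F = Nat.card F₀ ^ r → ζ ≠ 0 →
      (Even (Fintype.card ι) → ¬ IsPlusTypeOn Q ⊤ → Odd r) →
      IsQuadFormRationalStructure (fun v => ζ * Q v) F₀ P →
      H = subfieldSubgroup F₀ P ⊓ omegaGL Q → OMax Q H
  | ext (r : ℕ) (K : Subalgebra F (Matrix ι ι F)) : r.Prime → r ∣ Fintype.card ι →
      r ≠ Fintype.card ι → 2 * r ≠ Fintype.card ι →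
      (¬ Odd (Fintype.card F) → 2 * r ∣ Fintype.card ι) → IsFieldSubalgebra r K →
      IsSelfAdjointFor (polar Q) K → H = subalgebraNormalizer K ⊓ omegaGL Q → OMax Q H
  | extU (K : Subalgebra F (Matrix ι ι F)) : (IsPlusTypeOn Q ⊤ ↔ 4 ∣ Fintype.card ι) →
      Even (Fintype.card ι) → IsFieldSubalgebra 2 K → IsAdjointClosedFor (polar Q) K →
      ¬ IsSelfAdjointFor (polar Q) K → (∀ k ∈ K, ∃ c : F, ∀ v, Q (k *ᵥ v) = c * Q v) →
      H = subalgebraNormalizer K ⊓ omegaGL Q → OMax Q H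
  | tensorO (e : ι ≃ Fin 3 × Fin 4) (P : GL ι F) (f₁ : (Fin 3 → F) → (Fin 3 → F) → F)
      (f₂ : (Fin 4 → F) → (Fin 4 → F) → F) : Fintype.card ι = 12 → Odd (Fintype.card F) →
      5 ≤ Fintype.card F → ¬ IsPlusTypeOn Q ⊤ → ¬ IsPlusTypeOn (fun v => f₂ v v) ⊤ →
      IsSymmetricForm f₁ → IsSymmetricForm f₂ → IsTensorFormStructure id (polar Q) f₁ f₂ e P →
      H = tensorProductSubgroup 3 4 e P ⊓ omegaGL Q → OMax Q H
  | tensorSp (e : ι ≃ Fin 2 × Fin 6) (P : GL ι F) (f₁ : (Fin 2 → F) → (Fin 2 → F) → F)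
      (f₂ : (Fin 6 → F) → (Fin 6 → F) → F) : Fintype.card ι = 12 → IsPlusTypeOn Q ⊤ →
      3 ≤ Fintype.card F →
      IsSymplecticForm f₁ → IsSymplecticForm f₂ → IsTensorFormStructure id (polar Q) f₁ f₂ e P →
      (∀ x y, Q (frameEquiv e P (pure2 x y)) = 0) →
      H = tensorProductSubgroup 2 6 e P ⊓ omegaGL Q → OMax Q H
  | wreath (e : ι ≃ (Fin 2 → Fin 3)) (P : GL ι F) (f₁ : (Fin 3 → F) → (Fin 3 → F) → F) :
      Fintype.card ι = 9 → 5 ≤ Fintype.card F → IsSymmetricForm f₁ →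
      IsTensorPowerFormStructure id (polar Q) f₁ e P →
      H = tensorWreathSubgroup 3 2 e P ⊓ omegaGL Q → OMax Q H
  | res : InOrthogonalResidualClass H → OMax Q H

lemma not_exists_between {G : Type*} [Group G] {Ω H M : Subgroup G} (hH : IsMaximalIn Ω H)
    (heq : H = M ⊓ Ω) : ¬ ∃ K, M ⊓ Ω < K ∧ K < Ω := fun ⟨_, h1, h2⟩ =>
  not_max_of_lt hH (heq ▸ h1) h2

lemma OMax.of_dec (hQ : IsNondegenerateQuadraticForm Q) (h7 : 7 ≤ Fintype.card ι)
    (hH : IsMaximalIn (omegaGL Q) H) {t k : ℕ} {D : Fin t → Submodule F (ι → F)}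
    (hD : IsOrthogonalMDecomposition Q k D) (hk : k = 1 → (Fintype.card F).Prime)
    (hle : H ≤ decompositionStabilizer D) : OMax Q H := by
  have heq := eq_inf_of_max hH hle (QS.omega_not_le_ndec hQ (by omega) hD.decomp)
  have hn := fun hc => not_exists_between hH heq (H30.omega_nonmax_dec hQ h7 hD hc)
  have ht := hD.decomp.decomp.two_le
  have h1 := Fintype.one_lt_card (α := F)
  have hodd : Odd k → Odd (Fintype.card F) := fun h => odd_card_of_odd_finrank hQ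
    (hD.decomp.nondegenerate ⟨0, by omega⟩) (by rwa [hD.decomp.decomp.finrank_eq])
  refine .dec t k D hD ht hD.decomp.decomp.pos (IsMDecomposition.mul_eq_card hD.decomp.decomp) hk
    hodd (fun h2 h3 => hn (Or.inl ⟨h2, Or.inl h3⟩)) (fun h2 hp => ?_)
    (fun h3 => five_le_of_odd (hodd (by rw [h3]; decide)) fun h4 => hn (Or.inr (Or.inl ⟨h3, h4⟩)))
    (fun h4 hp => three_le_card_of_ne_two fun h2 => hn (Or.inr (Or.inr ⟨h4, h2, hp⟩))) heq
  by_contra h3
  have h6 := card_ne_six (F := F)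
  refine hn (Or.inl ⟨h2, ?_⟩)
  by_cases h4 : Fintype.card F = 3
  · exact Or.inl h4
  · exact Or.inr ⟨hp, by omega⟩

lemma OMax.of_not_irr (hQ : IsNondegenerateQuadraticForm Q) (h7 : 7 ≤ Fintype.card ι)
    (hH : IsMaximalIn (omegaGL Q) H) (hI : ¬ Irr H) : OMax Q H := by
  have h := sq_polar hQ
  have hq := qs_omega hQ (by omega)
  haveI := hq.nonempty
  have hQH := hH.1.le.trans (omegaGL_le Q)
  have hS := hQH.trans (isometryGroup_le_sim Q)
  rcases h.reducible_cases hS hI with ⟨W, h1, h2, h3⟩ | ⟨W, h1, h0, h2, h3, h4⟩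
  · rcases ts_or_point hQ hQH h1 h2 h3 with ⟨W, h1, h2, h3⟩ | ⟨h4, v, h5, h6⟩
    · have heq := eq_inf_of_max hH h3 (hq.not_le_stab h1 (h.ne_top_of_ts (ts_polar h2)))
      exact .ts W h1 h2 (fun hp hd => not_exists_between hH heq
        (H30.omega_nonmax_ts hQ (by omega) hp h2 hd)) heq
    · have hv : v ≠ 0 := fun h0 => h5 (by rw [h0, quad_zero hQ])
      refine .pt v (fun ho => two_ne_zero_of_odd ho h4) h5 (eq_inf_of_max hH h6 (hq.not_le_stab
        (by simpa using hv) (ne_top_of_two_mul_lt ?_)))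
      rw [finrank_span_singleton hv]; omega
  have heq := eq_inf_of_max hH h4 (hq.not_le_stab h1 h0)
  by_cases hc : 2 * finrank F W = Fintype.card ι → Even (finrank F W) ∧ ¬ IsPlusTypeOn Q ⊤
  · refine .nd W h1 h0 h2 (Submodule.one_le_finrank_iff.2 h1) h3 (odd_card_of_odd_finrank hQ h2)
      (fun hd hp => ?_) hc heq
    by_contra h5
    exact not_exists_between hH heq (H30.omega_nonmax_plusPlane hQ (by omega) (by omega) hd h2 hp)
  rw [Classical.not_imp] at hc
  obtain ⟨h5, h6⟩ := hc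
  have hD := h.pair_decomposition h1 h2 h5
  have hle := le_decompositionStabilizer_pair h4 (h.sesq.le_perp_stab hS h4)
  by_cases hiso : AreIsometricFor Q W (h.sesq.perp W)
  · refine .of_dec hQ h7 hH ⟨hD, fun i j => ?_⟩ (by omega) hle
    obtain ⟨e, he⟩ := hiso
    fin_cases i <;> fin_cases j
    · exact ⟨LinearEquiv.refl F _, fun _ => rfl⟩
    · exact ⟨e, he⟩
    · exact ⟨e.symm, fun w => (he (e.symm w)).symm.trans
        (congrArg (fun x : h.sesq.perp W => Q x) (e.apply_symm_apply w))⟩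
    · exact ⟨LinearEquiv.refl F _, fun _ => rfl⟩
  have hodd : Odd (finrank F W) := by
    refine Nat.not_even_iff_odd.1 fun ⟨m, hm⟩ => hiso ?_
    exact isometric_perp_of_plus hQ h2 (m := m) (by omega) (by omega)
      (not_not.1 fun hp => h6 ⟨⟨m, hm⟩, hp⟩)
  have hF := odd_card_of_odd_finrank hQ h2 hodd
  refine .npair _ _ hodd hF h5 hD hiso ?_
    (eq_inf_of_max hH hle (QS.omega_not_le_ndec hQ (by omega) hD))
  rw [plus_iff_of_not_isometric hQ (two_ne_zero_of_odd hF) hD hiso,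
    isSquare_neg_one_iff_of_odd hF hodd]

theorem o_max (hQ : IsNondegenerateQuadraticForm Q) (h7 : 7 ≤ Fintype.card ι)
    (h12 : Fintype.card ι ≤ 12) (h8 : Fintype.card ι = 8 → ¬ IsPlusTypeOn Q ⊤)
    (hH : IsMaximalIn (omegaGL Q) H) : OMax Q H := by
  by_cases hI : Irr H
  swap
  · exact .of_not_irr hQ h7 hH hI
  have hq := qs_omega hQ (by omega)
  rcases OSet.oCase ⟨hQ, h7, Or.inr h12, h8, hI, hH.1.le.trans (omegaGL_le Q),
    hH.1.le.trans (omegaGL_le_specialLinear Q)⟩ with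
    ⟨t, k, D, h1, h2, h3⟩ | ⟨k, D, h1, h2, h3, h4⟩ | ⟨F₀, r, P, ζ, h1, h2, h3, h4, h5⟩ |
    ⟨r, K, h1, h2, h3, h4, h5, h6, h9, h10⟩ | ⟨K, h1, h2, h3, h4, h5, h6, h9⟩ |
    ⟨a, b, e, P, f₁, f₂, h1, h2, h3, h4, h5, h6, h9, h10, h11⟩ |
    ⟨e, P, f₁, f₂, h1, h2, h3, h4, h5, h6, h9⟩ | ⟨k, t, e, P, f₁, h1, h2, h3, h4, h5, h6, h9⟩ | hr
  · exact .of_dec hQ h7 hH h1 h2 h3
  · have heq := eq_inf_of_max hH h4 (hq.not_le_dec h2 (by omega))
    exact .pair k D (Nat.not_odd_iff_even.1 fun hk => not_exists_between hH heq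
      (H30.omega_nonmax_tsPair hQ (by omega) h1 hk h2 h3))
      (plus_of_le hQ (h3 0) (by rw [h2.finrank_eq]; omega)) h1 h2 h3 heq
  · refine .sub F₀ r P ζ h1 h2 h3 (fun hn hp => h1.odd_of_ne_two ?_) h4
      (eq_inf_of_max hH h5 (hq.not_le_subfield' h1.two_le h2 P))
    rintro rfl
    exact hp ((plus_smul_iff h3).1 (plus_of_index_two (isNQF_smul hQ h3) hn h2 h4))
  · exact .ext r K h1 h2 h3 h4 h5 h6 h9 (eq_inf_of_max hH h10 (hq.not_le_field h6 h1.two_le))
  · exact .extU K h1 h2 h3 h4 h5 h6 (eq_inf_of_max hH h9 (hq.not_le_field h3 le_rfl))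
  · have hc := card_eq_mul_of_equiv e
    obtain rfl : a = 3 := le_antisymm (by nlinarith) h2
    obtain rfl : b = 4 := by omega
    exact .tensorO e P f₁ f₂ hc h1 (h4 rfl) (h5 hc).1 (h5 hc).2 h6 h9 h10
      (eq_inf_of_max hH h11 (hq.not_le_tensor (by omega)))
  · exact .tensorSp e P f₁ f₂ (card_eq_mul_of_equiv e) h1 h2 h3 h4 h5 h6
      (eq_inf_of_max hH h9 (hq.not_le_tensor (by omega)))
  · have hc := card_eq_pow_of_equiv e
    obtain rfl : t = 2 := by
      by_contra h'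
      have : 3 ^ 3 ≤ k ^ t := (Nat.pow_le_pow_left h2 3).trans
        (Nat.pow_le_pow_right (by omega) (by omega))
      omega
    obtain rfl : k = 3 := le_antisymm (by nlinarith) h2
    exact .wreath e P f₁ hc (five_le_of_odd h1 fun h' => h4 ⟨h', rfl⟩) h5 h6
      (eq_inf_of_max hH h9 (hq.not_le_wreath (by omega) (by omega) (by omega) (by omega)))
  · exact .res hr

/-- In odd dimension a non-degenerate subspace may be taken of even dimension. -/
lemma exists_even_nd (hQ : IsNondegenerateQuadraticForm Q) (hn : Odd (Fintype.card ι))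
    (h7 : 7 ≤ Fintype.card ι) {W : Submodule F (ι → F)} (h0 : W ≠ ⊥) (h1 : W ≠ ⊤)
    (h2 : IsNondegenerateOn (polar Q) W) (h3 : 2 * finrank F W ≤ Fintype.card ι)
    (h4 : finrank F W = 2 → IsPlusTypeOn Q W → 4 ≤ Fintype.card F)
    (h5 : H = subspaceStabilizer W ⊓ omegaGL Q) :
    ∃ W : Submodule F (ι → F), W ≠ ⊥ ∧ Even (finrank F W) ∧ IsNondegenerateOn (polar Q) W ∧
      ¬ (Fintype.card F = 3 ∧ finrank F W = 2 ∧ IsPlusTypeOn Q W) ∧
      H = subspaceStabilizer W ⊓ omegaGL Q := by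
  have h := sq_polar hQ
  rcases Nat.even_or_odd (finrank F W) with he | ⟨k, hk⟩
  · exact ⟨W, h0, he, h2, fun ⟨h6, h8, h9⟩ => by have := h4 h8 h9; omega, h5⟩
  have h6 := h.finrank_perp_add h2
  obtain ⟨m, hm⟩ := hn
  refine ⟨h.sesq.perp W, h.perp_ne_bot h1, ⟨m - k, by omega⟩, h.nondegOn_perp h2,
    fun ⟨_, h8, _⟩ => by omega, ?_⟩
  rw [h.stab_perp_inf h2 ((omegaGL_le Q).trans (isometryGroup_le_sim Q)), h5]

end Cfsg.Agent.H25
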