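import Cfsg.Agent.H25.OrthType

/-! Auxiliary results for Aschbacher's theorem in the orthogonal case. -/

set_option autoImplicit false
set_option linter.unusedSectionVars false
set_option linter.unusedSimpArgs false
set_option linter.style.haveILetI false

namespace Cfsg.Agent.H25

open Matrix Cfsg.Geo Module
open QuadraticMap (polar)
open scoped Kronecker MatrixGroups commutatorElement

variable {ι κ μ : Type} [Fintype ι] [DecidableEq ι] [Fintype κ] [DecidableEq κ]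
  [Fintype μ] [DecidableEq μ] {F : Type*} [Field F] {ε : F}
  {f : (ι → F) → (ι → F) → F} {Q : (ι → F) → F} {H : Subgroup (GL ι F)}

lemma isometryGroup_le_sim (Q : (ι → F) → F) : isometryGroup F Q ≤ similarityGroup (polar Q) :=
  (isometryGroup_le_isom Q).trans isom_le_sim

lemma omegaGL_le_specialLinear (Q : (ι → F) → F) : omegaGL Q ≤ specialLinear ι F := by
  rintro _ ⟨x, hx, rfl⟩
  have : commutator (isometryGroup F Q) ≤ (specialLinear ι F).comap (isometryGroup F Q).subtype := by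
    rw [commutator_def, Subgroup.commutator_le]
    intro a _ b _
    simp only [Subgroup.mem_comap, specialLinear, MonoidHom.mem_ker, map_commutatorElement,
      commutatorElement_eq_one_iff_mul_comm, mul_comm]
  exact this hx

/-! ### Reducible groups and decompositions -/

theorem ts_or_point [Finite F] (hQ : IsNondegenerateQuadraticForm Q) (hH : H ≤ isometryGroup F Q)
    {W : Submodule F (ι → F)} (h0 : W ≠ ⊥) (hW : IsTotallySingularFor (polar Q) W)
    (hle : H ≤ subspaceStabilizer W) :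
    (∃ W : Submodule F (ι → F), W ≠ ⊥ ∧ IsTotallySingularQuad Q W ∧ H ≤ subspaceStabilizer W) ∨
      ((2 : F) = 0 ∧ ∃ v, Q v ≠ 0 ∧ H ≤ subspaceStabilizer (F ∙ v)) := by
  by_cases h2 : (2 : F) = 0
  swap
  · exact Or.inl ⟨W, h0, ts_of_polar hQ h2 hW, hle⟩
  let W₀ : Submodule F (ι → F) :=
    { carrier := {w | w ∈ W ∧ Q w = 0}
      add_mem' := fun {a b} ha hb => ⟨W.add_mem ha.1 hb.1, by
        rw [quad_add Q, ha.2, hb.2, hW a ha.1 b hb.1]; ring⟩
      zero_mem' := ⟨W.zero_mem, quad_zero hQ⟩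
      smul_mem' := fun c a ha => ⟨W.smul_mem c ha.1, by rw [hQ.smul, ha.2, mul_zero]⟩ }
  by_cases h1 : W₀ = ⊥
  swap
  · exact Or.inl ⟨W₀, h1, fun w hw => hw.2, le_subspaceStabilizer fun g hg v hv =>
      ⟨mulVec_mem_of_stab (hle hg) hv.1, by rw [mem_isometryGroup.1 (hH hg), hv.2]⟩⟩
  have h3 : ∀ w ∈ W, Q w = 0 → w = 0 := fun w hw h =>
    (Submodule.mem_bot F).1 (h1 ▸ (⟨hw, h⟩ : w ∈ W₀))
  obtain ⟨v, hv, hv0⟩ := Submodule.exists_mem_ne_zero_of_ne_bot h0
  have hQv : Q v ≠ 0 := fun h => hv0 (h3 v hv h)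
  refine Or.inr ⟨h2, v, hQv, ?_⟩
  have : W = F ∙ v := by
    refine le_antisymm (fun w hw => ?_) ((Submodule.span_singleton_le_iff_mem _ _).2 hv)
    obtain ⟨d, hd⟩ := exists_sq_of_two_eq_zero h2 (Q w / Q v)
    have h4 := h3 (w + (-d) • v) (W.add_mem hw (W.smul_mem _ hv)) (by
      rw [quad_add Q, hQ.smul, hW w hw _ (W.smul_mem _ hv), neg_sq, sq, hd, div_mul_cancel₀ _ hQv]
      linear_combination Q w * h2)
    rw [Submodule.mem_span_singleton]
    exact ⟨d, by rw [neg_smul, ← sub_eq_add_neg, sub_eq_zero] at h4; exact h4.symm⟩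
  exact this ▸ hle

lemma areIsometric_of_map {g : GL ι F} (hg : g ∈ isometryGroup F Q) {W W' : Submodule F (ι → F)}
    (h : W.map (Matrix.toLin' (g : Matrix ι ι F)) = W') : AreIsometricFor Q W W' := by
  have : (glEquiv g : (ι → F) →ₗ[F] (ι → F)) = Matrix.toLin' (g : Matrix ι ι F) :=
    LinearMap.ext fun x => glEquiv_apply g x
  refine ⟨LinearEquiv.ofSubmodules (glEquiv g) W W' (by rw [this, h]), fun w => ?_⟩
  rw [LinearEquiv.ofSubmodules_apply, glEquiv_apply, mem_isometryGroup.1 hg]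

lemma CaseD.orth (hH : H ≤ isometryGroup F Q) (h : CaseD (polar Q) H) :
    ∃ (t k : ℕ) (D : Fin t → Submodule F (ι → F)), IsOrthogonalMDecomposition Q k D ∧
      H ≤ decompositionStabilizer D := by
  obtain ⟨t, k, D, h1, h2, h3⟩ := h
  refine ⟨t, k, D, ⟨h1, fun i j => ?_⟩, h2⟩
  obtain ⟨g, hg, h⟩ := h3 i j
  exact areIsometric_of_map (hH hg) h

lemma eq_of_half [Finite F] (hn : 2 ≤ Fintype.card ι) (hQ : IsNondegenerateQuadraticForm Q)
    (h2 : (2 : F) = 0) (hI : Irr H) (hH : H ≤ isometryGroup F Q) {k : Matrix ι ι F}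
    (hk : Half (polar Q) H k) (v : ι → F) : Q v = polar Q (k *ᵥ v) v := by
  have h := sq_polar hQ
  obtain ⟨h3, h4⟩ := h.isNQF_of_add_adj hk.add
  refine quad_unique hn hI hQ.smul h3.smul (fun u v => (h4 u v).symm) (fun g hg => ⟨1, fun v => ?_,
    fun v => hk.quad h (isSymplecticForm_polar hQ h2).alternating hg (fun u v => ?_) v⟩) v
  · rw [one_mul, mem_isometryGroup.1 (hH hg)]
  · rw [one_mul, mem_isom.1 (isometryGroup_le_isom Q (hH hg))]

theorem CaseTS.orth [Finite F] (hn : 2 ≤ Fintype.card ι) (hQ : IsNondegenerateQuadraticForm Q)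
    (hI : Irr H) (hH : H ≤ isometryGroup F Q) (h : CaseTS (idF F) (polar Q) H) :
    ∃ (k : ℕ) (D : Fin 2 → Submodule F (ι → F)), 2 * k = Fintype.card ι ∧ IsMDecomposition k D ∧
      (∀ i, IsTotallySingularQuad Q (D i)) ∧ H ≤ decompositionStabilizer D := by
  by_cases h2 : (2 : F) = 0
  swap
  · obtain ⟨m, e, -, -, h3, h4, h5, h6⟩ := h.exists_decomposition (sq_polar hQ) hI
    exact ⟨m, _, h3, h4, fun i => ts_of_polar hQ h2 (h5 i), h6⟩
  obtain ⟨e, he, h0, h1, ha, hg⟩ := h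
  have hF := idemFam_pair he h0 h1
  have hperm : ∀ g ∈ H, ∀ i, ∃ j, cj g (![e, 1 - e] i) = ![e, 1 - e] j := by
    intro g hg' i
    fin_cases i
    · rcases hg g hg' with h' | h'
      · exact ⟨0, h'⟩
      · exact ⟨1, h'⟩
    · change ∃ j, cj g (1 - e) = _
      rw [map_sub, map_one]
      rcases hg g hg' with h' | h'
      · exact ⟨1, by rw [h']; rfl⟩
      · exact ⟨0, by rw [h', sub_sub_cancel]; rfl⟩
  obtain ⟨m, hm⟩ := hF.exists_isMDecomposition le_rfl hI hperm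
  refine ⟨m, _, IsMDecomposition.mul_eq_card hm, hm, fun i v hv => ?_,
    hF.le_decompositionStabilizer hperm⟩
  rw [eq_of_half hn hQ h2 hI hH (half_of_ts h2 ha hg)]
  fin_cases i
  · rw [(mem_rng_idem he).1 hv, (isSymplecticForm_polar hQ h2).alternating]
  · rw [show e *ᵥ v = 0 from hF.mulVec_of_mem_ne (i := 0) (j := 1) (by decide) hv,
      (sq_polar hQ).sesq.zero_left]

/-- The field in the unitary extension case acts by similarities of `Q`. -/
lemma FieldData.quad_sim [Finite F] (hn : 2 ≤ Fintype.card ι) (hQ : IsNondegenerateQuadraticForm Q)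
    (hI : Irr H) (hH : H ≤ isometryGroup F Q) {K : Subalgebra F (Matrix ι ι F)}
    (hK : FieldData (idF F) (polar Q) H K)
    (hs : ∀ x ∈ K, adj (idF F) (polar Q) x = x → ∃ c : F, x = c • 1)
    (hl : ∃ l ∈ K, adj (idF F) (polar Q) l ≠ l) :
    ∀ k ∈ K, ∃ c : F, ∀ v, Q (k *ᵥ v) = c * Q v := by
  intro k hk
  have h := sq_polar hQ
  obtain ⟨c, hc⟩ := hs _ (K.mul_mem (hK.adj_mem k hk) hk) (by rw [h.adj_mul, h.adj_adj])
  have hc' : ∀ u v, polar Q (k *ᵥ u) (k *ᵥ v) = c * polar Q u v := fun u v => by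
    rw [h.adj_spec, Matrix.mulVec_mulVec, hc, Matrix.smul_mulVec, Matrix.one_mulVec,
      h.sesq.smul_right]; rfl
  refine ⟨c, ?_⟩
  by_cases h2 : (2 : F) = 0
  swap
  · exact quad_of_polar hQ h2 hc'
  obtain ⟨l, hl, hh⟩ := h.exists_half h2 (hH.trans (isometryGroup_le_sim Q)) hK hs hl
  intro v
  rw [eq_of_half hn hQ h2 hI hH hh, eq_of_half hn hQ h2 hI hH hh v, Matrix.mulVec_mulVec,
    hK.comm l hl k hk, ← Matrix.mulVec_mulVec, hc']

/-! ### Subfield structures -/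

lemma formRat_of_quadRat {F₀ : Subfield F} {P : GL ι F} {ζ : F}
    (h : IsQuadFormRationalStructure (fun v => ζ * Q v) F₀ P) :
    IsFormRationalStructure (polar Q) F₀ ζ P := fun u v hu hv => by
  have := F₀.sub_mem (F₀.sub_mem (h (u + v) fun i => F₀.add_mem (hu i) (hv i)) (h u hu)) (h v hv)
  convert this using 1
  simp only [polar, Matrix.mulVec_add]
  ring

lemma quadRat_of_formRat (hQ : IsNondegenerateQuadraticForm Q) (h2 : (2 : F) ≠ 0)
    {F₀ : Subfield F} {P : GL ι F} {ζ : F} (h : IsFormRationalStructure (polar Q) F₀ ζ P) :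
    IsQuadFormRationalStructure (fun v => ζ * Q v) F₀ P := fun u hu => by
  have := F₀.div_mem (h u u hu hu) (show (2 : F) ∈ F₀ by exact_mod_cast natCast_mem F₀ 2)
  rw [polar_self hQ] at this
  convert this using 1
  field_simp

/-- The `F₀`-span of the columns of `P`. -/
def RatVec (F₀ : Subfield F) (P : GL ι F) (v : ι → F) : Prop :=
  ∃ u : ι → F, (∀ i, u i ∈ F₀) ∧ (P : Matrix ι ι F) *ᵥ u = v

lemma RatVec.mulVec {F₀ : Subfield F} {P : GL ι F} {v : ι → F} (hv : RatVec F₀ P v)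
    {a : Matrix ι ι F} (ha : a ∈ (subForm F₀ P).range) : RatVec F₀ P (a *ᵥ v) := by
  obtain ⟨u, hu, rfl⟩ := hv
  refine ⟨cj P⁻¹ a *ᵥ u, fun i => ?_, by rw [← cj_mulVec, cj_cj_inv]⟩
  exact F₀.sum_mem fun j _ => F₀.mul_mem (mem_range_subForm.1 ha i j) (hu j)

lemma RatVec.add {F₀ : Subfield F} {P : GL ι F} {v w : ι → F} (hv : RatVec F₀ P v)
    (hw : RatVec F₀ P w) : RatVec F₀ P (v + w) := by
  obtain ⟨u, hu, rfl⟩ := hv
  obtain ⟨u', hu', rfl⟩ := hw
  exact ⟨u + u', fun i => F₀.add_mem (hu i) (hu' i), Matrix.mulVec_add _ _ _⟩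

lemma RatVec.smul {F₀ : Subfield F} {P : GL ι F} {v : ι → F} (hv : RatVec F₀ P v) {c : F}
    (hc : c ∈ F₀) : RatVec F₀ P (c • v) := by
  obtain ⟨u, hu, rfl⟩ := hv
  exact ⟨c • u, fun i => F₀.mul_mem hc (hu i), Matrix.mulVec_smul _ _ _⟩

lemma exists_ratVec_mulVec {F₀ : Subfield F} {P : GL ι F} {v w : ι → F} (hv : RatVec F₀ P v)
    (hv0 : v ≠ 0) (hw : RatVec F₀ P w) : ∃ a ∈ (subForm F₀ P).range, a *ᵥ v = w := by
  obtain ⟨u, hu, rfl⟩ := hv
  obtain ⟨u', hu', rfl⟩ := hw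
  obtain ⟨j, hj⟩ : ∃ j, u j ≠ 0 := by
    by_contra hc
    push Not at hc
    exact hv0 (by rw [show u = 0 from funext hc, Matrix.mulVec_zero])
  refine ⟨cj P (Matrix.vecMulVec u' (Pi.single j (u j)⁻¹)), mem_range_subForm.2 fun a b => ?_, ?_⟩
  · rw [cj_inv_cj, Matrix.vecMulVec_apply]
    refine F₀.mul_mem (hu' a) ?_
    by_cases hb : b = j
    · rw [hb, Pi.single_eq_same]; exact F₀.inv_mem (hu j)
    · rw [Pi.single_eq_of_ne hb]; exact F₀.zero_mem
  · rw [cj_mulVec, Matrix.vecMulVec_mulVec, single_dotProduct, inv_mul_cancel₀ hj, MulOpposite.op_one,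
      one_smul]

theorem quadRat_of_isometry (hn : 2 ≤ Fintype.card ι) (hQ : IsNondegenerateQuadraticForm Q)
    {N : Subgroup (GL ι F)} (hN : galg N = ⊤) (hNQ : N ≤ isometryGroup F Q) {F₀ : Subfield F}
    {P : GL ι F} {ζ : F} (h : IsFormRationalStructure (polar Q) F₀ ζ P)
    (hP : ∀ g ∈ N, (g : Matrix ι ι F) ∈ (subForm F₀ P).range) :
    IsQuadFormRationalStructure (fun v => ζ * Q v) F₀ P := by
  have hf : ∀ v w, RatVec F₀ P v → RatVec F₀ P w → ζ * polar Q v w ∈ F₀ := by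
    rintro _ _ ⟨u, hu, rfl⟩ ⟨u', hu', rfl⟩
    exact h u u' hu hu'
  obtain ⟨g, hg, v, hv, hgv⟩ : ∃ g ∈ N, ∃ v, RatVec F₀ P v ∧ (g : Matrix ι ι F) *ᵥ v ≠ v := by
    by_contra hc
    push Not at hc
    refine not_le_scalars_of_galg hn hN fun g hg => mem_scalars_of_eq_smul (c := 1) ?_
    rw [one_smul, ← cj_cj_inv P g, ← map_one (cj P)]
    congr 1
    ext i j
    have := hc g hg _ ⟨Pi.single j 1, single_mem F₀ j, rfl⟩
    rw [← cj_cj_inv P g, cj_mulVec, ← sub_eq_zero, ← Matrix.mulVec_sub, gl_mulVec_eq_zero,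
      sub_eq_zero] at this
    simpa [Matrix.one_apply, Pi.single_apply] using congrFun this i
  set u₀ := (g : Matrix ι ι F) *ᵥ v + (-1 : F) • v with hu₀
  have hgv' := hv.mulVec (hP g hg)
  have h0 : RatVec F₀ P u₀ := hgv'.add (hv.smul (F₀.neg_mem F₀.one_mem))
  have h1 : ζ * Q u₀ ∈ F₀ := by
    rw [hu₀, quad_add Q, hQ.smul, mem_isometryGroup.1 (hNQ hg)]
    have := F₀.add_mem (hf v v hv hv) (hf _ _ hgv' (hv.smul (F₀.neg_mem F₀.one_mem)))
    rw [polar_self hQ] at this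
    convert this using 1
    ring
  intro u hu
  obtain ⟨a, ha, hau⟩ := exists_ratVec_mulVec h0
    (by rwa [hu₀, neg_one_smul, ← sub_eq_add_neg, sub_ne_zero]) ⟨u, hu, rfl⟩
  change ζ * Q _ ∈ F₀
  rw [← hau]
  refine (subForm_induction hN hP
    (p := fun a => a ∈ (subForm F₀ P).range ∧ ζ * Q (a *ᵥ u₀) ∈ F₀) (fun g hg => ⟨hP g hg, ?_⟩)
    ⟨zero_mem _, ?_⟩ (fun a b ha hb => ⟨add_mem ha.1 hb.1, ?_⟩)
    (fun c hc a ha => ⟨Subalgebra.smul_mem _ ha.1 (⟨c, hc⟩ : F₀), ?_⟩) ha).2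
  · rwa [mem_isometryGroup.1 (hNQ hg)]
  · rw [Matrix.zero_mulVec, quad_zero hQ, mul_zero]; exact F₀.zero_mem
  · rw [Matrix.add_mulVec, quad_add Q, mul_add, mul_add]
    exact F₀.add_mem (F₀.add_mem ha.2 hb.2) (hf _ _ (h0.mulVec ha.1) (h0.mulVec hb.1))
  · rw [Matrix.smul_mulVec, hQ.smul, mul_left_comm]
    exact F₀.mul_mem (F₀.pow_mem hc 2) ha.2

/-- The conclusion of the subfield case. -/
def SubCase (Q : (ι → F) → F) [Fintype F] (H : Subgroup (GL ι F)) : Prop :=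
  ∃ (F₀ : Subfield F) (r : ℕ) (P : GL ι F) (ζ : F), r.Prime ∧ Fintype.card F = Nat.card F₀ ^ r ∧
    ζ ≠ 0 ∧ IsQuadFormRationalStructure (fun v => ζ * Q v) F₀ P ∧ H ≤ subfieldSubgroup F₀ P

theorem subCase_of_realisable [Fintype F] (hn : 2 ≤ Fintype.card ι)
    (hQ : IsNondegenerateQuadraticForm Q) {N : Subgroup (GL ι F)} (hN : galg N = ⊤) (hX : NB H N)
    (hNQ : N ≤ isometryGroup F Q) {F₁ : Subfield F} (h1 : F₁ ≠ ⊤)
    (hr : RealisableOver F₁ (matrixSet N)) : SubCase Q H := by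
  haveI : Nonempty ι := Fintype.card_pos_iff.1 (by omega)
  obtain ⟨F₀, r, P, ζ, h2, h3, h4, h5, h6, h7⟩ :=
    (sq_polar hQ).c5_form hN hX (hNQ.trans (isometryGroup_le_isom Q)) h1 hr
  exact ⟨F₀, r, P, ζ, h2, h3, h4, quadRat_of_isometry hn hQ hN hNQ h5 h6, h7⟩

lemma le_subfieldSubgroup_of_mem {F₀ : Subfield F} {P : GL ι F}
    (h : ∀ g ∈ H, (g : Matrix ι ι F) ∈ (subForm F₀ P).range) : H ≤ subfieldSubgroup F₀ P :=
  fun g hg => mem_subfieldSubgroup_of_normalizes fun _ ha =>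
    mul_mem (mul_mem (h g hg) ha) (h g⁻¹ (H.inv_mem hg))

lemma exists_subfield_of_not_prime [Fintype F] (h2 : (2 : F) ≠ 0) (hq : ¬ (Fintype.card F).Prime) :
    ∃ (F₀ : Subfield F) (r : ℕ), r.Prime ∧ Fintype.card F = Nat.card F₀ ^ r := by
  have hd : 2 ∣ Fintype.card F - 1 := by
    obtain ⟨k, hk⟩ := odd_of_two_ne_zero h2
    exact ⟨k, by omega⟩
  rcases exists_minimalField (F := F) hd with ⟨F₁, h1, -⟩ | ⟨p, e, he, h⟩
  · obtain ⟨F₀, r, hr, -, h3⟩ := exists_subfield_prime_index h1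
    exact ⟨F₀, r, hr, h3⟩
  · obtain rfl := minimal_two h he
    exact (hq (by rw [h.2.2.1, pow_one]; exact h.1)).elim

/-- The stabiliser of an orthogonal frame lies in a subfield group unless the field is prime. -/
theorem subCase_of_frame [Fintype F] (hQ : IsNondegenerateQuadraticForm Q) (h2 : (2 : F) ≠ 0)
    (hq : ¬ (Fintype.card F).Prime) (hH : H ≤ isometryGroup F Q) {t : ℕ}
    {D : Fin t → Submodule F (ι → F)} (hD : IsOrthogonalMDecomposition Q 1 D)
    (hle : H ≤ decompositionStabilizer D) : SubCase Q H := by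
  obtain ⟨F₀, r, hr, hc⟩ := exists_subfield_of_not_prime h2 hq
  obtain ⟨a, v, hv, hvD, hva⟩ := exists_frame_dec hQ h2 hD
  have h := sq_polar hQ
  obtain ⟨e⟩ : Nonempty (ι ≃ Fin t × Fin 1) := Fintype.card_eq.1 hv.card.symm
  have hw := hv.reindex e
  have ha : ∀ p, polar Q (v p) (v p) = a 0 := fun ⟨i, j⟩ => by rw [hva, Subsingleton.elim j 0]
  have ha0 : a 0 ≠ 0 := ha _ ▸ hv.ne (⟨0, by have := hD.decomp.decomp.two_le; omega⟩, 0)
  let P : GL ι F := glOfEquiv (hw.basis h.sesq).equivFun.symm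
  have hP : ∀ u, (P : Matrix ι ι F) *ᵥ u = ∑ i, u i • v (e i) := fun u => by
    rw [glOfEquiv_mulVec, Basis.equivFun_symm_apply]
    simp only [Frame.basis, Basis.mk_apply, Function.comp_apply]
  have hP1 : ∀ j, (P : Matrix ι ι F) *ᵥ Pi.single j 1 = v (e j) := fun j => by
    rw [hP, Finset.sum_eq_single j (fun i _ hi => by rw [Pi.single_eq_of_ne hi, zero_smul])
      (by simp), Pi.single_eq_same, one_smul]
  have hD1 : ∀ p, D p.1 = F ∙ v p := fun ⟨i, j⟩ => by
    refine (Submodule.eq_of_le_of_finrank_eq ((Submodule.span_singleton_le_iff_mem _ _).2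
      (hvD i j)) ?_).symm
    rw [hD.decomp.decomp.finrank_eq, finrank_span_singleton]
    intro h0
    exact hv.ne (i, j) (by rw [h0, h.sesq.zero_left])
  refine ⟨F₀, r, P, (a 0)⁻¹, hr, hc, inv_ne_zero ha0, quadRat_of_formRat hQ h2 fun u u' hu hu' => ?_,
    le_subfieldSubgroup_of_mem fun g hg => mem_range_subForm.2 fun i j => ?_⟩
  · rw [hP, hP]
    have := hw.sum_sum h.sesq u u'
    simp only [Function.comp_apply] at this
    rw [this, Finset.mul_sum]
    refine F₀.sum_mem fun i _ => ?_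
    rw [ha, mul_comm, mul_assoc, mul_inv_cancel₀ ha0, mul_one]
    exact F₀.mul_mem (hu i) (hu' i)
  · obtain ⟨s, hs⟩ := hle hg
    have h1 : (g : Matrix ι ι F) *ᵥ v (e j) ∈ D (s (e j).1) := by
      rw [← hs]; exact Submodule.mem_map_of_mem (hD1 (e j) ▸ Submodule.mem_span_singleton_self _)
    rw [hD1 (s (e j).1, 0), Submodule.mem_span_singleton] at h1
    obtain ⟨c, hc⟩ := h1
    have h3 := mem_isom.1 (isometryGroup_le_isom Q (hH hg)) (v (e j)) (v (e j))
    rw [← hc, h.sesq.smul_left, h.sesq.smul_right, ha, ha] at h3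
    have hcF : c ∈ F₀ := by
      have : c * c = 1 := mul_right_cancel₀ ha0 (by rw [one_mul, mul_assoc]; exact h3)
      rcases mul_self_eq_one_iff.1 this with rfl | rfl
      · exact F₀.one_mem
      · exact F₀.neg_mem F₀.one_mem
    have h4 : cj P⁻¹ g *ᵥ Pi.single j 1 = c • Pi.single (e.symm (s (e j).1, 0)) 1 := by
      rw [← sub_eq_zero, ← gl_mulVec_eq_zero (g := P), Matrix.mulVec_sub, ← cj_mulVec, cj_cj_inv,
        Matrix.mulVec_smul, hP1, hP1, e.apply_symm_apply, hc, sub_self]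
    have h5 := congrFun h4 i
    rw [Matrix.mulVec_single_one, Matrix.col_apply] at h5
    rw [h5]
    exact F₀.mul_mem hcF (single_mem F₀ _ _)

lemma det_mem_subfield {F₀ : Subfield F} {a : Matrix ι ι F} (ha : ∀ i j, a i j ∈ F₀) :
    a.det ∈ F₀ := by
  rw [Matrix.det_apply']
  exact F₀.sum_mem fun s _ => F₀.mul_mem (intCast_mem F₀ _) (F₀.prod_mem fun i _ => ha _ _)

/-- In odd dimension the scalar of a subfield structure can be removed. -/
theorem SubCase.one_of_odd [Fintype F] (hQ : IsNondegenerateQuadraticForm Q) (h2 : (2 : F) ≠ 0)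
    (hn : Odd (Fintype.card ι))
    (hstd : ∀ F₀ : Subfield F, IsQuadFormRationalStructure Q F₀ 1) {F₀ : Subfield F} {r : ℕ}
    {P : GL ι F} {ζ : F} (hr : r.Prime) (hc : Fintype.card F = Nat.card F₀ ^ r) (hζ : ζ ≠ 0)
    (hP : IsQuadFormRationalStructure (fun v => ζ * Q v) F₀ P) :
    ∃ P' : GL ι F, IsQuadFormRationalStructure Q F₀ P' ∧
      subfieldSubgroup F₀ P' = subfieldSubgroup F₀ P := by
  haveI : Nonempty ι := Fintype.card_pos_iff.1 hn.pos
  have h := sq_polar hQ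
  have hP' := formRat_of_quadRat hP
  obtain ⟨d, hd⟩ : ∃ d : Fˣ, IsFormRationalStructure (polar Q) F₀ 1 (P * scal ι d) := by
    rcases hr.eq_two_or_odd' with rfl | hr'
    swap
    · exact exists_rational_one_of_odd h F₀.one_mem hr' hc hP' hζ
    have hG : (gramMatrix (polar Q)).det ∈ F₀ := det_mem_subfield fun i j => by
      have := formRat_of_quadRat (Q := Q) (ζ := 1) (P := 1) (by simpa using hstd F₀) _ _
        (single_mem F₀ i) (single_mem F₀ j)
      rwa [Units.val_one, Matrix.one_mulVec, Matrix.one_mulVec, one_mul] at this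
    have hG' : (ζ • ((P : Matrix ι ι F)ᵀ * gramMatrix (polar Q) * P)).det ∈ F₀ :=
      det_mem_subfield fun i j => by
        have := hP' _ _ (single_mem F₀ i) (single_mem F₀ j)
        rw [h.sesq.eq_form, form_mulVec_left, form_mulVec_right] at this
        have h3 := congrFun (congrFun (gram_form (σ := idF F) ((P : Matrix ι ι F)ᵀ *
          gramMatrix (polar Q) * (P : Matrix ι ι F).map (idF F))) i) j
        rw [gramMatrix] at h3
        rw [h3] at this
        exact this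
    rw [Matrix.det_smul, Matrix.det_mul, Matrix.det_mul, Matrix.det_transpose] at hG'
    obtain ⟨x, hx⟩ := isSquare_of_mem_index_two hc (F₀.div_mem hG' hG)
    obtain ⟨k, hk⟩ := hn
    have hG0 := h.isUnit_det.ne_zero
    have hP0 : (P : Matrix ι ι F).det ≠ 0 := (Matrix.isUnits_det_units P).ne_zero
    have hy : (x / (ζ ^ k * (P : Matrix ι ι F).det)) * (x / (ζ ^ k * (P : Matrix ι ι F).det)) = ζ := by
      rw [div_mul_div_comm, ← hx, hk]
      field_simp
      ring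
    refine ⟨Units.mk0 _ (left_ne_zero_of_mul (hy.symm ▸ hζ)), rational_rescale h hP' hζ _ ?_⟩
    rw [Units.val_mk0, RingEquiv.refl_apply, hy, div_self hζ]
    exact F₀.one_mem
  exact ⟨_, by simpa using quadRat_of_formRat hQ h2 hd, subfieldSubgroup_mul_scal F₀ P d⟩

end Cfsg.Agent.H25
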