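import Cfsg.Agent.H25.OrthAux

/-! Self-adjoint extension fields of degree `n` and `n / 2` in the orthogonal case. -/

set_option autoImplicit false
set_option linter.unusedSectionVars false
set_option linter.unusedSimpArgs false
set_option linter.style.haveILetI false

namespace Cfsg.Agent.H25

open Matrix Cfsg.Geo Module
open QuadraticMap (polar)
open scoped Kronecker MatrixGroups commutatorElement

variable {ι κ μ : Type} [Fintype ι] [DecidableEq ι] [Fintype κ] [DecidableEq κ]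
  [Fintype μ] [DecidableEq μ] {F : Type*} [Field F] {ε : F}
  {f : (ι → F) → (ι → F) → F} {Q : (ι → F) → F} {H : Subgroup (GL ι F)}

/-! ### Extension fields of degree `n` and `n / 2` -/

section Ext

variable {r : ℕ} {E : Subalgebra F (Matrix ι ι F)}

/-- The map `k ↦ k v` on a subalgebra. -/
def evE (E : Subalgebra F (Matrix ι ι F)) (v : ι → F) : E →ₗ[F] (ι → F) where
  toFun k := (k : Matrix ι ι F) *ᵥ v
  map_add' _ _ := Matrix.add_mulVec _ _ _
  map_smul' _ _ := Matrix.smul_mulVec _ _ _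

lemma mem_range_evE {v w : ι → F} : w ∈ LinearMap.range (evE E v) ↔ ∃ k ∈ E, k *ᵥ v = w :=
  ⟨fun ⟨k, hk⟩ => ⟨k, k.2, hk⟩, fun ⟨k, hk, h⟩ => ⟨⟨k, hk⟩, h⟩⟩

lemma IsFieldSubalgebra.eq_zero (hE : IsFieldSubalgebra r E) {k : Matrix ι ι F} (hk : k ∈ E)
    {v : ι → F} (hv : v ≠ 0) (h : k *ᵥ v = 0) : k = 0 := by
  by_contra h0
  obtain ⟨y, hy, hky⟩ := hE.inv k hk h0
  exact hv (by rw [← Matrix.one_mulVec v, ← hky, hE.comm _ hk _ hy, ← Matrix.mulVec_mulVec, h,
    Matrix.mulVec_zero])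

lemma IsFieldSubalgebra.finrank_range (hE : IsFieldSubalgebra r E) {v : ι → F} (hv : v ≠ 0) :
    finrank F (LinearMap.range (evE E v)) = r := by
  rw [LinearMap.finrank_range_of_inj ((injective_iff_map_eq_zero _).2 fun k hk =>
    Subtype.ext (IsFieldSubalgebra.eq_zero hE k.2 hv hk)), hE.finrank_eq]

lemma IsFieldSubalgebra.bijective (hE : IsFieldSubalgebra r E) (hn : 2 * r = Fintype.card ι)
    {v w : ι → F} (hv : v ≠ 0) (hw : w ∉ LinearMap.range (evE E v)) :
    Function.Bijective ((evE E v).coprod (evE E w)) := by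
  have hinj : Function.Injective ((evE E v).coprod (evE E w)) := by
    refine (injective_iff_map_eq_zero _).2 fun ⟨a, b⟩ hp => ?_
    change (a : Matrix ι ι F) *ᵥ v + (b : Matrix ι ι F) *ᵥ w = 0 at hp
    have hb : (b : Matrix ι ι F) = 0 := by
      by_contra h0
      obtain ⟨y, hy, hby⟩ := hE.inv b b.2 h0
      refine hw (mem_range_evE.2 ⟨-(y * a), neg_mem (mul_mem hy a.2), ?_⟩)
      rw [Matrix.neg_mulVec, ← Matrix.mulVec_mulVec, eq_neg_of_add_eq_zero_left hp,
        Matrix.mulVec_neg, neg_neg, Matrix.mulVec_mulVec, hE.comm _ hy _ b.2, hby, Matrix.one_mulVec]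
    rw [hb, Matrix.zero_mulVec, add_zero] at hp
    exact Prod.ext (Subtype.ext (IsFieldSubalgebra.eq_zero hE a.2 hv hp)) (Subtype.ext hb)
  exact ⟨hinj, (LinearMap.injective_iff_surjective_of_finrank_eq_finrank (by
    rw [Module.finrank_prod, hE.finrank_eq, Module.finrank_fintype_fun_eq_card, ← hn,
      two_mul])).1 hinj⟩

lemma IsFieldSubalgebra.exists_add (hE : IsFieldSubalgebra r E) (hn : 2 * r = Fintype.card ι)
    {v w : ι → F} (hv : v ≠ 0) (hw : w ∉ LinearMap.range (evE E v)) (x : ι → F) :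
    ∃ a ∈ E, ∃ b ∈ E, a *ᵥ v + b *ᵥ w = x := by
  obtain ⟨⟨a, b⟩, h⟩ := (IsFieldSubalgebra.bijective hE hn hv hw).2 x
  exact ⟨a, a.2, b, b.2, h⟩

lemma IsFieldSubalgebra.exists_lin (hE : IsFieldSubalgebra r E) (hn : 2 * r = Fintype.card ι)
    {v w : ι → F} (hv : v ≠ 0) (hw : w ∉ LinearMap.range (evE E v)) (v' w' : ι → F) :
    ∃ s : Matrix ι ι F, (∀ k ∈ E, s * k = k * s) ∧ s *ᵥ v = v' ∧ s *ᵥ w = w' := by
  let Φ := LinearEquiv.ofBijective _ (IsFieldSubalgebra.bijective hE hn hv hw)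
  let s := LinearMap.toMatrix' (((evE E v').coprod (evE E w')).comp Φ.symm.toLinearMap)
  have hs : ∀ a ∈ E, ∀ b ∈ E, s *ᵥ (a *ᵥ v + b *ᵥ w) = a *ᵥ v' + b *ᵥ w' := fun a ha b hb => by
    rw [← Matrix.toLin'_apply, Matrix.toLin'_toMatrix']
    change (evE E v').coprod (evE E w') (Φ.symm (Φ (⟨a, ha⟩, ⟨b, hb⟩))) = _
    rw [LinearEquiv.symm_apply_apply]; rfl
  refine ⟨s, fun k hk => mat_ext_mulVec fun x => ?_, ?_, ?_⟩
  · obtain ⟨a, ha, b, hb, rfl⟩ := IsFieldSubalgebra.exists_add hE hn hv hw x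
    rw [← Matrix.mulVec_mulVec, ← Matrix.mulVec_mulVec, hs a ha b hb, Matrix.mulVec_add k,
      Matrix.mulVec_add k, Matrix.mulVec_mulVec v k, Matrix.mulVec_mulVec w k,
      hs _ (mul_mem hk ha) _ (mul_mem hk hb), Matrix.mulVec_mulVec, Matrix.mulVec_mulVec]
  · simpa using hs 1 (one_mem _) 0 (zero_mem _)
  · simpa using hs 0 (zero_mem _) 1 (one_mem _)

/-- The `E`-linear maps that are alternating for the lifted form. -/
structure AltE (f : (ι → F) → (ι → F) → F) (E : Subalgebra F (Matrix ι ι F)) (s : Matrix ι ι F) :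
    Prop where
  comm : ∀ k ∈ E, s * k = k * s
  alt : ∀ k ∈ E, ∀ u, f (s *ᵥ u) (k *ᵥ u) = 0

lemma AltE.eq_zero (h : Sq (idF F) 1 f) (hE : IsFieldSubalgebra r E) (hn : 2 * r = Fintype.card ι)
    (hs : ∀ x ∈ E, adj (idF F) f x = x) {s : Matrix ι ι F} (ha : AltE f E s) {v : ι → F}
    (hv : v ≠ 0) (h0 : s *ᵥ v = 0) : s = 0 := mat_ext_mulVec fun w => by
  rw [Matrix.zero_mulVec]
  by_cases hw : w ∈ LinearMap.range (evE E v)
  · obtain ⟨k, hk, rfl⟩ := mem_range_evE.1 hw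
    rw [Matrix.mulVec_mulVec, ha.comm k hk, ← Matrix.mulVec_mulVec, h0, Matrix.mulVec_zero]
  refine h.nondeg _ fun x => ?_
  obtain ⟨a, ha', b, hb, rfl⟩ := IsFieldSubalgebra.exists_add hE hn hv hw x
  have := ha.alt a ha' (v + w)
  rw [Matrix.mulVec_add, h0, zero_add, Matrix.mulVec_add, h.sesq.add_right, ha.alt a ha',
    add_zero] at this
  rw [h.sesq.add_right, this, ha.alt b hb, add_zero]

lemma AltE.exists_mul [Nonempty ι] (h : Sq (idF F) 1 f) (hE : IsFieldSubalgebra r E)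
    (hn : 2 * r = Fintype.card ι) (hs : ∀ x ∈ E, adj (idF F) f x = x) {s t : Matrix ι ι F}
    (ha : AltE f E s) (hs0 : s ≠ 0) (ht : AltE f E t) : ∃ e ∈ E, t = e * s := by
  obtain ⟨v, hv⟩ := exists_ne (0 : ι → F)
  have hsv : s *ᵥ v ≠ 0 := fun h0 => hs0 (ha.eq_zero h hE hn hs hv h0)
  have h1 := h.finrank_perp (LinearMap.range (evE E v))
  rw [IsFieldSubalgebra.finrank_range hE hv] at h1
  have h2 : LinearMap.range (evE E (s *ᵥ v)) = h.sesq.perp (LinearMap.range (evE E v)) := by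
    refine Submodule.eq_of_le_of_finrank_eq (fun x hx y hy => ?_)
      (by rw [IsFieldSubalgebra.finrank_range hE hsv]; omega)
    obtain ⟨a, ha', rfl⟩ := mem_range_evE.1 hx
    obtain ⟨b, hb, rfl⟩ := mem_range_evE.1 hy
    rw [h.adj_spec, hs a ha', Matrix.mulVec_mulVec, ha.alt _ (mul_mem ha' hb)]
  have h4 : t *ᵥ v ∈ h.sesq.perp (LinearMap.range (evE E v)) := fun y hy => by
    obtain ⟨b, hb, rfl⟩ := mem_range_evE.1 hy
    exact ht.alt b hb v
  rw [← h2] at h4
  obtain ⟨e, he, h3⟩ := mem_range_evE.1 h4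
  refine ⟨e, he, sub_eq_zero.1 (AltE.eq_zero h hE hn hs ⟨fun k hk => ?_, fun k hk u => ?_⟩ hv ?_)⟩
  · rw [sub_mul, mul_sub, ht.comm k hk, mul_assoc, ha.comm k hk, ← mul_assoc, hE.comm e he k hk,
      mul_assoc]
  · rw [Matrix.sub_mulVec, h.sesq.sub_left, ht.alt k hk, ← Matrix.mulVec_mulVec, h.adj_spec,
      hs e he, Matrix.mulVec_mulVec, ha.alt _ (mul_mem he hk), sub_zero]
  · rw [Matrix.sub_mulVec, ← Matrix.mulVec_mulVec, h3, sub_self]

lemma comm_cj {s : Matrix ι ι F} (hN : Nrm H E) (hs : ∀ k ∈ E, s * k = k * s) {g : GL ι F}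
    (hg : g ∈ H) : ∀ k ∈ E, cj g s * k = k * cj g s := fun k hk => by
  rw [← cj_cj_inv g k, ← map_mul, ← map_mul, hs _ (hN _ (H.inv_mem hg) k hk)]

lemma cj_form {g : GL ι F} (hg : g ∈ isom f) (s k : Matrix ι ι F) (u : ι → F) :
    f (cj g s *ᵥ u) (k *ᵥ u) =
      f (s *ᵥ (((g⁻¹ : GL ι F) : Matrix ι ι F) *ᵥ u))
        (cj g⁻¹ k *ᵥ (((g⁻¹ : GL ι F) : Matrix ι ι F) *ᵥ u)) := by
  rw [← mem_isom.1 hg (s *ᵥ _), ← cj_mulVec, ← cj_mulVec g (cj g⁻¹ k), cj_cj_inv, gl_mulVec_inv]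

/-- An element generating together with `E` an invariant commutative algebra. -/
structure ExtGen (f : (ι → F) → (ι → F) → F) (H : Subgroup (GL ι F))
    (E : Subalgebra F (Matrix ι ι F)) (s : Matrix ι ι F) : Prop where
  comm : ∀ k ∈ E, s * k = k * s
  not_mem : s ∉ E
  nrm : ∀ g ∈ H, ∃ a ∈ E, ∃ b ∈ E, cj g s = a + b * s
  adj_eq : ∃ a ∈ E, ∃ b ∈ E, adj (idF F) f s = a + b * s

lemma exists_extGen_odd [Nonempty ι] (h : Sq (idF F) 1 f) (h2 : (2 : F) ≠ 0) (hH : H ≤ isom f)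
    (hE : IsFieldSubalgebra r E) (hn : 2 * r = Fintype.card ι) (hN : Nrm H E)
    (hs : ∀ x ∈ E, adj (idF F) f x = x) : ∃ s, ExtGen f H E s := by
  obtain ⟨v, hv⟩ := exists_ne (0 : ι → F)
  obtain ⟨w, hw⟩ : ∃ w, w ∉ LinearMap.range (evE E v) := by
    by_contra hc
    push Not at hc
    have h1 := IsFieldSubalgebra.finrank_range hE hv
    rw [Submodule.eq_top_iff'.2 hc, finrank_top, Module.finrank_fintype_fun_eq_card] at h1
    have := Fintype.card_pos (α := ι)
    omega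
  obtain ⟨p, hp, hp0⟩ : ∃ p : Matrix ι ι F, (∀ k ∈ E, p * k = k * p) ∧ adj (idF F) f p ≠ p := by
    by_contra hc
    push Not at hc
    have key : ∀ w' x, (∃ p : Matrix ι ι F, (∀ k ∈ E, p * k = k * p) ∧ p *ᵥ v = v ∧ p *ᵥ w' = 0) →
        x ∈ E → f v (x *ᵥ w') = 0 := by
      rintro w' x ⟨p, h1, h3, h4⟩ hx
      rw [← h3, h.adj_spec, hc p h1, Matrix.mulVec_mulVec, h1 x hx, ← Matrix.mulVec_mulVec, h4,
        Matrix.mulVec_zero, h.sesq.zero_right]
    have k1 := fun x => key w x (IsFieldSubalgebra.exists_lin hE hn hv hw v 0)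
    have k2 := fun x => key (v + w) x (by
      obtain ⟨p, h1, h3, h4⟩ := IsFieldSubalgebra.exists_lin hE hn hv hw v (-v)
      exact ⟨p, h1, h3, by rw [Matrix.mulVec_add, h3, h4, add_neg_cancel]⟩)
    refine hv (h.nondeg v fun x => ?_)
    obtain ⟨a, ha, b, hb, rfl⟩ := IsFieldSubalgebra.exists_add hE hn hv hw x
    have := k2 a ha
    rw [Matrix.mulVec_add, h.sesq.add_right, k1 a ha, add_zero] at this
    rw [h.sesq.add_right, this, k1 b hb, add_zero]
  have hskew : adj (idF F) f (p - adj (idF F) f p) = -(p - adj (idF F) f p) := by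
    rw [h.adj_sub, h.adj_adj, neg_sub]
  have hc : ∀ k ∈ E, (p - adj (idF F) f p) * k = k * (p - adj (idF F) f p) := fun k hk => by
    rw [sub_mul, mul_sub, hp k hk,
      h.adj_mem_centralizer (fun x hx => (hs x hx).symm ▸ hx) hp k hk]
  have h0 : p - adj (idF F) f p ≠ 0 := fun h0 => hp0 (sub_eq_zero.1 h0).symm
  generalize p - adj (idF F) f p = s at hskew hc h0
  have ha : AltE f E s := ⟨hc, fun k hk u => by
    have h1 := h.adj_spec s u (k *ᵥ u)
    rw [hskew, Matrix.neg_mulVec, h.sesq.neg_right, Matrix.mulVec_mulVec u s, hc k hk,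
      ← Matrix.mulVec_mulVec u k, h.adj_spec' k u, hs k hk, h.symm (k *ᵥ u)] at h1
    exact (mul_eq_zero.1 (by linear_combination h1 : 2 * f (s *ᵥ u) (k *ᵥ u) = 0)).resolve_left h2⟩
  refine ⟨s, hc, fun hsE => h0 ?_, fun g hg => ⟨0, zero_mem _, ?_⟩,
    ⟨0, zero_mem _, -1, neg_mem (one_mem _), by rw [hskew, zero_add, neg_one_mul]⟩⟩
  · rw [hs s hsE, eq_neg_iff_add_eq_zero, ← two_smul F] at hskew
    exact (smul_eq_zero.1 hskew).resolve_left h2
  · simp only [zero_add]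
    exact ha.exists_mul h hE hn hs h0 ⟨comm_cj hN hc hg, fun k hk u => by
      rw [cj_form (hH hg), ha.alt _ (hN _ (H.inv_mem hg) k hk)]⟩

lemma exists_rt {K : Type*} [Field K] [Finite K] (h2 : (2 : K) = 0) :
    ∃ rt : K → K, (∀ y, rt y * rt y = y) ∧ (∀ x y, x * x = y → rt y = x) ∧
      ∀ x y, rt (x + y) = rt x + rt y := by
  choose rt hrt using exists_sq_of_two_eq_zero h2
  have hrt' : ∀ x y : K, x * x = y → rt y = x := fun x y hxy => by
    have : (rt y - x) * (rt y - x) = 0 := by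
      linear_combination hrt y + hxy + (y - rt y * x) * h2
    exact sub_eq_zero.1 (mul_self_eq_zero.1 this)
  exact ⟨rt, hrt, hrt', fun x y =>
    hrt' _ _ (by linear_combination hrt x + hrt y + rt x * rt y * h2)⟩

lemma IsFieldSubalgebra.exists_rt [Finite F] [Nonempty ι] (hE : IsFieldSubalgebra r E)
    (h2 : (2 : F) = 0) : ∃ rt : E → E, (∀ y, rt y * rt y = y) ∧ (∀ x y, x * x = y → rt y = x) ∧
      ∀ x y, rt (x + y) = rt x + rt y := by
  have h2E : (1 : E) + 1 = 0 := by rw [← two_smul F, h2, zero_smul]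
  letI := (isField_of_fieldSubalgebra hE.comm hE.inv).toField
  exact H25.exists_rt (K := E) (by rw [← one_add_one_eq_two]; exact h2E)

lemma exists_dual [Finite F] [Nonempty ι] (hQ : IsNondegenerateQuadraticForm Q) (h2 : (2 : F) = 0)
    (hE : IsFieldSubalgebra r E) (hs : ∀ x ∈ E, adj (idF F) (polar Q) x = x)
    (ha : ∀ k ∈ E, ∀ v, polar Q (k *ᵥ v) v = 0) {u v : ι → F} (huv : polar Q u v ≠ 0) :
    ∃ a ∈ E, ∀ e ∈ E, polar Q (e *ᵥ (a *ᵥ u)) (e *ᵥ v) = Q (e *ᵥ v) := by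
  have h := sq_polar hQ
  obtain ⟨rt, hrt, hrt', hrt''⟩ := IsFieldSubalgebra.exists_rt hE h2
  let ν : Module.Dual F E :=
    { toFun := fun e => Q ((rt e : Matrix ι ι F) *ᵥ v)
      map_add' := fun x y => by
        rw [hrt'', Subalgebra.coe_add, Matrix.add_mulVec, quad_add Q, h.adj_spec', hs _ (rt y).2,
          Matrix.mulVec_mulVec, ha _ (mul_mem (rt y).2 (rt x).2), add_zero]
      map_smul' := fun c x => by
        obtain ⟨d, rfl⟩ := exists_sq_of_two_eq_zero h2 c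
        rw [hrt' (d • rt x) ((d * d) • x) (by rw [smul_mul_smul_comm, hrt]),
          Subalgebra.coe_smul, Matrix.smul_mulVec, hQ.smul, sq]; rfl }
  let L : E →ₗ[F] Module.Dual F E := LinearMap.mk₂ F
    (fun a e => polar Q ((e : Matrix ι ι F) *ᵥ ((a : Matrix ι ι F) *ᵥ u)) v)
    (fun a b e => by
      rw [Subalgebra.coe_add, Matrix.add_mulVec, Matrix.mulVec_add, h.sesq.add_left])
    (fun c a e => by
      rw [Subalgebra.coe_smul, Matrix.smul_mulVec, Matrix.mulVec_smul, h.sesq.smul_left]; rfl)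
    (fun a e e' => by rw [Subalgebra.coe_add, Matrix.add_mulVec, h.sesq.add_left])
    (fun c a e => by rw [Subalgebra.coe_smul, Matrix.smul_mulVec, h.sesq.smul_left]; rfl)
  have hL : Function.Injective L := (injective_iff_map_eq_zero _).2 fun a ha0 => by
    by_contra h0
    obtain ⟨y, hy, hay⟩ := hE.inv a a.2 fun h' => h0 (Subtype.ext h')
    have : polar Q (y *ᵥ ((a : Matrix ι ι F) *ᵥ u)) v = 0 := LinearMap.congr_fun ha0 ⟨y, hy⟩
    rw [Matrix.mulVec_mulVec, hE.comm _ hy _ a.2, hay, Matrix.one_mulVec] at this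
    exact huv this
  obtain ⟨a, haν⟩ := (LinearMap.injective_iff_surjective_of_finrank_eq_finrank
    Subspace.dual_finrank_eq.symm).1 hL ν
  refine ⟨a, a.2, fun e he => ?_⟩
  have h3 : ∀ x : E, polar Q ((x : Matrix ι ι F) *ᵥ ((a : Matrix ι ι F) *ᵥ u)) v =
      Q ((rt x : Matrix ι ι F) *ᵥ v) := fun x => LinearMap.congr_fun haν x
  have h4 := h3 (⟨e, he⟩ * ⟨e, he⟩)
  rw [hrt' ⟨e, he⟩ _ rfl, Subalgebra.coe_mul, ← Matrix.mulVec_mulVec, h.adj_spec, hs e he] at h4
  exact h4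

lemma exists_extGen_even [Finite F] [Nonempty ι] (hQ : IsNondegenerateQuadraticForm Q)
    (h2 : (2 : F) = 0) (hH : H ≤ isometryGroup F Q) (hE : IsFieldSubalgebra r E)
    (hn : 2 * r = Fintype.card ι) (hN : Nrm H E) (hs : ∀ x ∈ E, adj (idF F) (polar Q) x = x)
    (ha : ∀ k ∈ E, ∀ v, polar Q (k *ᵥ v) v = 0) : ∃ s, ExtGen (polar Q) H E s := by
  have h := sq_polar hQ
  have ha' : ∀ a ∈ E, ∀ b ∈ E, ∀ v, polar Q (a *ᵥ v) (b *ᵥ v) = 0 := fun a ha₁ b hb v => by
    rw [h.adj_spec', hs b hb, Matrix.mulVec_mulVec, ha _ (mul_mem hb ha₁)]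
  obtain ⟨v, w, hvw⟩ := Sesq.exists_ne_zero h.nondeg
  have hv : v ≠ 0 := fun h0 => hvw (by rw [h0, h.sesq.zero_left])
  have hw : w ∉ LinearMap.range (evE E v) := fun hw => by
    obtain ⟨k, hk, rfl⟩ := mem_range_evE.1 hw
    exact hvw (h.eq_zero_comm (ha k hk v))
  obtain ⟨a₀, ha₀, h0⟩ := exists_dual hQ h2 hE hs ha (u := w) (v := v) (by rwa [h.symm])
  obtain ⟨a₁, ha₁, h1⟩ := exists_dual hQ h2 hE hs ha hvw
  obtain ⟨s, hc, hsv, hsw⟩ := IsFieldSubalgebra.exists_lin hE hn hv hw (v + a₀ *ᵥ w) (a₁ *ᵥ v)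
  have hsQ : ∀ u, polar Q (s *ᵥ u) u = Q u := fun u => by
    obtain ⟨x, hx, y, hy, rfl⟩ := IsFieldSubalgebra.exists_add hE hn hv hw u
    rw [Matrix.mulVec_add, Matrix.mulVec_mulVec, Matrix.mulVec_mulVec, hc x hx, hc y hy,
      ← Matrix.mulVec_mulVec, ← Matrix.mulVec_mulVec, hsv, hsw, Matrix.mulVec_add, quad_add Q]
    simp only [h.sesq.add_left, h.sesq.add_right]
    rw [h0 x hx, h1 y hy, ha' x hx x hx, Matrix.mulVec_mulVec w, ha' _ (mul_mem hx ha₀) y hy,
      Matrix.mulVec_mulVec v, ha' _ (mul_mem hy ha₁) x hx]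
    ring
  have key : ∀ t : Matrix ι ι F, (∀ k ∈ E, t * k = k * t) → (∀ u, polar Q (t *ᵥ u) u = Q u) →
      ∃ a ∈ E, ∃ b ∈ E, t = a + b * s := fun t ht htQ => by
    obtain ⟨e, he, h3⟩ := AltE.exists_mul h hE hn hs (s := 1) (t := t - s)
      ⟨fun k _ => by rw [one_mul, mul_one], fun k hk u => ha' 1 (one_mem _) k hk u⟩ one_ne_zero
      ⟨fun k hk => by rw [sub_mul, mul_sub, ht k hk, hc k hk], fun k hk u => by
        obtain ⟨rt, hrt, -⟩ := IsFieldSubalgebra.exists_rt hE h2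
        set d := rt ⟨k, hk⟩
        have hd' : (d : Matrix ι ι F) * d = k := congrArg Subtype.val (hrt ⟨k, hk⟩)
        rw [← hd', ← Matrix.mulVec_mulVec, h.adj_spec', hs _ d.2, Matrix.mulVec_mulVec, mul_sub,
          ← ht _ d.2, ← hc _ d.2, Matrix.sub_mulVec, h.sesq.sub_left, ← Matrix.mulVec_mulVec,
          ← Matrix.mulVec_mulVec, htQ, hsQ, sub_self]⟩
    exact ⟨e, he, 1, one_mem _, by rw [one_mul, ← mul_one e, ← h3, sub_add_cancel]⟩
  refine ⟨s, hc, fun hsE => hvw ?_, fun g hg => key _ (comm_cj hN hc hg) fun u => ?_,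
    key _ (h.adj_mem_centralizer (fun x hx => (hs x hx).symm ▸ hx) hc) fun u => ?_⟩
  · have : ∀ u, Q u = 0 := fun u => by rw [← hsQ, ha s hsE]
    simp only [polar, this, sub_zero]
  · have := cj_form (isometryGroup_le_isom Q (hH hg)) s 1 u
    rw [Matrix.one_mulVec, map_one, Matrix.one_mulVec, hsQ,
      mem_isometryGroup.1 (hH (H.inv_mem hg))] at this
    exact this
  · rw [← h.adj_spec', h.symm, hsQ]

theorem ExtGen.cases [Fintype F] [Nonempty ι] (h : Sq (idF F) 1 f) (hI : Irr H)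
    (hH : H ≤ similarityGroup f) (hr : r.Prime) (hE : IsFieldSubalgebra r E)
    (hn : 2 * r = Fintype.card ι) (hN : Nrm H E) (hs : ∀ x ∈ E, adj (idF F) f x = x)
    {s : Matrix ι ι F} (hg : ExtGen f H E s) :
    CaseD f H ∨ CaseTS (idF F) f H ∨ ∃ K, IsFieldSubalgebra 2 K ∧ FieldData (idF F) f H K := by
  let C := Algebra.adjoin F (insert s (E : Set (Matrix ι ι F)))
  have hsC : s ∈ C := Algebra.subset_adjoin (Set.mem_insert _ _)
  have hEC : E ≤ C := fun x hx => Algebra.subset_adjoin (Set.mem_insert_of_mem _ hx)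
  have hmem : ∀ {x}, (∃ a ∈ E, ∃ b ∈ E, x = a + b * s) → x ∈ C := by
    rintro _ ⟨a, ha, b, hb, rfl⟩
    exact add_mem (hEC ha) (mul_mem (hEC hb) hsC)
  have hcomm : ∀ a ∈ C, ∀ b ∈ C, a * b = b * a := by
    have := Algebra.isMulCommutative_adjoin F (s := insert s (E : Set (Matrix ι ι F))) (by
      rintro a (rfl | ha) b (rfl | hb)
      · rfl
      · exact hg.comm b hb
      · exact (hg.comm a ha).symm
      · exact hE.comm a ha b hb)
    exact fun a ha b hb => congrArg Subtype.val (this.is_comm.comm ⟨a, ha⟩ ⟨b, hb⟩)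
  have hlt : E < C := lt_of_le_of_ne hEC fun he => hg.not_mem (he ▸ hsC)
  have hrC : r < finrank F C := by
    rw [← hE.finrank_eq]
    exact Submodule.finrank_lt_finrank_of_lt (s := Subalgebra.toSubmodule E)
      (t := Subalgebra.toSubmodule C) hlt
  have hN' : Nrm H C := fun g hg' x hx => by
    induction hx using Algebra.adjoin_induction with
    | mem x hx =>
      rcases hx with rfl | hx
      · exact hmem (hg.nrm g hg')
      · exact hEC (hN g hg' x hx)
    | algebraMap c => rw [AlgEquiv.commutes]; exact algebraMap_mem _ c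
    | add x y _ _ hx hy => rw [map_add]; exact add_mem hx hy
    | mul x y _ _ hx hy => rw [map_mul]; exact mul_mem hx hy
  have hadj : ∀ x ∈ C, adj (idF F) f x ∈ C := fun x hx => by
    induction hx using Algebra.adjoin_induction with
    | mem x hx =>
      rcases hx with rfl | hx
      · exact hmem hg.adj_eq
      · rw [hs x hx]; exact hEC hx
    | algebraMap c =>
      rw [Algebra.algebraMap_eq_smul_one, h.adj_smul, h.adj_one]
      exact Subalgebra.smul_mem _ (one_mem _) _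
    | add x y _ _ hx hy => rw [h.adj_add]; exact add_mem hx hy
    | mul x y _ _ hx hy => rw [h.adj_mul]; exact mul_mem hy hx
  have hns : ¬ IsScal C := fun hc => by
    obtain ⟨c, hc⟩ := hc s hsC
    exact hg.not_mem (hc ▸ Subalgebra.smul_mem _ (one_mem _) _)
  rcases h.comm_cases hI hH hN' hcomm hadj hns with hD | hT | hK
  · exact Or.inl hD
  · exact Or.inr (Or.inl hT)
  · have hd := finrank_dvd_card hK.comm hK.inv
    rw [← hn] at hd
    have h2 : 2 ∣ finrank F C := by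
      by_contra h2
      have := Nat.le_of_dvd hr.pos ((Nat.Coprime.dvd_mul_left
        ((Nat.Prime.coprime_iff_not_dvd Nat.prime_two).2 h2).symm).1 hd)
      omega
    obtain ⟨K, h3, h4, h5, h6⟩ := hK.exists_prime h h2
    refine Or.inr (Or.inr ⟨K, h3, h3.comm, h3.inv, fun hc => ?_, h5, h6⟩)
    have : K = ⊥ := eq_bot_iff.2 fun x hx => by
      obtain ⟨c, rfl⟩ := hc x hx
      exact Subalgebra.smul_mem _ (one_mem _) _
    have h7 := h3.finrank_eq
    rw [this, Subalgebra.finrank_bot] at h7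
    omega

/-- A group of isometries normalising a self-adjoint field of degree `n` is abelian. -/
lemma comm_of_ext_card [Finite F] [Nonempty ι] (h : Sq (idF F) ε f) (hH : H ≤ isom f)
    (hE : IsFieldSubalgebra (Fintype.card ι) E) (hN : Nrm H E)
    (hs : ∀ x ∈ E, adj (idF F) f x = x) :
    (∀ g ∈ H, (g : Matrix ι ι F) ∈ E → g ∈ scalars ι F) ∧ ∀ x ∈ H, ∀ y ∈ H, x * y = y * x := by
  letI := (isField_of_fieldSubalgebra hE.comm hE.inv).toField
  have h1 : ∀ g ∈ H, (g : Matrix ι ι F) ∈ E → g ∈ scalars ι F := fun g hg hgE => by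
    have h2 : (⟨g, hgE⟩ : E) * ⟨g, hgE⟩ = 1 := Subtype.ext (by
      change (g : Matrix ι ι F) * g = 1
      nth_rw 1 [← hs _ hgE]
      rw [h.adj_of_fixes (fixesForm_iff.2 hH) hg, gl_inv_mul])
    rcases mul_self_eq_one_iff.1 h2 with h3 | h3
    · exact mem_scalars_of_eq_smul (c := 1) (by rw [one_smul]; exact congrArg Subtype.val h3)
    · exact mem_scalars_of_eq_smul (c := -1) (by rw [neg_one_smul]; exact congrArg Subtype.val h3)
  refine ⟨h1, fun x hx y hy => ?_⟩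
  let φ : H →* (E ≃ₐ[F] E) := MonoidHom.mk' (fun g => hN.equiv g.2) fun a b =>
    AlgEquiv.ext fun x => Subtype.ext (cj_mul _ _ _)
  have := MonoidHom.isMulCommutative_of_isCyclic_of_ker_le_center φ fun g hg => by
    have h2 := h1 g g.2 (IsFieldSubalgebra.mem_of_commute hE fun k hk => (cj_eq_self_iff _ k).1
      (congrArg (fun e : E ≃ₐ[F] E => ((e ⟨k, hk⟩ : E) : Matrix ι ι F)) (MonoidHom.mem_ker.1 hg)))
    exact Subgroup.mem_center_iff.2 fun a => Subtype.ext (scalar_comm h2 a)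
  exact congrArg Subtype.val (this.is_comm.comm ⟨x, hx⟩ ⟨y, hy⟩)

theorem caseD_of_ext_card [Fintype F] (hn : 3 ≤ Fintype.card ι) (hp : (Fintype.card ι).Prime)
    (h : Sq (idF F) ε f) (hI : Irr H) (hH : H ≤ isom f)
    (hE : IsFieldSubalgebra (Fintype.card ι) E) (hN : Nrm H E)
    (hs : ∀ x ∈ E, adj (idF F) f x = x) : CaseD f H := by
  haveI : Nonempty ι := Fintype.card_pos_iff.1 (by omega)
  have hS := hH.trans isom_le_sim
  have hodd := hp.odd_of_ne_two (by omega)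
  have hns := not_le_scalars_of_irr (by omega) hI
  rcases h.comm_cases hI hS (nrm_galg (nb_self H)) (fun a ha b hb =>
    commute_galg_galg (comm_of_ext_card h hH hE hN hs).2 ha hb) (fun x hx => h.adj_mem_galg hS hx)
    (fun hc => hns (le_scalars_of_isScal hc)) with hD | hT | hK
  · exact hD
  · obtain ⟨m, -, -, -, h1, -⟩ := hT.exists_decomposition h hI
    exact absurd hodd (by rw [← h1]; simp)
  · rcases hK.bilin_cases h hS with ⟨r, E', hr, hE', hle, hN', hs'⟩ | ⟨h1, -⟩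
    · obtain rfl := (Nat.prime_dvd_prime_iff_eq hr hp).1 (IsFieldSubalgebra.dvd_card hE')
      exact (hns fun g hg => (comm_of_ext_card h hH hE' hN' hs').1 g hg
        (IsFieldSubalgebra.mem_of_commute hE' fun k hk =>
          hK.comm _ (coe_mem_galg hg) _ (hle hk))).elim
    · exact absurd hodd (Nat.not_odd_iff_even.2 (even_iff_two_dvd.2 (IsFieldSubalgebra.dvd_card h1)))

end Ext

end Cfsg.Agent.H25
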