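import Cfsg.Agent.H25.SpMax

/-! The type of quadratic spaces carrying extra structure; the group `GO₄⁺`. -/

set_option autoImplicit false
set_option linter.unusedSectionVars false
set_option linter.unusedSimpArgs false
set_option linter.style.haveILetI false

namespace Cfsg.Agent.H25

open Matrix Cfsg.Geo Module
open QuadraticMap (polar)
open scoped Kronecker MatrixGroups commutatorElement

variable {ι κ τ : Type} [Fintype ι] [DecidableEq ι] [Fintype κ] [DecidableEq κ]
  [Fintype τ] [DecidableEq τ] {F : Type*} [Field F] {ε : F}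
  {f : (ι → F) → (ι → F) → F} {Q : (ι → F) → F} {H : Subgroup (GL ι F)}

/-! ### Dimensions of perpendicular spaces -/

lemma Sq.finrank_perp (h : Sq (idF F) ε f) (U : Submodule F (ι → F)) :
    finrank F (h.sesq.perp U) + finrank F U = Fintype.card ι := by
  let B := (H27.geoBilin h.sesq.isBilinearForm).flip
  have hB : B.Nondegenerate :=
    ⟨fun v hv => h.sesq.nondeg_right h.nondeg v hv, fun v hv => h.nondeg v hv⟩
  have h1 := LinearMap.BilinForm.finrank_orthogonal hB U
  have h2 : B.orthogonal U = h.sesq.perp U := rfl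
  have h3 := Submodule.finrank_le U
  rw [h2, finrank_fintype_fun_eq_card] at h1
  rw [finrank_fintype_fun_eq_card] at h3
  omega

lemma Sesq.perp_anti {σ : F ≃+* F} (h : Sesq σ f) {U W : Submodule F (ι → F)} (hUW : U ≤ W) :
    h.perp W ≤ h.perp U := fun _ hx u hu => hx u (hUW hu)

lemma Sq.finrank_inf_perp' (h : Sq (idF F) ε f) {U W : Submodule F (ι → F)}
    (hW : IsNondegenerateOn f W) (hUW : U ≤ W) :
    finrank F ↥(W ⊓ h.sesq.perp U) + finrank F U = finrank F W := by
  have h1 : h.sesq.perp W ⊔ W ⊓ h.sesq.perp U = h.sesq.perp U := by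
    rw [← sup_inf_assoc_of_le _ (h.sesq.perp_anti hUW), sup_comm, h.sup_perp hW, top_inf_eq]
  have h2 : h.sesq.perp W ⊓ (W ⊓ h.sesq.perp U) = ⊥ :=
    eq_bot_iff.2 fun x hx => (h.nondegOn_iff.1 hW).le ⟨hx.2.1, hx.1⟩
  have h3 := Submodule.finrank_sup_add_finrank_inf_eq (h.sesq.perp W) (W ⊓ h.sesq.perp U)
  rw [h1, h2, finrank_bot] at h3
  have h4 := h.finrank_perp U
  have h5 := h.finrank_perp W
  omega

lemma Sq.two_mul_finrank_le (h : Sq (idF F) ε f) {U W : Submodule F (ι → F)}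
    (hW : IsNondegenerateOn f W) (hUW : U ≤ W) (hU : IsTotallySingularFor f U) :
    2 * finrank F U ≤ finrank F W := by
  have h1 := h.finrank_inf_perp' hW hUW
  have h2 : finrank F U ≤ finrank F ↥(W ⊓ h.sesq.perp U) :=
    Submodule.finrank_mono (le_inf hUW fun x hx => hU x hx)
  omega

lemma Sq.mem_of_half (h : Sq (idF F) ε f) {U W : Submodule F (ι → F)}
    (hW : IsNondegenerateOn f W) (hUW : U ≤ W) (hU : IsTotallySingularFor f U)
    (hd : 2 * finrank F U = finrank F W) {w : ι → F} (hw : w ∈ W) (hp : ∀ u ∈ U, f w u = 0) :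
    w ∈ U := by
  have h1 := h.finrank_inf_perp' hW hUW
  have h2 : U = W ⊓ h.sesq.perp U :=
    Submodule.eq_of_le_of_finrank_eq (le_inf hUW fun x hx => hU x hx) (by omega)
  rw [h2]
  exact ⟨hw, hp⟩

lemma Sq.inf_eq_bot_of_orth {σ : F ≃+* F} (h : Sq σ ε f) {W W' : Submodule F (ι → F)}
    (hW : IsNondegenerateOn f W) (ho : AreOrthogonalFor f W W') : W ⊓ W' = ⊥ :=
  eq_bot_iff.2 fun x hx => (h.nondegOn_iff.1 hW).le ⟨hx.1, fun w hw =>
    h.eq_zero_comm (ho w hw x hx.2)⟩

lemma Sq.nondegOn_sup {σ : F ≃+* F} (h : Sq σ ε f) {W W' : Submodule F (ι → F)}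
    (hW : IsNondegenerateOn f W) (hW' : IsNondegenerateOn f W') (ho : AreOrthogonalFor f W W') :
    IsNondegenerateOn f (W ⊔ W') := by
  rw [h.nondegOn_iff, eq_bot_iff]
  rintro x ⟨hx, hp⟩
  obtain ⟨a, ha, b, hb, rfl⟩ := Submodule.mem_sup.1 hx
  have h1 : a = 0 := (h.nondegOn_iff.1 hW).le ⟨ha, fun w hw => by
    have := hp w (Submodule.mem_sup_left hw)
    rwa [h.sesq.add_left, h.eq_zero_comm (ho w hw b hb), add_zero] at this⟩
  have h2 : b = 0 := (h.nondegOn_iff.1 hW').le ⟨hb, fun w hw => by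
    have := hp w (Submodule.mem_sup_right hw)
    rwa [h.sesq.add_left, ho a ha w hw, zero_add] at this⟩
  rw [h1, h2, add_zero]
  exact Submodule.zero_mem _

lemma finrank_sup_of_inf {W W' : Submodule F (ι → F)} (h : W ⊓ W' = ⊥) :
    finrank F ↥(W ⊔ W') = finrank F W + finrank F W' := by
  have := Submodule.finrank_sup_add_finrank_inf_eq W W'
  rwa [h, finrank_bot, add_zero] at this

lemma exists_max_finrank [Finite F] (p : Submodule F (ι → F) → Prop) (h0 : p ⊥) :
    ∃ U, p U ∧ ∀ U', p U' → U ≤ U' → U' = U := by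
  obtain ⟨U, hU, hmax⟩ := Set.exists_max_image {U | p U} (fun U => finrank F U) (Set.toFinite _)
    ⟨⊥, h0⟩
  exact ⟨U, hU, fun U' h' hle => (Submodule.eq_of_le_of_finrank_le hle (hmax U' h')).symm⟩

/-! ### Plus type -/

lemma ts_polar {W : Submodule F (ι → F)} (hW : IsTotallySingularQuad Q W) :
    IsTotallySingularFor (polar Q) W := fun u hu v hv => by
  rw [polar, hW _ (W.add_mem hu hv), hW u hu, hW v hv]; simp

lemma ts_sup {W W' : Submodule F (ι → F)} (hW : IsTotallySingularQuad Q W)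
    (hW' : IsTotallySingularQuad Q W') (ho : AreOrthogonalFor (polar Q) W W') :
    IsTotallySingularQuad Q (W ⊔ W') := fun x hx => by
  obtain ⟨a, ha, b, hb, rfl⟩ := Submodule.mem_sup.1 hx
  rw [quad_add Q, hW a ha, hW' b hb, ho a ha b hb]; simp

lemma ts_span (hQ : IsNondegenerateQuadraticForm Q) {v : ι → F} (hv : Q v = 0) :
    IsTotallySingularQuad Q (F ∙ v) := fun x hx => by
  obtain ⟨c, rfl⟩ := Submodule.mem_span_singleton.1 hx
  rw [hQ.smul, hv, mul_zero]

lemma ts_of_polar (hQ : IsNondegenerateQuadraticForm Q) (h2 : (2 : F) ≠ 0)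
    {W : Submodule F (ι → F)} (hW : IsTotallySingularFor (polar Q) W) :
    IsTotallySingularQuad Q W := fun w hw =>
  (mul_eq_zero.1 ((polar_self hQ w).symm.trans (hW w hw w hw))).resolve_left h2

lemma plus_top_iff : IsPlusTypeOn Q ⊤ ↔ H79.IsPlus (F := F) Q :=
  ⟨fun ⟨U, _, h1, h2⟩ => ⟨U, by rwa [finrank_top] at h2, h1⟩,
    fun ⟨U, h1, h2⟩ => ⟨U, le_top, h2, by rwa [finrank_top]⟩⟩

lemma plus_of_le (hQ : IsNondegenerateQuadraticForm Q) {U : Submodule F (ι → F)}
    (hU : IsTotallySingularQuad Q U) (hd : Fintype.card ι ≤ 2 * finrank F U) :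
    IsPlusTypeOn Q ⊤ := by
  have := (sq_polar hQ).two_mul_finrank_le (nondegOn_top (sq_polar hQ)) le_top (ts_polar hU)
  rw [finrank_top, finrank_fintype_fun_eq_card] at this
  exact ⟨U, le_top, hU, by rw [finrank_top, finrank_fintype_fun_eq_card]; omega⟩

lemma plus_bot (hQ : IsNondegenerateQuadraticForm Q) : IsPlusTypeOn Q ⊥ :=
  ⟨⊥, le_rfl, fun w hw => by rw [(Submodule.mem_bot F).1 hw, quad_zero hQ], by simp⟩

lemma plus_sup (hQ : IsNondegenerateQuadraticForm Q) {W W' : Submodule F (ι → F)}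
    (hW : IsNondegenerateOn (polar Q) W) (ho : AreOrthogonalFor (polar Q) W W')
    (h : IsPlusTypeOn Q W) (h' : IsPlusTypeOn Q W') : IsPlusTypeOn Q (W ⊔ W') := by
  obtain ⟨U, h1, h2, h3⟩ := h
  obtain ⟨U', h1', h2', h3'⟩ := h'
  have hb := (sq_polar hQ).inf_eq_bot_of_orth hW ho
  refine ⟨U ⊔ U', sup_le_sup h1 h1', ts_sup h2 h2' fun u hu v hv => ho u (h1 hu) v (h1' hv), ?_⟩
  rw [finrank_sup_of_inf hb, finrank_sup_of_inf (eq_bot_iff.2 ((inf_le_inf h1 h1').trans hb.le))]
  omega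

lemma finrank_le_of_max (hQ : IsNondegenerateQuadraticForm Q) {U M : Submodule F (ι → F)}
    (hU : ∀ v, Q v = 0 → (∀ w ∈ U, polar Q v w = 0) → v ∈ U) (hM : IsTotallySingularQuad Q M) :
    finrank F M ≤ finrank F U :=
  H79.finrank_le_of_ts (H30.ofGeo hQ) U M hU hM

lemma card_le_of_max [Finite F] (hQ : IsNondegenerateQuadraticForm Q) {U : Submodule F (ι → F)}
    (hU : ∀ v, Q v = 0 → (∀ w ∈ U, polar Q v w = 0) → v ∈ U) :
    Fintype.card ι ≤ 2 * finrank F U + 2 := by
  obtain ⟨k, e, e', h, ha⟩ := H79.exists_witt_decomposition _ (nd_ofGeo hQ)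
  have h1 := h.finrank_perp
  have h2 := H79.finrank_le_two_of_anisotropic _ ha
  have h3 : LinearIndependent F e := h.linearIndependent.comp Sum.inl Sum.inl_injective
  have h4 := finrank_le_of_max hQ hU (M := Submodule.span F (Set.range e)) fun w hw => by
    obtain ⟨c, rfl⟩ := (Submodule.mem_span_range_iff_exists_fun F).1 hw
    refine H79.map_sum_of_singular (H30.ofGeo hQ) _ _ (fun i => ?_) fun i j => ?_
    · rw [H79.map_smul', h.qe, mul_zero]
    · rw [QuadraticMap.polar_smul_left, QuadraticMap.polar_smul_right, h.ee]; simp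
  rw [finrank_span_eq_card h3] at h4
  rw [finrank_fintype_fun_eq_card] at h1
  omega

lemma plus_perp [Finite F] (hQ : IsNondegenerateQuadraticForm Q) {W : Submodule F (ι → F)}
    (hW : IsNondegenerateOn (polar Q) W) (h : IsPlusTypeOn Q W) (ht : IsPlusTypeOn Q ⊤) :
    IsPlusTypeOn Q ((sq_polar hQ).sesq.perp W) := by
  have hs := sq_polar hQ
  obtain ⟨U, h1, h2, h3⟩ := h
  obtain ⟨M, -, h4, h5⟩ := ht
  obtain ⟨U', ⟨h6, h7⟩, hmax⟩ := exists_max_finrank
    (fun U => U ≤ hs.sesq.perp W ∧ IsTotallySingularQuad Q U)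
    ⟨bot_le, fun w hw => by rw [(Submodule.mem_bot F).1 hw, quad_zero hQ]⟩
  have h8 := finrank_le_of_max hQ (U := U ⊔ U') (fun v hv hp => by
    have hv' : v ∈ W ⊔ hs.sesq.perp W := by rw [hs.sup_perp hW]; trivial
    obtain ⟨a, ha, b, hb, rfl⟩ := Submodule.mem_sup.1 hv'
    have haU : a ∈ U := hs.mem_of_half hW h1 (ts_polar h2) h3 ha fun u hu => by
      have := hp u (Submodule.mem_sup_left hu)
      rwa [hs.sesq.add_left, hb u (h1 hu), add_zero] at this
    have hb0 : Q b = 0 := by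
      rwa [quad_add Q, h2 a haU, hs.eq_zero_comm (hb a ha), zero_add, add_zero] at hv
    have := hmax (U' ⊔ F ∙ b) ⟨sup_le h6 ((Submodule.span_singleton_le_iff_mem _ _).2 hb),
      ts_sup h7 (ts_span hQ hb0) fun u hu x hx => by
        obtain ⟨c, rfl⟩ := Submodule.mem_span_singleton.1 hx
        have := hp u (Submodule.mem_sup_right hu)
        rw [hs.sesq.add_left, hs.eq_zero_comm (h6 hu a ha), zero_add] at this
        rw [hs.sesq.smul_right, hs.eq_zero_comm this, mul_zero]⟩ le_sup_left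
    exact Submodule.add_mem_sup haU
      (this.le (Submodule.mem_sup_right (Submodule.mem_span_singleton_self b)))) h4
  have h9 := Submodule.finrank_add_le_finrank_add_finrank U U'
  have h10 := hs.two_mul_finrank_le (hs.nondegOn_perp hW) h6 (ts_polar h7)
  have h11 := hs.finrank_perp W
  rw [finrank_top, finrank_fintype_fun_eq_card] at h5
  exact ⟨U', h6, h7, by omega⟩

/-! ### Coordinates on subspaces -/

lemma polar_comp (T : (κ → F) →ₗ[F] (ι → F)) (u v : κ → F) :
    polar (fun u => Q (T u)) u v = polar Q (T u) (T v) := by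
  simp only [polar, map_add]

lemma isNQF_restrict (hQ : IsNondegenerateQuadraticForm Q) {T : (κ → F) →ₗ[F] (ι → F)}
    (hT : Function.Injective T) (hW : IsNondegenerateOn (polar Q) (LinearMap.range T)) :
    IsNondegenerateQuadraticForm fun u => Q (T u) :=
  isNQF_of_polar ((sq_polar hQ).restrict hT hW) (fun c v => by rw [map_smul, hQ.smul])
    (polar_comp T)

lemma plus_range_iff {T : (κ → F) →ₗ[F] (ι → F)} (hT : Function.Injective T) :
    IsPlusTypeOn Q (LinearMap.range T) ↔ IsPlusTypeOn (fun u => Q (T u)) ⊤ := by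
  have hr : finrank F (LinearMap.range T) = finrank F (⊤ : Submodule F (κ → F)) := by
    rw [LinearMap.finrank_range_of_inj hT, finrank_top]
  constructor
  · rintro ⟨U, h1, h2, h3⟩
    refine ⟨U.comap T, le_top, fun w hw => h2 _ hw, ?_⟩
    rw [← hr, ← h3, (Submodule.equivMapOfInjective T hT (U.comap T)).finrank_eq,
      Submodule.map_comap_eq_self h1]
  · rintro ⟨U, -, h2, h3⟩
    refine ⟨U.map T, LinearMap.map_le_range, ?_, ?_⟩
    · rintro _ ⟨w, hw, rfl⟩
      exact h2 w hw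
    · rw [hr, ← h3, (Submodule.equivMapOfInjective T hT U).finrank_eq]

lemma exists_coord_iso {T : (κ → F) →ₗ[F] (ι → F)} (hT : Function.Injective T)
    {W : Submodule F (ι → F)} (h : AreIsometricFor Q (LinearMap.range T) W) :
    ∃ T' : (κ → F) →ₗ[F] (ι → F), Function.Injective T' ∧ LinearMap.range T' = W ∧
      ∀ u, Q (T' u) = Q (T u) := by
  obtain ⟨e, he⟩ := h
  let e' := (LinearEquiv.ofInjective T hT).trans e
  refine ⟨W.subtype ∘ₗ e'.toLinearMap, W.injective_subtype.comp e'.injective, ?_, fun u => he _⟩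
  rw [LinearMap.range_comp, LinearEquiv.range, Submodule.map_top, Submodule.range_subtype]

lemma areIsometric_of_iso {T : (κ → F) →ₗ[F] (ι → F)} (hT : Function.Injective T)
    {T' : (τ → F) →ₗ[F] (ι → F)} (hT' : Function.Injective T')
    (h : H79.Iso (F := F) (fun u => Q (T u)) fun u => Q (T' u)) :
    AreIsometricFor Q (LinearMap.range T) (LinearMap.range T') := by
  obtain ⟨g, hg⟩ := h
  refine ⟨((LinearEquiv.ofInjective T hT).symm.trans g).trans (LinearEquiv.ofInjective T' hT'),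
    fun w => ?_⟩
  obtain ⟨u, rfl⟩ := (LinearEquiv.ofInjective T hT).surjective w
  simp only [LinearEquiv.trans_apply, LinearEquiv.symm_apply_apply]
  exact hg u

lemma plus_of_isometric {W W' : Submodule F (ι → F)} (h : AreIsometricFor Q W W')
    (hp : IsPlusTypeOn Q W) : IsPlusTypeOn Q W' := by
  generalize hk : finrank F W = k
  obtain ⟨T, hT, rfl⟩ := exists_coord W hk
  obtain ⟨T', hT', rfl, hQ⟩ := exists_coord_iso hT h
  rw [plus_range_iff hT', funext hQ, ← plus_range_iff hT]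
  exact hp

lemma isometric_of_plus_iff [Finite F] (hQ : IsNondegenerateQuadraticForm Q)
    {W W' : Submodule F (ι → F)} (hW : IsNondegenerateOn (polar Q) W)
    (hW' : IsNondegenerateOn (polar Q) W') {m : ℕ} (hd : finrank F W = 2 * m)
    (hd' : finrank F W' = 2 * m) (h : IsPlusTypeOn Q W ↔ IsPlusTypeOn Q W') :
    AreIsometricFor Q W W' := by
  obtain ⟨T, hT, rfl⟩ := exists_coord W hd
  obtain ⟨T', hT', rfl⟩ := exists_coord W' hd'
  rw [plus_range_iff hT, plus_range_iff hT', plus_top_iff, plus_top_iff] at h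
  exact areIsometric_of_iso hT hT' (H79.iso_of_isPlus_iff (m := m) (by simp) (by simp) _
    (nd_ofGeo (isNQF_restrict hQ hT hW)) _ (nd_ofGeo (isNQF_restrict hQ hT' hW')) h)

lemma plus_pair [Finite F] (hQ : IsNondegenerateQuadraticForm Q) {W W' : Submodule F (ι → F)}
    (hW : IsNondegenerateOn (polar Q) W) (ho : AreOrthogonalFor (polar Q) W W')
    (h : AreIsometricFor Q W W') (he : Even (finrank F W)) : IsPlusTypeOn Q (W ⊔ W') := by
  obtain ⟨m, hm⟩ := he
  rw [← two_mul] at hm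
  obtain ⟨T, hT, rfl⟩ := exists_coord W hm
  obtain ⟨T', hT', rfl, hQ'⟩ := exists_coord_iso hT h
  have hb := (sq_polar hQ).inf_eq_bot_of_orth hW ho
  obtain ⟨g, hg⟩ := H79.iso_smul_of_even (m := m) (by simp) _ (nd_ofGeo (isNQF_restrict hQ hT hW))
    (c := -1) (by simp)
  have hg' : ∀ v, Q (T (g v)) = - Q (T v) := fun v => (hg v).trans (by simp [H30.coe_ofGeo])
  let L := T ∘ₗ g.toLinearMap + T'
  have hL : Function.Injective L := (injective_iff_map_eq_zero L).2 fun u hu => by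
    have h1 : T' u = - T (g u) := eq_neg_of_add_eq_zero_right hu
    have h2 : T' u ∈ LinearMap.range T ⊓ LinearMap.range T' :=
      ⟨h1 ▸ Submodule.neg_mem _ ⟨_, rfl⟩, ⟨u, rfl⟩⟩
    rw [hb] at h2
    exact hT' (by rw [(Submodule.mem_bot F).1 h2, map_zero])
  refine ⟨LinearMap.range L, ?_, ?_, ?_⟩
  · rintro _ ⟨u, rfl⟩
    exact Submodule.add_mem_sup ⟨_, rfl⟩ ⟨_, rfl⟩
  · rintro _ ⟨u, rfl⟩
    change Q (T (g u) + T' u) = 0
    rw [quad_add Q, hg', hQ', ho _ ⟨_, rfl⟩ _ ⟨_, rfl⟩]; simp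
  · rw [finrank_sup_of_inf hb, LinearMap.finrank_range_of_inj hL,
      LinearMap.finrank_range_of_inj hT, LinearMap.finrank_range_of_inj hT', two_mul]

/-! ### Orthogonal decompositions -/

section Dec

variable {t k : ℕ} {D : Fin t → Submodule F (ι → F)}

lemma orth_biSup {σ : F ≃+* F} (h : Sq σ ε f) (hD : IsNondegenerateMDecomposition f k D)
    {i : Fin t} {s : Finset (Fin t)} (hi : i ∉ s) : AreOrthogonalFor f (D i) (⨆ j ∈ s, D j) := by
  have : (⨆ j ∈ s, D j) ≤ h.sesq.perp (D i) := iSup₂_le fun j hj x hx w hw =>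
    hD.orthogonal j i (fun e => hi (e ▸ hj)) x hx w hw
  exact fun u hu v hv => h.eq_zero_comm (this hv u hu)

lemma perp_block {σ : F ≃+* F} (h : Sq σ ε f) (hD : IsNondegenerateMDecomposition f k D)
    (i : Fin t) : h.sesq.perp (D i) = ⨆ j ∈ Finset.univ.erase i, D j := by
  have h1 : (⨆ j ∈ Finset.univ.erase i, D j) ≤ h.sesq.perp (D i) := fun x hx w hw =>
    h.eq_zero_comm (orth_biSup h hD (Finset.notMem_erase i _) w hw x hx)
  have h2 : (⨆ j ∈ Finset.univ.erase i, D j) ⊔ D i = ⊤ := by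
    rw [eq_top_iff, ← hD.decomp.iSup_eq_top]
    refine iSup_le fun j => ?_
    by_cases hj : j = i
    · exact hj ▸ le_sup_right
    · exact le_sup_of_le_left (le_iSup₂_of_le j (by simp [hj]) le_rfl)
  rw [← top_inf_eq (h.sesq.perp (D i)), ← h2, sup_inf_assoc_of_le _ h1,
    h.nondegOn_iff.1 (hD.nondegenerate i), sup_bot_eq]

lemma biSup_univ (hD : IsMDecomposition k D) : (⨆ j ∈ (Finset.univ : Finset (Fin t)), D j) = ⊤ := by
  simpa using hD.iSup_eq_top

lemma plus_biSup_even [Finite F] (hQ : IsNondegenerateQuadraticForm Q)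
    (hD : IsOrthogonalMDecomposition Q k D) (hk : Even k) (m : ℕ) (s : Finset (Fin t))
    (hs : s.card = 2 * m) : IsPlusTypeOn Q (⨆ j ∈ s, D j) := by
  induction m generalizing s with
  | zero =>
    obtain rfl := Finset.card_eq_zero.1 hs
    simpa using plus_bot hQ
  | succ m ih =>
    have h := sq_polar hQ
    obtain ⟨i, hi, j, hj, hij⟩ := Finset.one_lt_card.1 (show 1 < s.card by omega)
    have hj' : j ∈ s.erase i := Finset.mem_erase.2 ⟨hij.symm, hj⟩
    have h1 : s = insert i (insert j ((s.erase i).erase j)) := by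
      rw [Finset.insert_erase hj', Finset.insert_erase hi]
    have h2 := ih ((s.erase i).erase j) (by
      rw [Finset.card_erase_of_mem hj', Finset.card_erase_of_mem hi]; omega)
    have ho := hD.decomp.orthogonal i j hij
    rw [h1, Finset.iSup_insert, Finset.iSup_insert, ← sup_assoc]
    refine plus_sup hQ (h.nondegOn_sup (hD.decomp.nondegenerate i) (hD.decomp.nondegenerate j) ho)
      (fun u hu v hv => ?_) (plus_pair hQ (hD.decomp.nondegenerate i) ho (hD.isometric i j)
        (by rwa [hD.decomp.decomp.finrank_eq])) h2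
    obtain ⟨a, ha, b, hb, rfl⟩ := Submodule.mem_sup.1 hu
    rw [h.sesq.add_left, orth_biSup h hD.decomp (by simp) a ha v hv,
      orth_biSup h hD.decomp (by simp) b hb v hv, add_zero]

theorem plus_of_even_even [Finite F] (hQ : IsNondegenerateQuadraticForm Q)
    (hD : IsOrthogonalMDecomposition Q k D) (hk : Even k) (ht : Even t) : IsPlusTypeOn Q ⊤ := by
  obtain ⟨m, hm⟩ := ht
  rw [← biSup_univ hD.decomp.decomp]
  exact plus_biSup_even hQ hD hk m _ (by simp; omega)

theorem plus_iff_of_odd [Finite F] (hQ : IsNondegenerateQuadraticForm Q)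
    (hD : IsOrthogonalMDecomposition Q k D) (hk : Even k) (ht : Odd t) (i : Fin t) :
    IsPlusTypeOn Q ⊤ ↔ IsPlusTypeOn Q (D i) := by
  have h := sq_polar hQ
  obtain ⟨m, hm⟩ := ht
  have h1 := plus_biSup_even hQ hD hk m (Finset.univ.erase i) (by simp; omega)
  rw [← perp_block h hD.decomp] at h1
  have hi := hD.decomp.nondegenerate i
  refine ⟨fun ht => ?_, fun hp => ?_⟩
  · simpa only [h.perp_perp hi] using plus_perp hQ (h.nondegOn_perp hi) h1 ht
  · rw [← h.sup_perp hi]
    exact plus_sup hQ hi (fun u hu v hv => h.eq_zero_comm (hv u hu)) hp h1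

end Dec

theorem isometric_perp_of_plus [Finite F] (hQ : IsNondegenerateQuadraticForm Q)
    {W : Submodule F (ι → F)} (hW : IsNondegenerateOn (polar Q) W) {m : ℕ}
    (hd : finrank F W = 2 * m) (hn : Fintype.card ι = 4 * m) (ht : IsPlusTypeOn Q ⊤) :
    AreIsometricFor Q W ((sq_polar hQ).sesq.perp W) := by
  have h := sq_polar hQ
  have h1 := h.finrank_perp W
  refine isometric_of_plus_iff hQ hW (h.nondegOn_perp hW) hd (by omega)
    ⟨fun hp => plus_perp hQ hW hp ht, fun hp => ?_⟩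
  simpa only [h.perp_perp hW] using plus_perp hQ (h.nondegOn_perp hW) hp ht

/-! ### Orthogonal bases and discriminants -/

theorem Sq.exists_frame [Finite F] (h : Sq (idF F) 1 f) (h2 : (2 : F) ≠ 0) :
    ∃ v : ι → ι → F, Frame f v := by
  rcases isEmpty_or_nonempty ι with hι | ⟨⟨i₀⟩⟩
  · exact ⟨fun i => 0, fun i => isEmptyElim i, fun i => isEmptyElim i, rfl⟩
  set c := (gramMatrix f).det with hc
  have hc0 : c ≠ 0 := h.isUnit_det.ne_zero
  let d : ι → F := Function.update 1 i₀ c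
  have hd : ∀ i, d i ≠ 0 := fun i => by
    by_cases hi : i = i₀
    · simp [d, hi, hc0]
    · simp [d, hi]
  have hdet : (Matrix.diagonal d).det = c := by
    rw [Matrix.det_diagonal, Finset.prod_update_of_mem (Finset.mem_univ _)]; simp
  obtain ⟨y, hy⟩ := exists_sym_isometry h2 (sq_form_sym (G := Matrix.diagonal d)
    ((Matrix.isUnit_iff_isUnit_det _).2 (hdet ▸ hc0.isUnit)) (by simp)) h rfl (by
      rw [gram_form, hdet]; exact ⟨c, rfl⟩)
  have h3 : ∀ i j, f (y (Pi.single i 1)) (y (Pi.single j 1)) = Matrix.diagonal d i j :=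
    fun i j => by rw [hy]; exact congrFun (congrFun (gram_form _) i) j
  refine ⟨fun i => y (Pi.single i 1), fun i => ?_, fun i j hij => ?_, rfl⟩
  · rw [h3]; simpa using hd i
  · rw [h3]; simp [hij]

/-- The basis given by a frame. -/
noncomputable def Frame.basis {σ : F ≃+* F} {v : τ → ι → F} (h : Frame f v) (hf : Sesq σ f) :
    Basis τ F (ι → F) :=
  Basis.mk (h.linearIndependent hf) (h.span_eq_top hf).ge

lemma Frame.det_gram {v : τ → ι → F} (hQ : IsNondegenerateQuadraticForm Q)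
    (h : Frame (polar Q) v) :
    (H79.gram Q (h.basis (sq_polar hQ).sesq)).det = ∏ i, polar Q (v i) (v i) := by
  rw [← Matrix.det_diagonal]
  congr 1
  ext i j
  rw [H79.gram_apply, Frame.basis, Basis.coe_mk]
  by_cases hij : i = j
  · subst hij; simp
  · rw [h.orth i j hij, Matrix.diagonal_apply_ne _ hij]

lemma Frame.prod_ne_zero {v : τ → ι → F} (h : Frame f v) : ∏ i, f (v i) (v i) ≠ 0 :=
  Finset.prod_ne_zero_iff.2 fun i _ => h.ne i

theorem Frame.plus_iff [Finite F] (hQ : IsNondegenerateQuadraticForm Q) (h2 : (2 : F) ≠ 0)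
    {v : τ → ι → F} (h : Frame (polar Q) v) {m : ℕ} (hm : Fintype.card ι = 2 * m) :
    IsPlusTypeOn Q ⊤ ↔ IsSquare ((-1) ^ m * ∏ i, polar Q (v i) (v i)) := by
  rw [plus_top_iff, ← h.det_gram hQ]
  exact H79.isPlus_iff_isSquare h2 _ (nd_ofGeo hQ) _ (h.card.trans hm)

theorem Frame.iso [Finite F] (hQ : IsNondegenerateQuadraticForm Q) (h2 : (2 : F) ≠ 0)
    {v : τ → ι → F} (h : Frame (polar Q) v) {Q' : (κ → F) → F}
    (hQ' : IsNondegenerateQuadraticForm Q') {v' : τ → κ → F} (h' : Frame (polar Q') v')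
    (hs : IsSquare ((∏ i, polar Q (v i) (v i)) * ∏ i, polar Q' (v' i) (v' i))) :
    H79.Iso (F := F) Q Q' := by
  rw [← h.det_gram hQ, ← h'.det_gram hQ'] at hs
  exact H79.iso_of_isSquare_det h2 _ (nd_ofGeo hQ) _ (nd_ofGeo hQ') _ _ rfl hs

theorem exists_frame_dec [Finite F] (hQ : IsNondegenerateQuadraticForm Q) (h2 : (2 : F) ≠ 0)
    {t k : ℕ} {D : Fin t → Submodule F (ι → F)} (hD : IsOrthogonalMDecomposition Q k D) :
    ∃ (a : Fin k → F) (v : Fin t × Fin k → ι → F), Frame (polar Q) v ∧ (∀ i j, v (i, j) ∈ D i) ∧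
      ∀ i j, polar Q (v (i, j)) (v (i, j)) = a j := by
  have ht := hD.decomp.decomp.two_le
  let i₀ : Fin t := ⟨0, by omega⟩
  obtain ⟨T, hT, hr⟩ := exists_coord (D i₀) (hD.decomp.decomp.finrank_eq i₀)
  choose S hS hS' hQS using fun i => exists_coord_iso (Q := Q) hT (hr ▸ hD.isometric i₀ i)
  obtain ⟨w, hw⟩ := (sq_polar (isNQF_restrict hQ hT (hr ▸ hD.decomp.nondegenerate i₀))).exists_frame h2
  have hp : ∀ i u u', polar Q (S i u) (S i u') = polar (fun u => Q (T u)) u u' := fun i u u' => by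
    rw [← polar_comp, funext (hQS i)]
  have hm : ∀ i j, S i (w j) ∈ D i := fun i j => hS' i ▸ ⟨_, rfl⟩
  refine ⟨fun j => polar (fun u => Q (T u)) (w j) (w j), fun p => S p.1 (w p.2),
    ⟨fun p => ?_, fun p p' hp' => ?_, ?_⟩, hm, fun i j => hp _ _ _⟩
  · rw [hp]; exact hw.ne _
  · obtain ⟨i, j⟩ := p
    obtain ⟨i', j'⟩ := p'
    by_cases hi : i = i'
    · subst hi
      rw [hp]
      exact hw.orth _ _ fun e => hp' (congrArg _ e)
    · exact hD.decomp.orthogonal i i' hi _ (hm _ _) _ (hm _ _)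
  · rw [← IsMDecomposition.mul_eq_card hD.decomp.decomp]; simp

theorem plus_iff_of_even [Finite F] (hQ : IsNondegenerateQuadraticForm Q) (h2 : (2 : F) ≠ 0)
    {t k : ℕ} {D : Fin t → Submodule F (ι → F)} (hD : IsOrthogonalMDecomposition Q k D)
    (ht : Even t) {m : ℕ} (hm : Fintype.card ι = 2 * m) :
    IsPlusTypeOn Q ⊤ ↔ IsSquare ((-1 : F) ^ m) := by
  obtain ⟨a, v, hv, -, ha⟩ := exists_frame_dec hQ h2 hD
  have h0 := hv.prod_ne_zero
  obtain ⟨s, rfl⟩ := ht
  rw [hv.plus_iff hQ h2 hm]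
  rw [Fintype.prod_prod_type] at h0 ⊢
  simp only [ha, Finset.prod_const, Finset.card_univ, Fintype.card_fin] at h0 ⊢
  rw [← two_mul, mul_comm 2, pow_mul] at h0 ⊢
  rw [mul_comm, H79.isSquare_sq_mul_iff fun h => h0 (by rw [h]; simp)]

theorem plus_iff_of_not_isometric [Finite F] (hQ : IsNondegenerateQuadraticForm Q)
    (h2 : (2 : F) ≠ 0) {k : ℕ} {D : Fin 2 → Submodule F (ι → F)}
    (hD : IsNondegenerateMDecomposition (polar Q) k D) (hn : ¬ AreIsometricFor Q (D 0) (D 1)) :
    IsPlusTypeOn Q ⊤ ↔ ¬ IsSquare ((-1 : F) ^ k) := by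
  choose T hT hr using fun i => exists_coord (D i) (hD.decomp.finrank_eq i)
  have hQ' := fun i => isNQF_restrict hQ (hT i) (hr i ▸ hD.nondegenerate i)
  choose w hw using fun i => (sq_polar (hQ' i)).exists_frame h2
  have hm : ∀ i j, T i (w i j) ∈ D i := fun i j => hr i ▸ ⟨_, rfl⟩
  have hc := IsMDecomposition.mul_eq_card hD.decomp
  have hv : Frame (polar Q) fun p : Fin 2 × Fin k => T p.1 (w p.1 p.2) := by
    refine ⟨fun p => ?_, fun p p' hp' => ?_, by rw [← hc]; simp⟩
    · rw [← polar_comp]; exact (hw _).ne _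
    · obtain ⟨i, j⟩ := p
      obtain ⟨i', j'⟩ := p'
      by_cases hi : i = i'
      · subst hi
        rw [← polar_comp]
        exact (hw _).orth _ _ fun e => hp' (congrArg _ e)
      · exact hD.orthogonal i i' hi _ (hm _ _) _ (hm _ _)
  have h0 := hv.prod_ne_zero
  have h1 : ¬ IsSquare (∏ p : Fin 2 × Fin k, polar Q (T p.1 (w p.1 p.2)) (T p.1 (w p.1 p.2))) := by
    intro hs
    rw [Fintype.prod_prod_type, Fin.prod_univ_two] at hs
    simp only [← polar_comp] at hs
    exact hn (hr 0 ▸ hr 1 ▸ areIsometric_of_iso (hT 0) (hT 1)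
      ((hw 0).iso (hQ' 0) h2 (hQ' 1) (hw 1) hs))
  rw [hv.plus_iff hQ h2 hc.symm, H79.isSquare_mul_iff (by simp) h0]
  tauto

theorem TensorData.plus_iff_three_four [Finite F] (hQ : IsNondegenerateQuadraticForm Q)
    (h2 : (2 : F) ≠ 0) {T : (Fin 3 × Fin 4 → F) ≃ₗ[F] (ι → F)}
    {f₁ : (Fin 3 → F) → (Fin 3 → F) → F} {f₂ : (Fin 4 → F) → (Fin 4 → F) → F}
    (h : TensorData (idF F) (polar Q) T 1 1 f₁ f₂) :
    IsPlusTypeOn Q ⊤ ↔ IsPlusTypeOn (fun v => f₂ v v) ⊤ := by
  obtain ⟨a, ha⟩ := h.sq₁.exists_frame h2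
  obtain ⟨b, hb⟩ := h.sq₂.exists_frame h2
  obtain ⟨c, hc, hp⟩ := h.prop_pure
  have hn : Fintype.card ι = 2 * 6 := by rw [card_eq_of_linearEquiv T]; simp
  have hv : Frame (polar Q) fun p : Fin 3 × Fin 4 => T (pure2 (a p.1) (b p.2)) := by
    refine ⟨fun p => ?_, fun p p' hp' => ?_, by rw [hn]; simp⟩
    · rw [hp]; exact mul_ne_zero hc (mul_ne_zero (ha.ne _) (hb.ne _))
    · rw [hp]
      by_cases hi : p.1 = p'.1
      · rw [hb.orth _ _ fun e => hp' (Prod.ext hi e)]; simp
      · rw [ha.orth _ _ hi]; simp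
  have hd : ∀ u v, polar (fun v => f₂ v v) u v = 2 * f₂ u v := fun u v => by
    rw [polar_diag h.sq₂.sesq, h.sq₂.symm v u, two_mul]
  have hb' : Frame (polar fun v => f₂ v v) b :=
    ⟨fun i => by rw [hd]; exact mul_ne_zero h2 (hb.ne i),
      fun i j hij => by rw [hd, hb.orth i j hij, mul_zero], rfl⟩
  rw [hv.plus_iff hQ h2 hn, hb'.plus_iff (h.sq₂.isNQF_self h2) h2 (m := 2) rfl,
    Fintype.prod_prod_type]
  simp only [hp, hd, Finset.prod_mul_distrib, Finset.prod_const, Finset.card_univ, Fintype.card_fin,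
    Finset.prod_pow]
  have h3 := ha.prod_ne_zero
  have h4 := hb.prod_ne_zero
  generalize (∏ i, f₁ (a i) (a i)) = A at h3 ⊢
  generalize (∏ i, f₂ (b i) (b i)) = B at h4 ⊢
  rw [show (-1) ^ 6 * ((c ^ 4) ^ 3 * (A ^ 4 * B ^ 3)) = (c ^ 6 * A ^ 2 * B) ^ 2 * B by ring,
    show (-1) ^ 2 * (2 ^ 4 * B) = (2 ^ 2) ^ 2 * B by ring,
    H79.isSquare_sq_mul_iff (by positivity), H79.isSquare_sq_mul_iff (pow_ne_zero _ h2)]

/-! ### Invariant totally singular subspaces -/

lemma IsFieldSubalgebra.dvd_finrank [Nonempty ι] {r : ℕ} {K : Subalgebra F (Matrix ι ι F)}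
    (hK : IsFieldSubalgebra r K) {U : Submodule F (ι → F)} (hU : ∀ k ∈ K, ∀ u ∈ U, k *ᵥ u ∈ U) :
    r ∣ finrank F U := by
  letI := (isField_of_fieldSubalgebra hK.comm hK.inv).toField
  let φ : K →ₐ[F] Module.End F U :=
    { toFun := fun k => (Matrix.toLin' (k : Matrix ι ι F)).restrict (hU k k.2)
      map_one' := LinearMap.ext fun u => Subtype.ext (by simp)
      map_mul' := fun a b => LinearMap.ext fun u => Subtype.ext (Matrix.mulVec_mulVec _ _ _).symm
      map_zero' := LinearMap.ext fun u => Subtype.ext (by simp)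
      map_add' := fun a b => LinearMap.ext fun u => Subtype.ext (Matrix.add_mulVec _ _ _)
      commutes' := fun c => LinearMap.ext fun u => Subtype.ext (by
        simp [Algebra.algebraMap_eq_smul_one, Matrix.smul_mulVec]) }
  have := finrank_dvd_card_of_algHom
    ((LinearMap.toMatrixAlgEquiv (Module.finBasis F U)).toAlgHom.comp φ)
  rwa [hK.finrank_eq, Fintype.card_fin] at this

/-- A maximal invariant totally singular subspace is a maximal totally singular subspace. -/
lemma exists_invariant_max [Finite F] (hQ : IsNondegenerateQuadraticForm Q)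
    {K : Subalgebra F (Matrix ι ι F)} (hadj : ∀ k ∈ K, adj (idF F) (polar Q) k ∈ K)
    (hK : ∀ k ∈ K, ∀ v, Q v = 0 → Q (k *ᵥ v) = 0) :
    ∃ U : Submodule F (ι → F), IsTotallySingularQuad Q U ∧ (∀ k ∈ K, ∀ u ∈ U, k *ᵥ u ∈ U) ∧
      ∀ v, Q v = 0 → (∀ w ∈ U, polar Q v w = 0) → v ∈ U := by
  have h := sq_polar hQ
  obtain ⟨U, ⟨h1, h2⟩, hmax⟩ := exists_max_finrank
    (fun U => IsTotallySingularQuad Q U ∧ ∀ k ∈ K, ∀ u ∈ U, k *ᵥ u ∈ U)
    ⟨fun w hw => by rw [(Submodule.mem_bot F).1 hw, quad_zero hQ],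
      fun k _ u hu => by rw [(Submodule.mem_bot F).1 hu, Matrix.mulVec_zero]; exact zero_mem _⟩
  refine ⟨U, h1, h2, fun v hv hp => ?_⟩
  let ev : Matrix ι ι F →ₗ[F] (ι → F) :=
    { toFun := fun k => k *ᵥ v
      map_add' := fun a b => Matrix.add_mulVec _ _ _
      map_smul' := fun c a => Matrix.smul_mulVec _ _ _ }
  let W := (Subalgebra.toSubmodule K).map ev
  have := hmax (U ⊔ W) ⟨ts_sup h1 ?_ ?_, fun k hk x hx => ?_⟩ le_sup_left
  · exact this.le (Submodule.mem_sup_right ⟨1, K.one_mem, Matrix.one_mulVec v⟩)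
  · rintro _ ⟨k, hk, rfl⟩
    exact hK k hk v hv
  · rintro u hu _ ⟨k, hk, rfl⟩
    change polar Q u (k *ᵥ v) = 0
    rw [h.adj_spec']
    exact h.eq_zero_comm (hp _ (h2 _ (hadj k hk) u hu))
  · obtain ⟨a, ha, _, ⟨b, hb, rfl⟩, rfl⟩ := Submodule.mem_sup.1 hx
    rw [Matrix.mulVec_add]
    exact Submodule.add_mem_sup (h2 k hk a ha)
      ⟨k * b, K.mul_mem hk hb, (Matrix.mulVec_mulVec _ _ _).symm⟩

theorem plus_iff_of_unitary [Finite F] [Nonempty ι] (hQ : IsNondegenerateQuadraticForm Q)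
    {K : Subalgebra F (Matrix ι ι F)} (hF : IsFieldSubalgebra 2 K)
    (hadj : ∀ k ∈ K, adj (idF F) (polar Q) k ∈ K)
    (hK : ∀ k ∈ K, ∃ c : F, ∀ v, Q (k *ᵥ v) = c * Q v) :
    IsPlusTypeOn Q ⊤ ↔ 4 ∣ Fintype.card ι := by
  obtain ⟨U, h1, h2, h3⟩ := exists_invariant_max hQ hadj fun k hk v hv => by
    obtain ⟨c, hc⟩ := hK k hk
    rw [hc, hv, mul_zero]
  have h4 := IsFieldSubalgebra.dvd_finrank hF h2
  have h5 := IsFieldSubalgebra.dvd_card hF
  have h6 := card_le_of_max hQ h3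
  have h7 := (sq_polar hQ).two_mul_finrank_le (nondegOn_top (sq_polar hQ)) le_top (ts_polar h1)
  rw [finrank_top, finrank_fintype_fun_eq_card] at h7
  refine ⟨fun ⟨M, _, h8, h9⟩ => ?_, fun h8 => plus_of_le hQ h1 (by omega)⟩
  have := finrank_le_of_max hQ h3 h8
  rw [finrank_top, finrank_fintype_fun_eq_card] at h9
  omega

theorem plus_of_sq_eq_neg_one [Finite F] [Nonempty ι] (hQ : IsNondegenerateQuadraticForm Q)
    (h2 : (2 : F) ≠ 0) (hn : 4 ∣ Fintype.card ι) {x : Matrix ι ι F} (hx : x * x = -1)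
    (hi : ∀ u v, polar Q (x *ᵥ u) (x *ᵥ v) = polar Q u v) : IsPlusTypeOn Q ⊤ := by
  have h := sq_polar hQ
  have hxx : ∀ v, x *ᵥ (x *ᵥ v) = -v := fun v => by
    rw [Matrix.mulVec_mulVec, hx, Matrix.neg_mulVec, Matrix.one_mulVec]
  have ha : adj (idF F) (polar Q) x = -x := h.eq_adj fun u v => by
    rw [← hi u, Matrix.neg_mulVec, Matrix.mulVec_neg, hxx, neg_neg]
  by_cases hs : IsSquare (-1 : F)
  · obtain ⟨i, hi'⟩ := hs
    have hts : ∀ j : F, j * j = -1 → IsTotallySingularQuad Q (rng (x + j • 1)) := fun j hj => by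
      refine ts_of_polar hQ h2 ?_
      rintro _ ⟨u, rfl⟩ _ ⟨v, rfl⟩
      rw [Matrix.toLin'_apply, Matrix.toLin'_apply, h.adj_spec, Matrix.mulVec_mulVec, h.adj_add,
        h.adj_smul, h.adj_one, ha]
      have : (-x + (idF F) j • 1) * (x + j • 1) = 0 := by
        change (-x + j • 1) * (x + j • 1) = 0
        simp only [add_mul, mul_add, neg_mul, hx, Matrix.mul_smul, Matrix.smul_mul, mul_one,
          one_mul, smul_smul, smul_add, smul_neg, hj]
        simp
      rw [this, Matrix.zero_mulVec, h.sesq.zero_right]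
    have hi0 : i ≠ 0 := by rintro rfl; simp at hi'
    have hsup : rng (x + i • 1) ⊔ rng (x + (-i) • 1) = ⊤ := eq_top_iff.2 fun v _ => by
      have : v = (x + i • 1) *ᵥ ((2 * i)⁻¹ • v) + (x + (-i) • 1) *ᵥ (-(2 * i)⁻¹ • v) := by
        simp only [Matrix.add_mulVec, Matrix.mulVec_smul, Matrix.smul_mulVec, Matrix.one_mulVec]
        have : (2 * i)⁻¹ * (2 * i) = 1 := inv_mul_cancel₀ (mul_ne_zero h2 hi0)
        linear_combination (norm := module) (-this) • v
      rw [this]
      exact Submodule.add_mem_sup (mulVec_mem_rng _ _) (mulVec_mem_rng _ _)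
    have h3 := Submodule.finrank_add_le_finrank_add_finrank (rng (x + i • 1)) (rng (x + (-i) • 1))
    rw [hsup, finrank_top, finrank_fintype_fun_eq_card] at h3
    rcases le_total (finrank F (rng (x + i • 1))) (finrank F (rng (x + (-i) • 1))) with h4 | h4
    · exact plus_of_le hQ (hts _ (by rw [neg_mul_neg, hi'])) (by omega)
    · exact plus_of_le hQ (hts _ hi'.symm) (by omega)
  · let K : Subalgebra F (Matrix ι ι F) :=
      { carrier := {k | ∃ a b : F, k = a • 1 + b • x}
        mul_mem' := by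
          rintro _ _ ⟨a, b, rfl⟩ ⟨c, d, rfl⟩
          refine ⟨a * c - b * d, a * d + b * c, ?_⟩
          simp only [add_mul, mul_add, hx, Matrix.mul_smul, Matrix.smul_mul, mul_one, one_mul]
          module
        add_mem' := by
          rintro _ _ ⟨a, b, rfl⟩ ⟨c, d, rfl⟩
          exact ⟨a + c, b + d, by module⟩
        algebraMap_mem' := fun c => ⟨c, 0, by simp [Algebra.algebraMap_eq_smul_one]⟩ }
    have hxv : ∀ v, polar Q v (x *ᵥ v) = 0 := fun v => by
      have := h.adj_spec x v v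
      rw [ha, Matrix.neg_mulVec, h.sesq.neg_right, h.symm] at this
      exact (mul_eq_zero.1 (show 2 * polar Q v (x *ᵥ v) = 0 by linear_combination this)).resolve_left h2
    obtain ⟨U, h1, h3, h4⟩ := exists_invariant_max hQ (K := K) (by
      rintro _ ⟨a, b, rfl⟩
      exact ⟨a, -b, by rw [h.adj_add, h.adj_smul, h.adj_smul, h.adj_one, ha]; simp⟩) (by
      rintro _ ⟨a, b, rfl⟩ v hv
      have h5 := quad_of_polar hQ h2 (c := 1) (fun u v => by rw [hi, one_mul]) v
      rw [Matrix.add_mulVec, Matrix.smul_mulVec, Matrix.smul_mulVec, Matrix.one_mulVec, quad_add Q,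
        hQ.smul, hQ.smul, h5, hv, h.sesq.smul_left, h.sesq.smul_right, hxv]
      simp)
    have h5 : Even (finrank F U) := by
      by_contra ho
      let y : U →ₗ[F] U := (Matrix.toLin' x).restrict (h3 x ⟨0, 1, by simp⟩)
      have hy : y ∘ₗ y = (-1 : F) • LinearMap.id := LinearMap.ext fun u =>
        Subtype.ext ((hxx u).trans (by simp))
      have := congrArg LinearMap.det hy
      rw [LinearMap.det_comp, LinearMap.det_smul, LinearMap.det_id, mul_one,
        (Nat.not_even_iff_odd.1 ho).neg_one_pow] at this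
      exact hs ⟨_, this.symm⟩
    have h6 := card_le_of_max hQ h4
    have h7 := h.two_mul_finrank_le (nondegOn_top h) le_top (ts_polar h1)
    rw [finrank_top, finrank_fintype_fun_eq_card] at h7
    obtain ⟨m, hm⟩ := h5
    exact plus_of_le hQ h1 (by omega)

/-! ### Forms defined over a subfield of index two -/

lemma plus_of_isHyp (hQ : IsNondegenerateQuadraticForm Q) {m : ℕ} {e e' : Fin m → ι → F}
    (h : H79.IsHyp (H30.ofGeo hQ) e e') (hm : Fintype.card ι = 2 * m) : IsPlusTypeOn Q ⊤ :=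
  plus_top_iff.2 ((H79.isPlus_plus m).of_iso (h.iso_plus (by simpa using hm)).symm)

theorem plus_of_index_two [Fintype F] (hQ : IsNondegenerateQuadraticForm Q)
    (hn : Even (Fintype.card ι)) {F₀ : Subfield F} (hc : Fintype.card F = Nat.card F₀ ^ 2)
    {P : GL ι F} (hP : IsQuadFormRationalStructure Q F₀ P) : IsPlusTypeOn Q ⊤ := by
  have h := sq_polar hQ
  obtain ⟨σ, hσ, hσ2, -⟩ := exists_invol hc
  obtain rfl := eq_fixedSub_of_card hσ hσ2 hc
  obtain ⟨ω, hω⟩ := exists_ne_of_ne_refl hσ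
  set F₀ := fixedSub σ
  let L : (ι → F₀) → ι → F := fun u => (P : Matrix ι ι F) *ᵥ fun i => (u i : F)
  have hadd : ∀ u v, L (u + v) = L u + L v := fun u v => by
    simp only [L, ← Matrix.mulVec_add]; rfl
  have hsmul : ∀ (c : F₀) u, L (c • u) = (c : F) • L u := fun c u => by
    simp only [L, ← Matrix.mulVec_smul]; rfl
  let Q₀ : (ι → F₀) → F₀ := fun u => ⟨Q (L u), hP _ fun i => (u i).2⟩
  have hp : ∀ u v, ((polar Q₀ u v : F₀) : F) = polar Q (L u) (L v) := fun u v => by
    simp only [polar, ← hadd]; rfl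
  have hs : Sq (idF F₀) 1 (polar Q₀) := Sq.mk' (fun _ => rfl)
    (fun x y v => Subtype.ext (by
      rw [Subfield.coe_add, hp, hp, hp, hadd, h.sesq.add_left]))
    (fun c x v => Subtype.ext (by rw [Subfield.coe_mul, hp, hp, hsmul, h.sesq.smul_left]))
    (fun u v => by rw [one_mul, QuadraticMap.polar_comm]; rfl) (fun u hu => by
      have h1 : L u = 0 := h.nondeg _ fun v => by
        rw [← gl_mulVec_inv P v, ← Finset.univ_sum_single (_ *ᵥ v), Matrix.mulVec_sum,
          h.sesq.sum_right]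
        refine Finset.sum_eq_zero fun i _ => ?_
        have h2 := hp u (Pi.single i 1)
        rw [hu] at h2
        have h3 : L (Pi.single i 1) = (P : Matrix ι ι F) *ᵥ Pi.single i 1 := by
          simp only [L]; congr 1; funext j; by_cases hj : j = i <;> simp [hj, Pi.single_apply]
        rw [← mul_one (_ *ᵥ v) , show ∀ c : F, (Pi.single i c : ι → F) = c • Pi.single i 1 from
          fun c => by funext j; by_cases hj : j = i <;> simp [hj, Pi.single_apply],
          Matrix.mulVec_smul, h.sesq.smul_right, ← h3, ← h2]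
        simp
      exact funext fun i => Subtype.ext (congrFun (gl_mulVec_eq_zero.1 h1) i))
  have hQ₀ : IsNondegenerateQuadraticForm Q₀ :=
    isNQF_of_polar hs (fun c v => Subtype.ext (by
      change Q (L (c • v)) = (c : F) ^ 2 * Q (L v)
      rw [hsmul, hQ.smul])) fun _ _ => rfl
  obtain ⟨k, e, e', he, ha⟩ := H79.exists_witt_decomposition _ (nd_ofGeo hQ₀)
  have h1 := he.finrank_perp
  have h2 := H79.finrank_le_two_of_anisotropic _ ha
  rw [finrank_fintype_fun_eq_card, Fintype.card_fin] at h1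
  have hE : H79.IsHyp (H30.ofGeo hQ) (L ∘ e) (L ∘ e') :=
    ⟨fun i => congrArg Subtype.val (he.qe i), fun i => congrArg Subtype.val (he.qf i),
      fun i j => (hp _ _).symm.trans ((congrArg Subtype.val (he.ef i j)).trans (by
        split_ifs <;> rfl)),
      fun i j => (hp _ _).symm.trans (congrArg Subtype.val (he.ee i j)),
      fun i j => (hp _ _).symm.trans (congrArg Subtype.val (he.ff i j))⟩
  obtain ⟨m, hm⟩ := hn
  by_cases hk : Fintype.card ι = 2 * k
  · exact plus_of_isHyp hQ hE hk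
  let a : F₀ := ⟨-(ω + σ ω), mem_fixedSub.2 (by rw [map_neg, map_add, hσ2, add_comm])⟩
  let b : F₀ := ⟨ω * σ ω, mem_fixedSub.2 (by rw [map_mul, hσ2, mul_comm])⟩
  have hab : H79.Aniso a b := H79.aniso_iff.2 fun t ht => by
    have h3 : ((t : F) - ω) * (t - σ ω) = 0 := by
      have := congrArg Subtype.val ht
      simp only [a, b] at this
      push_cast at this
      linear_combination this
    have h4 := mem_fixedSub.1 t.2
    rcases mul_eq_zero.1 h3 with h5 | h5
    · exact hω (by rw [← sub_eq_zero.1 h5, h4])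
    · exact hω (by rw [← sub_eq_zero.1 h5, ← h4, sub_eq_zero.1 h5, hσ2])
  obtain ⟨x, y, -, hx, hxy, hy⟩ := H79.exists_pair_of_anisotropic _ ha (by omega) hab
  have hx' : Q (L x) = 1 := congrArg Subtype.val hx
  have hy' : Q (L y) = ω * σ ω := congrArg Subtype.val hy
  have hxy' : polar Q (L x) (L y) = -(ω + σ ω) := (hp _ _).symm.trans (congrArg Subtype.val hxy)
  have hmem : ∀ z : H79.hypPerp (H30.ofGeo hQ₀) e e', L z ∈ H79.hypPerp (H30.ofGeo hQ) (L ∘ e) (L ∘ e') :=
    fun z i => ⟨(hp _ _).symm.trans (congrArg Subtype.val (z.2 i).1),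
      (hp _ _).symm.trans (congrArg Subtype.val (z.2 i).2)⟩
  let z : H79.hypPerp (H30.ofGeo hQ) (L ∘ e) (L ∘ e') := ω • ⟨_, hmem x⟩ + ⟨_, hmem y⟩
  have hz : (z : ι → F) = ω • L x + L y := rfl
  have hQz : Q z = 0 := by
    rw [hz, quad_add Q, hQ.smul, h.sesq.smul_left, hx', hy', hxy']; ring
  have hz0 : z ≠ 0 := fun h0 => by
    have h3 : polar Q (ω • L x + L y) (L x) = 0 := by rw [← hz, h0]; exact h.sesq.zero_left _
    rw [h.sesq.add_left, h.sesq.smul_left, polar_self hQ, h.symm, hx', hxy'] at h3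
    exact hω (by linear_combination -h3)
  obtain ⟨w, hw, hzw⟩ := (hE.nd_perp (nd_ofGeo hQ)).exists_hyperbolic_partner hz0 hQz
  exact plus_of_isHyp hQ (hE.cons z.2 w.2 hQz hw hzw) (by omega)

lemma plus_smul_iff {c : F} (hc : c ≠ 0) {W : Submodule F (ι → F)} :
    IsPlusTypeOn (fun v => c * Q v) W ↔ IsPlusTypeOn Q W := by
  simp only [IsPlusTypeOn, IsTotallySingularQuad, mul_eq_zero, hc, false_or]

end Cfsg.Agent.H25
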