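import Cfsg.Agent.H25.GO4
import Cfsg.Agent.H25.Unitary

/-! Aschbacher's theorem for the orthogonal groups (odd dimension, and dimension at most twelve). -/

set_option autoImplicit false
set_option linter.unusedSectionVars false
set_option linter.unusedSimpArgs false
set_option linter.style.haveILetI false

namespace Cfsg.Agent.H25

open Matrix Cfsg.Geo Module
open QuadraticMap (polar)
open scoped Kronecker MatrixGroups commutatorElement

variable {ι κ : Type} [Fintype ι] [DecidableEq ι] [Fintype κ] [DecidableEq κ]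
  {F : Type*} [Field F] {ε : F}
  {f : (ι → F) → (ι → F) → F} {Q : (ι → F) → F} {H : Subgroup (GL ι F)}

lemma PowData.plus_three (hQ : IsNondegenerateQuadraticForm Q)
    {T : ((Fin 3 → Fin 2) → F) ≃ₗ[F] (ι → F)} {ε₁ : F} {f₁ : (Fin 2 → F) → (Fin 2 → F) → F}
    (h : PowData (idF F) (polar Q) T ε₁ f₁) (ha : ∀ v, f₁ v v = 0)
    (h0 : ∀ u, Q (T (pureV u)) = 0) : IsPlusTypeOn Q ⊤ := by
  obtain ⟨c, -, hc⟩ := h.prop
  refine plus_of_family hQ (linearIndependent_single_comp T
    (e := fun p : Fin 2 × Fin 2 => ![0, p.1, p.2]) (by decide))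
    (fun j => by rw [← pureV_single, h0]) (fun i j => ?_)
    (by rw [card_eq_of_linearEquiv T]; simp)
  rw [hc, ← pureV_single, ← pureV_single, form_pureT, Fin.prod_univ_three]
  simp only [Matrix.cons_val_zero]
  rw [← h.sq₁.sesq.eq_form, ha, zero_mul, zero_mul, mul_zero]

lemma commC_of_card_two [Fintype F] (hF : Fintype.card F = 2) {σ : F ≃+* F}
    {f₁ : (Fin 2 → F) → (Fin 2 → F) → F} (h : Sq σ ε f₁) (X : Subgroup (GL (Fin 2) F)) :
    CommC σ f₁ X := by
  let e := (ZMod.ringEquivOfPrime F Nat.prime_two hF).mapMatrix (m := Fin 2)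
  let S : Set (Matrix (Fin 2) (Fin 2) F) := {x | x * x + x + 1 = 0}
  have hS : ∀ x, e x ∈ S ↔ x * x + x + 1 = 0 := fun x => by
    change e x * e x + e x + 1 = 0 ↔ _
    rw [← map_mul, ← map_add, ← map_one e, ← map_add, map_eq_zero_iff e e.injective]
  have hcomm := Algebra.isMulCommutative_adjoin F (s := S) fun x hx y hy => by
    obtain ⟨x, rfl⟩ := e.surjective x
    obtain ⟨y, rfl⟩ := e.surjective y
    have : ∀ x y : Matrix (Fin 2) (Fin 2) (ZMod 2), x * x + x + 1 = 0 → y * y + y + 1 = 0 →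
        x * y = y * x := by decide +kernel
    rw [← map_mul, ← map_mul, this x y ((hS x).1 hx) ((hS y).1 hy)]
  refine ⟨Algebra.adjoin F S, fun g _ x hx => ?_,
    fun a ha b hb => congrArg Subtype.val (hcomm.is_comm.comm ⟨a, ha⟩ ⟨b, hb⟩), fun x hx => ?_,
    fun hc => ?_⟩
  · induction hx using Algebra.adjoin_induction with
    | mem x hx =>
      refine Algebra.subset_adjoin ?_
      change cj g x * cj g x + cj g x + 1 = 0
      rw [← map_mul, ← map_add, ← map_one (cj g), ← map_add, hx, map_zero]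
    | algebraMap c => rw [AlgEquiv.commutes]; exact algebraMap_mem _ c
    | add x y _ _ hx hy => rw [map_add]; exact add_mem hx hy
    | mul x y _ _ hx hy => rw [map_mul]; exact mul_mem hx hy
  · induction hx using Algebra.adjoin_induction with
    | mem x hx =>
      refine Algebra.subset_adjoin ?_
      change adj σ f₁ x * adj σ f₁ x + adj σ f₁ x + 1 = 0
      rw [← h.adj_mul, ← h.adj_add, ← h.adj_one, ← h.adj_add, hx, h.adj_zero]
    | algebraMap c =>
      rw [Algebra.algebraMap_eq_smul_one, h.adj_smul, h.adj_one]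
      exact Subalgebra.smul_mem _ (one_mem _) _
    | add x y _ _ hx hy => rw [h.adj_add]; exact add_mem hx hy
    | mul x y _ _ hx hy => rw [h.adj_mul]; exact mul_mem hy hx
  · obtain ⟨c, hc⟩ := hc (e !![0, 1; 1, 1]) (Algebra.subset_adjoin ((hS _).2 (by decide)))
    have := congrFun (congrFun hc 0) 1
    simp [e] at this

lemma ES.plus [Fintype F] (hQ : IsNondegenerateQuadraticForm Q) {R R₀ : Subgroup (GL ι F)}
    (h : ES 2 R) (hn : 2 ≤ Fintype.card ι) (h4 : 4 ∣ Fintype.card ι) (hle : R₀ ≤ R)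
    (h0 : galg R₀ = ⊤) (hI : R₀ ≤ isom (polar Q)) : IsPlusTypeOn Q ⊤ := by
  haveI : Nonempty ι := Fintype.card_pos_iff.1 (by omega)
  obtain ⟨x, hx⟩ : ∃ x : R₀, x ^ 2 ≠ 1 := by
    by_contra hc
    push Not at hc
    have := Monoid.exponent_dvd_of_forall_pow_eq_one hc
    rw [h.exponent_eq_of_le hn hle h0] at this
    exact absurd this (by decide)
  obtain ⟨c, hc⟩ := mem_scalars_iff_scal.1 (h.pow_mem x (hle x.2))
  have h1 : (c : F) ^ 2 = 1 := by
    have := h.pow_eq x (hle x.2)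
    rw [show 2 * Nat.gcd 2 2 = 2 * 2 from rfl, pow_mul, ← hc, ← map_pow, ← map_one (scal ι)] at this
    rw [← Units.val_pow_eq_pow_val, scal_injective this, Units.val_one]
  have h3 : (c : F) = -1 := (mul_self_eq_one_iff.1 (show (c : F) * c = 1 by rw [← sq, h1])).resolve_left fun h' =>
    hx (Subtype.ext (by rw [Subgroup.coe_pow, ← hc, show c = 1 from Units.ext h', map_one]; rfl))
  refine plus_of_sq_eq_neg_one hQ (two_ne_zero_of_ES h hn) h4 (x := ((x : GL ι F) : Matrix ι ι F)) ?_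
    (mem_isom.1 (hI x.2))
  rw [← sq, ← Units.val_pow_eq_pow_val, ← hc, coe_scal, h3, neg_one_smul]

lemma not_perfect_three [Fintype F] (hF : Fintype.card F = 3) {f₁ : (Fin 3 → F) → (Fin 3 → F) → F}
    (h : Sq (idF F) 1 f₁) {P : Subgroup (GL (Fin 3) F)} (hP : ⁅P, P⁆ = P) (hg : galg P = ⊤)
    (hle : P ≤ similarityGroup f₁) : False := by
  obtain ⟨v, hv, -, hp⟩ := h.exists_frame_three hF
  have hD := (hv.ndec h (by omega)).decomp
  exact (irr_of_galg_eq_top hg).not_le_stab (IsMDecomposition.ne_bot hD 0)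
    (IsMDecomposition.ne_top hD 0) (le_stab_of_perfect (IsMDecomposition.injective hD) (by omega) hP
      (hv.le_dec h hle (hp.mono hle)) 0)

lemma exists_similar_of_odd [Finite F] (h2 : (2 : F) ≠ 0) {f₁ f₂ : (κ → F) → (κ → F) → F}
    (h₁ : Sq (idF F) 1 f₁) (h₂ : Sq (idF F) 1 f₂) (hn : Odd (Fintype.card κ)) :
    ∃ (y : GL κ F) (c : F), ∀ u v,
      f₂ ((y : Matrix κ κ F) *ᵥ u) ((y : Matrix κ κ F) *ᵥ v) = c * f₁ u v := by
  set c := (gramMatrix f₁).det * (gramMatrix f₂).det with hc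
  have hc0 : c ≠ 0 := mul_ne_zero h₁.isUnit_det.ne_zero h₂.isUnit_det.ne_zero
  obtain ⟨k, hk⟩ := hn
  obtain ⟨y, hy⟩ := exists_sym_isometry h2 (h₁.smul (ε' := 1) hc0 (by simp)) h₂ rfl ⟨c ^ (k + 1), by
    rw [show gramMatrix (fun u v => c * f₁ u v) = c • gramMatrix f₁ from rfl, Matrix.det_smul,
      mul_assoc, ← hc, hk]
    ring⟩
  exact ⟨glOfEquiv y, c, fun u v => by rw [glOfEquiv_mulVec, glOfEquiv_mulVec, hy]⟩

variable [Fintype F]

/-- The conclusion of Aschbacher's theorem for an irreducible group `H` of isometries of `Q`. -/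
inductive OCase (Q : (ι → F) → F) (H : Subgroup (GL ι F)) : Prop
  | dec (t k : ℕ) (D : Fin t → Submodule F (ι → F)) : IsOrthogonalMDecomposition Q k D →
      (k = 1 → (Fintype.card F).Prime) → H ≤ decompositionStabilizer D → OCase Q H
  | pair (k : ℕ) (D : Fin 2 → Submodule F (ι → F)) : 2 * k = Fintype.card ι →
      IsMDecomposition k D → (∀ i, IsTotallySingularQuad Q (D i)) →
      H ≤ decompositionStabilizer D → OCase Q H
  | sub (F₀ : Subfield F) (r : ℕ) (P : GL ι F) (ζ : F) : r.Prime →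
      Fintype.card F = Nat.card F₀ ^ r → ζ ≠ 0 →
      IsQuadFormRationalStructure (fun v => ζ * Q v) F₀ P → H ≤ subfieldSubgroup F₀ P → OCase Q H
  | ext (r : ℕ) (K : Subalgebra F (Matrix ι ι F)) : r.Prime → r ∣ Fintype.card ι →
      r ≠ Fintype.card ι → 2 * r ≠ Fintype.card ι →
      (¬ Odd (Fintype.card F) → 2 * r ∣ Fintype.card ι) → IsFieldSubalgebra r K →
      IsSelfAdjointFor (polar Q) K → H ≤ subalgebraNormalizer K → OCase Q H
  | extU (K : Subalgebra F (Matrix ι ι F)) : (IsPlusTypeOn Q ⊤ ↔ 4 ∣ Fintype.card ι) →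
      Even (Fintype.card ι) → IsFieldSubalgebra 2 K → IsAdjointClosedFor (polar Q) K →
      ¬ IsSelfAdjointFor (polar Q) K → (∀ k ∈ K, ∃ c : F, ∀ v, Q (k *ᵥ v) = c * Q v) →
      H ≤ subalgebraNormalizer K → OCase Q H
  | tensorO (a b : ℕ) (e : ι ≃ Fin a × Fin b) (P : GL ι F) (f₁ : (Fin a → F) → (Fin a → F) → F)
      (f₂ : (Fin b → F) → (Fin b → F) → F) : Odd (Fintype.card F) → 3 ≤ a → a < b →
      (a = 3 → 5 ≤ Fintype.card F) →
      (Fintype.card ι = 12 → ¬ IsPlusTypeOn Q ⊤ ∧ ¬ IsPlusTypeOn (fun v => f₂ v v) ⊤) →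
      IsSymmetricForm f₁ → IsSymmetricForm f₂ → IsTensorFormStructure id (polar Q) f₁ f₂ e P →
      H ≤ tensorProductSubgroup a b e P → OCase Q H
  | tensorSp (e : ι ≃ Fin 2 × Fin 6) (P : GL ι F) (f₁ : (Fin 2 → F) → (Fin 2 → F) → F)
      (f₂ : (Fin 6 → F) → (Fin 6 → F) → F) : IsPlusTypeOn Q ⊤ → 3 ≤ Fintype.card F →
      IsSymplecticForm f₁ → IsSymplecticForm f₂ → IsTensorFormStructure id (polar Q) f₁ f₂ e P →
      (∀ x y, Q (frameEquiv e P (pure2 x y)) = 0) → H ≤ tensorProductSubgroup 2 6 e P → OCase Q H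
  | wreath (k t : ℕ) (e : ι ≃ (Fin t → Fin k)) (P : GL ι F) (f₁ : (Fin k → F) → (Fin k → F) → F) :
      Odd (Fintype.card F) → 3 ≤ k → 2 ≤ t → ¬ (Fintype.card F = 3 ∧ k = 3) → IsSymmetricForm f₁ →
      IsTensorPowerFormStructure id (polar Q) f₁ e P → H ≤ tensorWreathSubgroup k t e P → OCase Q H
  | res : InOrthogonalResidualClass H → OCase Q H

/-- The standing hypotheses. -/
structure OSet (Q : (ι → F) → F) (H : Subgroup (GL ι F)) : Prop where
  nq : IsNondegenerateQuadraticForm Q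
  dim : 7 ≤ Fintype.card ι
  small : Odd (Fintype.card ι) ∨ Fintype.card ι ≤ 12
  eight : Fintype.card ι = 8 → ¬ IsPlusTypeOn Q ⊤
  irr : Irr H
  le : H ≤ isometryGroup F Q
  det : H ≤ specialLinear ι F

namespace OSet

lemma nonempty (h : OSet Q H) : Nonempty ι := Fintype.card_pos_iff.1 (by have := h.dim; omega)

lemma two_le (h : OSet Q H) : 2 ≤ Fintype.card ι := by have := h.dim; omega

lemma sim (h : OSet Q H) : H ≤ similarityGroup (polar Q) := h.le.trans (isometryGroup_le_sim Q)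

lemma of_subCase (hc : SubCase Q H) : OCase Q H := by
  obtain ⟨F₀, r, P, ζ, h1, h2, h3, h4, h5⟩ := hc
  exact .sub F₀ r P ζ h1 h2 h3 h4 h5

lemma of_caseD (h : OSet Q H) (hc : CaseD (polar Q) H) : OCase Q H := by
  obtain ⟨t, k, D, h1, h2⟩ := hc.orth h.le
  by_cases hk : k = 1 → (Fintype.card F).Prime
  · exact .dec t k D h1 hk h2
  push Not at hk
  obtain ⟨rfl, hq⟩ := hk
  refine of_subCase (subCase_of_frame h.nq (fun h0 => ?_) hq h.le h1 h2)
  have i : Fin t := ⟨0, by have := h1.decomp.decomp.two_le; omega⟩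
  have := (sq_polar h.nq).even_finrank (h1.decomp.nondegenerate i)
    fun v _ => (isSymplecticForm_polar h.nq h0).alternating v
  rw [h1.decomp.decomp.finrank_eq] at this
  exact absurd this (by decide)

lemma of_caseTS (h : OSet Q H) (hc : CaseTS (idF F) (polar Q) H) : OCase Q H := by
  obtain ⟨k, D, h1, h2, h3, h4⟩ := hc.orth h.two_le h.nq h.irr h.le
  exact .pair k D h1 h2 h3 h4

lemma alt (h : OSet Q H) (hq : ¬ Odd (Fintype.card F)) {r : ℕ} {E : Subalgebra F (Matrix ι ι F)}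
    (hE : IsFieldSubalgebra r E) (hr : r ≠ Fintype.card ι) (hN : Nrm H E)
    (hs : ∀ x ∈ E, adj (idF F) (polar Q) x = x) : ∀ k ∈ E, ∀ v, polar Q (k *ᵥ v) v = 0 :=
  haveI := h.nonempty
  (sq_polar h.nq).selfadj_alt (two_eq_zero_of_not_odd hq) h.irr h.sim hE
    (lt_of_le_of_ne (Nat.le_of_dvd Fintype.card_pos (IsFieldSubalgebra.dvd_card hE)) hr) hN hs

lemma of_selfAdj (h : OSet Q H) {r : ℕ} {E : Subalgebra F (Matrix ι ι F)} (hr : r.Prime)
    (hE : IsFieldSubalgebra r E) (h2r : 2 * r ≠ Fintype.card ι) (hN : Nrm H E)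
    (hs : ∀ x ∈ E, adj (idF F) (polar Q) x = x) : OCase Q H := by
  haveI := h.nonempty
  by_cases h1 : r = Fintype.card ι
  · subst h1
    exact h.of_caseD (caseD_of_ext_card (by have := h.dim; omega) hr (sq_polar h.nq) h.irr
      (h.le.trans (isometryGroup_le_isom Q)) hE hN hs)
  exact .ext r E hr (IsFieldSubalgebra.dvd_card hE) h1 h2r
    (fun hq => (sq_polar h.nq).two_mul_dvd hE hs (h.alt hq hE h1 hN hs)) hE
    ((sq_polar h.nq).isSelfAdjointFor_iff.2 hs) hN.le

lemma of_unitary (h : OSet Q H) {K : Subalgebra F (Matrix ι ι F)}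
    (hK : FieldData (idF F) (polar Q) H K) (h1 : IsFieldSubalgebra 2 K)
    (h2 : ∀ x ∈ K, adj (idF F) (polar Q) x = x → ∃ c : F, x = c • 1)
    (h3 : ∃ l ∈ K, adj (idF F) (polar Q) l ≠ l) : OCase Q H := by
  haveI := h.nonempty
  have h4 := hK.quad_sim h.two_le h.nq h.irr h.le h2 h3
  refine .extU K (plus_iff_of_unitary h.nq h1 hK.adj_mem h4)
    (even_iff_two_dvd.2 (IsFieldSubalgebra.dvd_card h1)) h1
    ((sq_polar h.nq).isAdjointClosedFor hK.adj_mem) (fun hs => ?_) h4 hK.nrm.le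
  obtain ⟨l, hl, hl'⟩ := h3
  exact hl' ((sq_polar h.nq).isSelfAdjointFor_iff.1 hs l hl)

lemma of_field (h : OSet Q H) {K : Subalgebra F (Matrix ι ι F)}
    (hK : FieldData (idF F) (polar Q) H K) : OCase Q H := by
  haveI := h.nonempty
  have hf := sq_polar h.nq
  have hn := h.dim
  rcases hK.bilin_cases hf h.sim with ⟨r, E, hr, hE, -, hN, hs⟩ | ⟨h1, h2, h3⟩
  swap
  · exact h.of_unitary hK h1 h2 h3
  by_cases h2r : 2 * r = Fintype.card ι
  swap
  · exact h.of_selfAdj hr hE h2r hN hs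
  obtain ⟨s, hg⟩ : ∃ s, ExtGen (polar Q) H E s := by
    by_cases hq : Odd (Fintype.card F)
    · exact exists_extGen_odd hf (two_ne_zero_of_odd hq) (h.le.trans (isometryGroup_le_isom Q)) hE
        h2r hN hs
    · exact exists_extGen_even h.nq (two_eq_zero_of_not_odd hq) h.le hE h2r hN hs
        (h.alt hq hE (by omega) hN hs)
  rcases hg.cases hf h.irr h.sim hr hE h2r hN hs with hc | hc | ⟨K', h1, hK'⟩
  · exact h.of_caseD hc
  · exact h.of_caseTS hc
  rcases hK'.bilin_cases hf h.sim with ⟨r', E', hr', hE', hle, hN', hs'⟩ | ⟨-, h2, h3⟩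
  · refine h.of_selfAdj hr' hE' (fun h4 => ?_) hN' hs'
    have := Submodule.finrank_mono (s := Subalgebra.toSubmodule E') (t := Subalgebra.toSubmodule K') hle
    rw [Subalgebra.finrank_toSubmodule, Subalgebra.finrank_toSubmodule, hE'.finrank_eq,
      h1.finrank_eq] at this
    omega
  · exact h.of_unitary hK' h1 h2 h3

lemma of_commC (h : OSet Q H) (hc : CommC (idF F) (polar Q) H) : OCase Q H := by
  rcases hc.cases (sq_polar h.nq) h.irr h.sim with hc | hc | ⟨K, hK⟩
  · exact h.of_caseD hc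
  · exact h.of_caseTS hc
  · exact h.of_field hK

lemma of_tensor_alt (h : OSet Q H) {a b : ℕ} (ha : 2 ≤ a) (hab : a ≤ b)
    {T : (Fin a × Fin b → F) ≃ₗ[F] (ι → F)} {ε₁ ε₂ : F} {f₁ : (Fin a → F) → (Fin a → F) → F}
    {f₂ : (Fin b → F) → (Fin b → F) → F} (hTD : TensorData (idF F) (polar Q) T ε₁ ε₂ f₁ f₂)
    (hT : PresT H T) (h₁ : ∀ v, f₁ v v = 0) (h₂ : ∀ v, f₂ v v = 0) : OCase Q H := by
  have hf := sq_polar h.nq
  have hs₁ := hTD.sq₁.isSymplecticForm h₁
  have hs₂ := hTD.sq₂.isSymplecticForm h₂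
  have hc : Fintype.card ι = a * b := by rw [card_eq_of_linearEquiv T]; simp
  obtain ⟨a', ha'⟩ : Even a := by simpa using IsSymplecticForm.even_card hs₁
  obtain ⟨b', hb'⟩ : Even b := by simpa using IsSymplecticForm.even_card hs₂
  have h12 : Fintype.card ι ≤ 12 := h.small.resolve_left fun h3 =>
    absurd (Nat.odd_mul.1 (hc ▸ h3)).1 (by rw [ha']; simp)
  obtain rfl : a = 2 := by
    by_contra h3
    have : 4 ≤ a := by omega
    nlinarith
  have h0 : ∀ x y, Q (T (pure2 x y)) = 0 := by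
    obtain ⟨Q', h3, h4, h5⟩ := hTD.exists_quad hf h₁ h₂
    intro x y
    rw [quad_unique h.two_le h.irr h.nq.smul h3.smul (fun u v => (h4 u v).symm) (fun g hg =>
      ⟨1, fun v => by rw [one_mul, mem_isometryGroup.1 (h.le hg)], hT.quad h3 h5 hg fun u v => by
        rw [one_mul, h4, h4, mem_isom.1 (isometryGroup_le_isom Q (h.le hg))]⟩), h5]
  have hp := plus_of_tensor_two h.nq h0
  have h8 : Fintype.card ι ≠ 8 := fun h3 => h.eight h3 hp
  have h7 := h.dim
  obtain rfl : b = 6 := by omega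
  by_cases hF : Fintype.card F = 2
  · exact h.of_commC (hTD.lift_comm (by omega) (by omega) hT (commC_of_card_two hF hTD.sq₁ _))
  obtain ⟨e, P, rfl⟩ := exists_frame T
  exact .tensorSp e P f₁ f₂ hp (three_le_card_of_ne_two hF) hs₁ hs₂ hTD.isTensorFormStructure h0
    hT.le_tensor

lemma of_tensor_two (h : OSet Q H) (hq : Odd (Fintype.card F)) {b : ℕ} (hb : 2 ≤ b)
    {T : (Fin 2 × Fin b → F) ≃ₗ[F] (ι → F)} {ε₁ ε₂ : F} {f₁ : (Fin 2 → F) → (Fin 2 → F) → F}
    {f₂ : (Fin b → F) → (Fin b → F) → F} (hTD : TensorData (idF F) (polar Q) T ε₁ ε₂ f₁ f₂)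
    (hT : PresT H T) : OCase Q H := by
  haveI := h.nonempty
  have hf := sq_polar h.nq
  have h2 := two_ne_zero_of_odd hq
  have he := hTD.eps hf
  rcases hTD.norm₁ with rfl | ⟨-, rfl⟩
  · exact h.of_commC (hTD.commC_two hf (by omega) hT h.sim (hTD.sq₁.exists_self_ne_zero h2))
  obtain rfl : ε₂ = -1 := by linear_combination he
  exact h.of_tensor_alt le_rfl hb hTD hT (hTD.sq₁.alt_of_two_ne_zero h2)
    (hTD.sq₂.alt_of_two_ne_zero h2)

lemma of_tensor_sym (h : OSet Q H) (hq : Odd (Fintype.card F)) {a b : ℕ} (ha : 2 ≤ a) (hab : a ≤ b)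
    {T : (Fin a × Fin b → F) ≃ₗ[F] (ι → F)} {f₁ : (Fin a → F) → (Fin a → F) → F}
    {f₂ : (Fin b → F) → (Fin b → F) → F} (hTD : TensorData (idF F) (polar Q) T 1 1 f₁ f₂)
    (hT : PresT H T) : OCase Q H := by
  haveI := h.nonempty
  have hf := sq_polar h.nq
  have h2 := two_ne_zero_of_odd hq
  by_cases ha2 : a = 2
  · subst ha2
    exact h.of_tensor_two hq hab hTD hT
  by_cases h33 : Fintype.card F = 3 ∧ a = 3
  · obtain ⟨hF, rfl⟩ := h33
    obtain ⟨v, hv, -, hp⟩ := hTD.sq₁.exists_frame_three hF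
    obtain ⟨D, hD⟩ := hTD.exists_ndec hf (by omega) (by omega) hT h.irr h.sim hv hp
    exact h.of_caseD ⟨_, _, D, hD⟩
  rcases hab.lt_or_eq with hab | rfl
  · by_cases h12 : Fintype.card ι = 12 →
        ¬ IsPlusTypeOn Q ⊤ ∧ ¬ IsPlusTypeOn (fun v => f₂ v v) ⊤
    · obtain ⟨e, P, rfl⟩ := exists_frame T
      exact .tensorO a b e P f₁ f₂ hq (by omega) hab
        (fun h3 => five_le_of_odd hq fun h4 => h33 ⟨h4, h3⟩) h12 hTD.sq₁.isSymmetricForm
        hTD.sq₂.isSymmetricForm hTD.isTensorFormStructure hT.le_tensor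
    rw [Classical.not_imp] at h12
    obtain ⟨h3, h4⟩ := h12
    have hc : Fintype.card ι = a * b := by rw [card_eq_of_linearEquiv T]; simp
    obtain rfl : a = 3 := le_antisymm (by nlinarith) (by omega)
    obtain rfl : b = 4 := by omega
    rw [hTD.plus_iff_three_four h.nq h2, and_self, not_not] at h4
    obtain ⟨T', ε₁, ε₂, g₁, g₂, h5, h6⟩ :=
      hTD.exists_two_six h2 hf h4 hT (h.le.trans (isometryGroup_le_isom Q)) h.det
    exact h.of_tensor_two hq (by omega) h5 h6
  have hc : Fintype.card ι = a * a := by rw [card_eq_of_linearEquiv T]; simp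
  have hodd : Odd a := by
    rcases h.small with h3 | h3
    · exact (Nat.odd_mul.1 (hc ▸ h3)).1
    · obtain rfl : a = 3 := le_antisymm (by nlinarith) (by omega)
      decide
  obtain ⟨y, c, hy⟩ := exists_similar_of_odd h2 hTD.sq₁ hTD.sq₂ (by simpa using hodd)
  obtain ⟨e, P, h3, h4⟩ := hTD.exists_wreath (by omega) hf hT y hy
  exact .wreath a 2 e P f₁ hq (by omega) le_rfl h33 hTD.sq₁.isSymmetricForm h3 h4

lemma of_tensor (h : OSet Q H) {a b : ℕ} (ha : 2 ≤ a) (hab : a ≤ b)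
    {T : (Fin a × Fin b → F) ≃ₗ[F] (ι → F)} {ε₁ ε₂ : F} {f₁ : (Fin a → F) → (Fin a → F) → F}
    {f₂ : (Fin b → F) → (Fin b → F) → F} (hTD : TensorData (idF F) (polar Q) T ε₁ ε₂ f₁ f₂)
    (hT : PresT H T) : OCase Q H := by
  haveI := h.nonempty
  have hf := sq_polar h.nq
  by_cases hq : Odd (Fintype.card F)
  · have h2 := two_ne_zero_of_odd hq
    have he := hTD.eps hf
    rcases hTD.norm₁ with rfl | ⟨-, rfl⟩ <;> rcases hTD.norm₂ with rfl | ⟨-, rfl⟩
    · exact h.of_tensor_sym hq ha hab hTD hT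
    · exact (h2 (by linear_combination he)).elim
    · exact (h2 (by linear_combination he)).elim
    · exact h.of_tensor_alt ha hab hTD hT (hTD.sq₁.alt_of_two_ne_zero h2)
        (hTD.sq₂.alt_of_two_ne_zero h2)
  · have h2 := two_eq_zero_of_not_odd hq
    exact h.of_tensor_alt ha hab hTD hT (hTD.alt₁ hf h2 ha (by omega) hT h.irr h.sim)
      (hTD.alt₂ hf h2 ha (by omega) hT h.irr h.sim)

/-- **Aschbacher's theorem**, orthogonal case. -/
theorem oCase (h : OSet Q H) : OCase Q H := by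
  haveI := h.nonempty
  have hf := sq_polar h.nq
  have hn2 := h.two_le
  have h7 := h.dim
  have hX := sup_scalars_le_sim hf h.sim
  have hXQ : H ⊔ scalars ι F ≤ quadSimilarityGroup Q :=
    sup_le (h.le.trans (isometryGroup_le_quadSim Q)) (scalars_le_quadSim h.nq)
  have hHX : H ≤ H ⊔ scalars ι F := le_sup_left
  rcases hf.form_core hn2 h.irr h.sim with ⟨N, h1, h2, h3⟩ |
    ⟨a, b, T, ε₁, ε₂, f₁, f₂, ha, hb, -, hTD, hT⟩ |
    ⟨hP, ⟨r, R, hR, hRX, hnb, -⟩ | ⟨P, hAS⟩ | ⟨t, m, N, L, T, ε₁, f₁, hT, hp⟩⟩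
  · exact h.of_commC (hf.commC_of_nb h1 h2 h3)
  · rcases le_total a b with hab | hab
    · exact h.of_tensor ha hab hTD hT
    · exact h.of_tensor hb hab hTD.swap hT.swap
  · obtain rfl := hR.eq_two_of_bilin hn2 hf (hRX.trans hX)
    obtain ⟨h1, -⟩ := hR.bilin_data hn2 hf hRX hX hnb hP
    obtain ⟨k, hk1, hk⟩ := hR.exists_dim hn2
    have h12 : Fintype.card ι ≤ 12 := h.small.resolve_left fun h3 => by
      rw [hk, Nat.odd_pow_iff (by omega)] at h3
      exact absurd h3 (by decide)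
    have hk3 : k ≤ 3 := by
      by_contra h3
      have := Nat.pow_le_pow_right (n := 2) (by omega) (show 4 ≤ k by omega)
      omega
    have h8 : Fintype.card ι = 8 := by interval_cases k <;> omega
    exact (h.eight h8 (hR.plus h.nq hn2 (by omega) inf_le_left h1 inf_le_right)).elim
  · have hPQ := le_isometryGroup_of_perfect hAS.perfect (hAS.le.trans hXQ)
    by_cases hsub : ∀ F₀ : Subfield F, F₀ ≠ ⊤ → ¬ RealisableOver F₀ (matrixSet P)
    swap
    · push Not at hsub
      obtain ⟨F₁, h1, h2⟩ := hsub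
      exact of_subCase (subCase_of_realisable hn2 h.nq hAS.galg_top (hAS.nb.mono hHX) hPQ h1 h2)
    refine .res ⟨P, hAS.isResidualCore hn2 hsub, ?_⟩
    rintro ⟨σ, f', hf', hfix⟩
    exact hsub _ (fixedSub_ne_top hf'.ne_refl) (realisable_of_two_forms (sq_of_unitary hf') hf
      hAS.galg_top (fixesForm_iff.1 hfix) (hPQ.trans (isometryGroup_le_isom Q)))
  · have hc := hT.card_eq
    have ht := hT.two_le_t
    have hm := hT.two_le_m
    obtain ⟨P₁, hP1, hP2, hP3⟩ := hT.exists_factor hf hX hp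
    by_cases hm2 : m = 2
    · subst hm2
      have h12 : Fintype.card ι ≤ 12 := h.small.resolve_left fun h3 => by
        rw [hc, Nat.odd_pow_iff (by omega)] at h3
        exact absurd h3 (by decide)
      have ht3 : t ≤ 3 := by
        by_contra h3
        have := Nat.pow_le_pow_right (n := 2) (by omega) (show 4 ≤ t by omega)
        omega
      obtain rfl : t = 3 := by interval_cases t <;> omega
      have ha : ∀ v, f₁ v v = 0 := by
        by_contra ha
        push Not at ha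
        exact CommC.not_perfect (by simp) hP1 hP2
          ((hp.sq₁.commC_two ha).mono (hP3.trans isom_le_sim))
      by_cases h2 : (2 : F) = 0
      swap
      · have he := hp.eps hf
        rcases hp.norm₁ with rfl | ⟨-, rfl⟩
        · obtain ⟨v, hv⟩ := hp.sq₁.exists_self_ne_zero h2
          exact (hv (ha v)).elim
        · exact (h2 (by linear_combination he)).elim
      obtain ⟨Q', h3, h4, h5⟩ := hp.exists_quad hf h2 ht ha
      have hQf : polar Q' = polar Q := funext fun u => funext (h4 u)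
      have hN := hT.le_isometryGroup h3 h5 (hQf ▸ hX)
      have hN' := le_isometryGroup_of_perfect hT.comp.perfect_top (hT.le.trans hXQ)
      refine (h.eight hc (hp.plus_three h.nq ha fun u => ?_)).elim
      rw [quad_unique hn2 (irr_of_galg_eq_top hT.galg_top) h.nq.smul h3.smul
        (fun u v => (h4 u v).symm) (fun g hg => ⟨1, fun v => by
          rw [one_mul, mem_isometryGroup.1 (hN' hg)], fun v => by
          rw [one_mul, mem_isometryGroup.1 (hN hg)]⟩), h5]
    have hodd : Odd (Fintype.card ι) := by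
      rcases h.small with h3 | h3
      · exact h3
      have h4 : m ^ 2 ≤ m ^ t := Nat.pow_le_pow_right (by omega) ht
      obtain rfl : m = 3 := le_antisymm (by nlinarith) (by omega)
      rw [hc]; exact Odd.pow (by decide)
    have h2 : (2 : F) ≠ 0 := fun h2 => Nat.not_even_iff_odd.2 hodd
      (IsSymplecticForm.even_card (isSymplecticForm_polar h.nq h2))
    rcases hp.norm₁ with rfl | ⟨-, rfl⟩
    swap
    · have := IsSymplecticForm.even_card (hp.sq₁.isSymplecticForm (hp.sq₁.alt_of_two_ne_zero h2))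
      rw [hc, Nat.odd_pow_iff (by omega)] at hodd
      exact (Nat.not_even_iff_odd.2 hodd (by simpa using this)).elim
    have hex : ¬ (Fintype.card F = 3 ∧ m = 3) := by
      rintro ⟨h3, rfl⟩
      exact not_perfect_three h3 hp.sq₁ hP1 hP2 (hP3.trans isom_le_sim)
    obtain ⟨e, P, rfl⟩ := exists_frame T
    exact .wreath m t e P f₁ (odd_of_two_ne_zero h2) (by omega) ht hex hp.sq₁.isSymmetricForm
      hp.isTensorPowerFormStructure (hHX.trans hT.le_wreath)

end OSet

end Cfsg.Agent.H25
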