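import Cfsg.Agent.H25.SpMax
import Cfsg.Agent.S0245

/-!
# Maximal subgroups of `Sp₄(q)`, `q` odd, in the residual class: the common interface
-/

set_option autoImplicit false

namespace Cfsg.Agent.H25.S4

open Matrix Cfsg.Geo
open scoped MatrixGroups commutatorElement

universe u

abbrev I4 := Fin 2 ⊕ Fin 2

abbrev M4 (F : Type*) := Matrix I4 I4 F

section Alg

variable {F : Type*} [Field F]

/-- The adjoint with respect to the standard symplectic form. -/
def ad (x : M4 F) : M4 F := -(J (Fin 2) F * xᵀ * J (Fin 2) F)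

lemma J_mul_J_mul (x : M4 F) : J (Fin 2) F * (J (Fin 2) F * x) = -x := by
  rw [← Matrix.mul_assoc, J_squared]; simp

lemma ad_mul (x y : M4 F) : ad (x * y) = ad y * ad x := by
  simp only [ad, transpose_mul, neg_mul_neg, Matrix.mul_assoc, J_mul_J_mul, Matrix.mul_neg]

lemma ad_add (x y : M4 F) : ad (x + y) = ad x + ad y := by
  simp only [ad, transpose_add, Matrix.mul_add, Matrix.add_mul, neg_add]

lemma ad_smul (c : F) (x : M4 F) : ad (c • x) = c • ad x := by
  simp only [ad, transpose_smul, Matrix.mul_smul, Matrix.smul_mul, smul_neg]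

lemma ad_neg (x : M4 F) : ad (-x) = -ad x := by
  simp only [ad, transpose_neg, Matrix.mul_neg, Matrix.neg_mul]

lemma ad_sub (x y : M4 F) : ad (x - y) = ad x - ad y := by
  rw [sub_eq_add_neg, ad_add, ad_neg, sub_eq_add_neg]

lemma ad_one : ad (1 : M4 F) = 1 := by
  simp only [ad, transpose_one, Matrix.mul_one, J_squared, neg_neg]

lemma ad_zero : ad (0 : M4 F) = 0 := by simp [ad]

lemma ad_ad (x : M4 F) : ad (ad x) = x := by
  simp only [ad, transpose_neg, transpose_mul, transpose_transpose, J_transpose, Matrix.mul_neg,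
    Matrix.neg_mul, neg_neg, Matrix.mul_assoc, J_mul_J_mul, J_squared, Matrix.mul_one]

lemma trace_ad (x : M4 F) : (ad x).trace = x.trace := by
  rw [ad, trace_neg, trace_mul_cycle, J_squared]
  simp

lemma sympForm_ad (x : M4 F) (u v : I4 → F) :
    sympForm 2 F (x *ᵥ u) v = sympForm 2 F u (ad x *ᵥ v) := by
  simp only [sympForm, ad, mulVec_mulVec, Matrix.mul_neg, Matrix.mul_assoc, J_mul_J_mul, neg_neg]
  rw [← mulVec_mulVec, dotProduct_mulVec u, vecMul_transpose]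

lemma mem_sp_iff {g : GL I4 F} : g ∈ spGL 2 F ↔ ad (g : M4 F) * g = 1 := by
  rw [H27.mem_spGL_iff, SymplecticGroup.mem_iff', ad]
  constructor
  · intro h
    rw [Matrix.neg_mul, Matrix.mul_assoc, Matrix.mul_assoc, ← Matrix.mul_assoc (g : M4 F)ᵀ, h,
      J_squared, neg_neg]
  · intro h
    have := congrArg (J (Fin 2) F * ·) h
    simpa only [Matrix.neg_mul, Matrix.mul_neg, Matrix.mul_assoc, J_mul_J_mul, neg_neg,
      Matrix.mul_one] using this

lemma ad_coe {g : GL I4 F} (hg : g ∈ spGL 2 F) : ad (g : M4 F) = ((g⁻¹ : GL I4 F) : M4 F) := by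
  have h := mem_sp_iff.1 hg
  calc ad (g : M4 F) = ad (g : M4 F) * g * ((g⁻¹ : GL I4 F) : M4 F) := by
        rw [Matrix.mul_assoc, Units.mul_inv, Matrix.mul_one]
    _ = _ := by rw [h, Matrix.one_mul]

lemma trace_inv {g : GL I4 F} (hg : g ∈ spGL 2 F) :
    ((g⁻¹ : GL I4 F) : M4 F).trace = (g : M4 F).trace := by rw [← ad_coe hg, trace_ad]

/-- An element of `Sp₄` from a matrix with `ad x * x = 1`. -/
def mkSp (x : M4 F) (h : ad x * x = 1) : GL I4 F := ⟨x, ad x, mul_eq_one_comm.1 h, h⟩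

@[simp] lemma coe_mkSp (x : M4 F) (h : ad x * x = 1) : (mkSp x h : M4 F) = x := rfl

lemma mkSp_mem (x : M4 F) (h : ad x * x = 1) : mkSp x h ∈ spGL 2 F := mem_sp_iff.2 h

lemma trace_one4 : (1 : M4 F).trace = 4 := by simp

/-- The general self-adjoint matrix. -/
def sa (a b c d e f : F) : M4 F := fromBlocks !![a, b; c, d] !![0, e; -e, 0] !![0, f; -f, 0]
  !![a, c; b, d]

lemma ad_sa (a b c d e f : F) : ad (sa a b c d e f) = sa a b c d e f := by
  ext i j
  rcases i with i | i <;> rcases j with j | j <;> fin_cases i <;> fin_cases j <;>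
    simp [ad, sa, J, Matrix.mul_apply, Fintype.sum_sum_type, Fin.sum_univ_two]

lemma eq_sa (h2 : (2 : F) ≠ 0) {x : M4 F} (h : ad x = x) :
    x = sa (x (.inl 0) (.inl 0)) (x (.inl 0) (.inl 1)) (x (.inl 1) (.inl 0)) (x (.inl 1) (.inl 1))
      (x (.inl 0) (.inr 1)) (x (.inr 0) (.inl 1)) := by
  have e : ∀ i j, ad x i j = x i j := fun i j => by rw [h]
  have e1 := e (.inl 0) (.inr 0)
  have e2 := e (.inl 1) (.inr 1)
  have e3 := e (.inl 1) (.inr 0)
  have e4 := e (.inr 0) (.inl 0)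
  have e5 := e (.inr 1) (.inl 1)
  have e6 := e (.inr 1) (.inl 0)
  have e7 := e (.inr 0) (.inr 0)
  have e8 := e (.inr 0) (.inr 1)
  have e9 := e (.inr 1) (.inr 0)
  have e10 := e (.inr 1) (.inr 1)
  simp [ad, J, Matrix.mul_apply, Fintype.sum_sum_type, Fin.sum_univ_two] at e1 e2 e3 e4 e5
  simp [ad, J, Matrix.mul_apply, Fintype.sum_sum_type, Fin.sum_univ_two] at e6 e7 e8 e9 e10
  have k : ∀ t : F, -t = t → t = 0 := fun t ht =>
    (mul_eq_zero.1 (show 2 * t = 0 by linear_combination -ht)).resolve_left h2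
  ext i j
  rcases i with i | i <;> rcases j with j | j <;> fin_cases i <;> fin_cases j <;>
    simp [sa, ← e3, ← e6, ← e7, ← e8, ← e9, ← e10, k _ e1, k _ e2, k _ e4, k _ e5]

lemma trace_sa (a b c d e f : F) : (sa a b c d e f).trace = 2 * (a + d) := by
  simp [sa, Matrix.trace, Fintype.sum_sum_type, Fin.sum_univ_two]; ring

lemma sa_mul_sa (a b c d e f : F) : sa a b c d e f * sa a b c d e f =
    (a + d) • sa a b c d e f - (a * d - b * c + e * f) • (1 : M4 F) := by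
  ext i j
  rcases i with i | i <;> rcases j with j | j <;> fin_cases i <;> fin_cases j <;>
    simp [sa, Matrix.mul_apply, Fintype.sum_sum_type, Fin.sum_univ_two] <;> ring

/-- A self-adjoint matrix satisfies a quadratic equation. -/
lemma sa_quad (h2 : (2 : F) ≠ 0) {x : M4 F} (h : ad x = x) :
    ∃ c : F, x * x = (x.trace / 2) • x + c • (1 : M4 F) := by
  obtain ⟨a, b, c, d, e, f, rfl⟩ : ∃ a b c d e f, x = sa a b c d e f :=
    ⟨_, _, _, _, _, _, eq_sa h2 h⟩
  refine ⟨-(a * d - b * c + e * f), ?_⟩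
  rw [sa_mul_sa, trace_sa, mul_div_cancel_left₀ _ h2, neg_smul, sub_eq_add_neg]

/-- The five-dimensional orthogonal module: self-adjoint matrices of trace zero. -/
def Wsp (F : Type*) [Field F] : Submodule F (M4 F) where
  carrier := {x | ad x = x ∧ x.trace = 0}
  add_mem' {x y} hx hy := ⟨by rw [ad_add, hx.1, hy.1], by rw [trace_add, hx.2, hy.2, add_zero]⟩
  zero_mem' := ⟨ad_zero, trace_zero _ _⟩
  smul_mem' c {x} hx := ⟨by rw [ad_smul, hx.1], by rw [trace_smul, hx.2, smul_zero]⟩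

lemma mem_Wsp {x : M4 F} : x ∈ Wsp F ↔ ad x = x ∧ x.trace = 0 := Iff.rfl

/-- The invariant symmetric bilinear form, normalised by `x * x = bil x x` on `Wsp F`. -/
def bil (x y : M4 F) : F := (x * y).trace / 4

lemma four_ne (h2 : (2 : F) ≠ 0) : (4 : F) ≠ 0 := by
  rw [show (4 : F) = 2 * 2 by norm_num]; exact mul_ne_zero h2 h2

lemma bil_comm (x y : M4 F) : bil x y = bil y x := by rw [bil, bil, trace_mul_comm]

lemma bil_of_eq (h2 : (2 : F) ≠ 0) {x y : M4 F} {c : F} (h : x * y = c • (1 : M4 F)) :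
    bil x y = c := by
  rw [bil, h, trace_smul, trace_one4, smul_eq_mul, mul_div_cancel_right₀ _ (four_ne h2)]

lemma W_sq (h2 : (2 : F) ≠ 0) {x : M4 F} (hx : x ∈ Wsp F) : x * x = bil x x • (1 : M4 F) := by
  obtain ⟨c, hc⟩ := sa_quad h2 hx.1
  rw [hx.2, zero_div, zero_smul, zero_add] at hc
  rw [bil_of_eq h2 hc, hc]

lemma W_anti (h2 : (2 : F) ≠ 0) {x y : M4 F} (hx : x ∈ Wsp F) (hy : y ∈ Wsp F) :
    x * y + y * x = (2 * bil x y) • (1 : M4 F) := by
  have h := W_sq h2 ((Wsp F).add_mem hx hy)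
  have h3 : bil (x + y) (x + y) = bil x x + 2 * bil x y + bil y y := by
    simp only [bil, Matrix.add_mul, Matrix.mul_add, trace_add, trace_mul_comm y x]; ring
  rw [h3, Matrix.add_mul, Matrix.mul_add, Matrix.mul_add, W_sq h2 hx, W_sq h2 hy, add_smul,
    add_smul] at h
  linear_combination (norm := skip) h
  abel

lemma conj_mem_W {g : GL I4 F} (hg : g ∈ spGL 2 F) {x : M4 F} (hx : x ∈ Wsp F) :
    (g : M4 F) * x * ((g⁻¹ : GL I4 F) : M4 F) ∈ Wsp F := by
  refine ⟨?_, ?_⟩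
  · rw [ad_mul, ad_mul, hx.1, ad_coe hg, ad_coe ((spGL 2 F).inv_mem hg), inv_inv, Matrix.mul_assoc]
  · rw [trace_mul_cycle, Units.inv_mul, Matrix.one_mul, hx.2]

lemma bil_conj (g : GL I4 F) (x y : M4 F) :
    bil ((g : M4 F) * x * ((g⁻¹ : GL I4 F) : M4 F)) ((g : M4 F) * y * ((g⁻¹ : GL I4 F) : M4 F)) =
      bil x y := by
  rw [bil, bil, show (g : M4 F) * x * ((g⁻¹ : GL I4 F) : M4 F) *
      ((g : M4 F) * y * ((g⁻¹ : GL I4 F) : M4 F)) = (g : M4 F) * (x * (((g⁻¹ : GL I4 F) : M4 F) *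
      g) * y) * ((g⁻¹ : GL I4 F) : M4 F) by simp only [Matrix.mul_assoc], trace_mul_cycle,
    Units.inv_mul, Matrix.one_mul, Matrix.mul_one]

/-- The self-adjoint part of `g ∈ Sp₄`. -/
lemma ad_add_inv {g : GL I4 F} (hg : g ∈ spGL 2 F) :
    ad ((g : M4 F) + ((g⁻¹ : GL I4 F) : M4 F)) = (g : M4 F) + ((g⁻¹ : GL I4 F) : M4 F) := by
  rw [ad_add, ad_coe hg, ad_coe ((spGL 2 F).inv_mem hg), inv_inv, add_comm]

lemma eq_or_of_scalar {g : GL I4 F} (hg : g ∈ spGL 2 F) (h : g ∈ scalars I4 F) :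
    g = 1 ∨ g = -1 := by
  obtain ⟨c, hc⟩ := (mem_scalars_iff g).1 h
  have h1 := mem_sp_iff.1 hg
  rw [hc, ad_smul, ad_one, smul_mul_smul_comm, Matrix.mul_one] at h1
  have h2 : (c : F) * c = 1 := by simpa using congrFun (congrFun h1 (.inl 0)) (.inl 0)
  rcases mul_self_eq_one_iff.1 h2 with h3 | h3
  · exact Or.inl (Units.ext (by rw [hc, h3, one_smul, Units.val_one]))
  · exact Or.inr (Units.ext (by rw [hc, h3, neg_smul, one_smul, Units.val_neg, Units.val_one]))

lemma neg_one_mem_scalars : (-1 : GL I4 F) ∈ scalars I4 F :=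
  (mem_scalars_iff _).2 ⟨-1, by simp⟩

lemma neg_one_mem_sp : (-1 : GL I4 F) ∈ spGL 2 F :=
  mem_sp_iff.2 (by simp [ad_neg, ad_one])

/-- A non-central involution of `Sp₄` is a vector of norm one. -/
lemma mem_W_of_invol (h2 : (2 : F) ≠ 0) {g : GL I4 F} (hg : g ∈ spGL 2 F) (hgg : g * g = 1)
    (h1 : g ≠ 1) (h1' : g ≠ -1) : (g : M4 F) ∈ Wsp F := by
  have ha : ad (g : M4 F) = g := by rw [ad_coe hg, inv_eq_of_mul_eq_one_right hgg]
  refine ⟨ha, ?_⟩
  obtain ⟨c, hc⟩ := sa_quad h2 ha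
  by_contra h0
  rw [← Units.val_mul, hgg, Units.val_one] at hc
  have h3 : (g : M4 F).trace / 2 ≠ 0 := div_ne_zero h0 h2
  have h4 : (g : M4 F) = (((g : M4 F).trace / 2)⁻¹ * (1 - c)) • (1 : M4 F) := by
    rw [mul_smul, sub_smul, one_smul, eq_inv_smul_iff₀ h3, eq_sub_iff_add_eq, ← hc]
  have h5 : ((g : M4 F).trace / 2)⁻¹ * (1 - c) ≠ 0 := fun h => by
    rw [h, zero_smul] at h4
    exact g.ne_zero h4
  rcases eq_or_of_scalar hg ((mem_scalars_iff g).2 ⟨Units.mk0 _ h5, h4⟩) with h | h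
  exacts [h1 h, h1' h]

end Alg

section Ctx

variable {F : Type*} [Field F] [Fintype F]

lemma card_sp4 : Nat.card (spGL 2 F) =
    Fintype.card F ^ 4 * ((Fintype.card F ^ 2 - 1) * (Fintype.card F ^ 4 - 1)) := by
  have h := S0245.result (F := F) rfl 2
  rw [Finset.prod_range_succ, Finset.prod_range_one] at h
  refine Eq.trans (Nat.card_congr ?_) h
  exact ⟨fun g => ⟨g.1, (H27.mem_spGL_iff _).1 g.2⟩,
    fun g => ⟨H27.spToGL 2 F g, (H27.mem_spGL_iff _).2 g.2⟩,
    fun g => Subtype.ext (Units.ext rfl), fun g => rfl⟩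

lemma three_le_card (h2 : (2 : F) ≠ 0) : 3 ≤ Fintype.card F := by
  have h1 := Fintype.one_lt_card (α := F)
  by_contra h
  have h3 : Fintype.card F = 2 := by omega
  have := FiniteField.cast_card_eq_zero F
  rw [h3] at this
  exact h2 (by exact_mod_cast this)

lemma le_card_sp4 (h2 : (2 : F) ≠ 0) : 51840 ≤ Nat.card (spGL 2 F) := by
  have h := three_le_card h2
  have h4 : 81 ≤ Fintype.card F ^ 4 := Nat.pow_le_pow_left h 4
  have h5 : 9 ≤ Fintype.card F ^ 2 := Nat.pow_le_pow_left h 2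
  rw [card_sp4]
  exact Nat.mul_le_mul h4 (Nat.mul_le_mul (show 8 ≤ _ by omega) (show 80 ≤ _ by omega))

lemma sp_simple (h2 : (2 : F) ≠ 0) {N : Subgroup (GL I4 F)} (hN : N ≤ spGL 2 F)
    (h : NB (spGL 2 F) N) : N ≤ scalars I4 F ∨ N = spGL 2 F :=
  (qs_spGL (m := 2) (Or.inr ⟨le_rfl, three_le_card h2⟩)).simple N hN h

/-- The situation of the statement. -/
structure Ctx (H P : Subgroup (GL I4 F)) : Prop where
  two : (2 : F) ≠ 0
  max : IsMaximalIn (spGL 2 F) H
  core : IsResidualCore H P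

namespace Ctx

variable {H P : Subgroup (GL I4 F)} (h : Ctx H P)
include h

omit [Fintype F] in
lemma spH {g : GL I4 F} (hg : g ∈ H) : g ∈ spGL 2 F := h.max.1.le hg

omit [Fintype F] in
lemma sp {g : GL I4 F} (hg : g ∈ P) : g ∈ spGL 2 F := h.spH (h.core.le hg)

lemma top : galg P = ⊤ := galg_eq_top_of_absIrr h.core.absIrred

lemma irr : Irr P := irr_of_galg_eq_top h.top

/-- Schur's lemma. -/
lemma schur {a : M4 F} (ha : ∀ g ∈ P, a * (g : M4 F) = g * a) : ∃ c : F, a = c • (1 : M4 F) :=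
  scalar_of_galg_eq_top h.top ha

lemma eq_or_of_comm {a : GL I4 F} (ha : a ∈ spGL 2 F) (hc : ∀ g ∈ P, a * g = g * a) :
    a = 1 ∨ a = -1 := eq_or_of_scalar ha (mem_scalars_of_galg_eq_top h.top hc)

/-- The traces generate the field. -/
lemma field_top (k : Subfield F) (hk : ∀ g ∈ P, (g : M4 F).trace ∈ k) : k = ⊤ := by
  by_contra h0
  exact h.core.no_subfield k h0 (realisable_of_trace h.top k hk)

/-- If all traces satisfy `t ^ r = t` for a power `r` of the characteristic, so does the field. -/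
lemma pow_eq (p n : ℕ) [Fact p.Prime] [CharP F p]
    (hk : ∀ g ∈ P, (g : M4 F).trace ^ p ^ n = (g : M4 F).trace) (x : F) : x ^ p ^ n = x := by
  have := h.field_top ((iterateFrobenius F p n).eqLocusField (RingHom.id F)) hk
  have hx : x ∈ (iterateFrobenius F p n).eqLocusField (RingHom.id F) := this ▸ Subfield.mem_top x
  exact hx

lemma card_eq_prime (p : ℕ) [hp : Fact p.Prime] [CharP F p]
    (hk : ∀ g ∈ P, (g : M4 F).trace ^ p = (g : M4 F).trace) : Fintype.card F = p := by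
  have h1 := h.pow_eq p 1 (by simpa using hk)
  obtain ⟨n, -, hn⟩ := FiniteField.card F p
  have h2 : Fintype.card F ≤ p := by
    have h3 : (Polynomial.X ^ p - Polynomial.X : Polynomial F) ≠ 0 :=
      FiniteField.X_pow_card_sub_X_ne_zero F hp.out.one_lt
    classical
    have h4 := Polynomial.card_le_degree_of_subset_roots (p := Polynomial.X ^ p - Polynomial.X)
      (Z := (Finset.univ : Finset F)) fun x _ => by
        rw [Polynomial.mem_roots h3]; simpa [sub_eq_zero] using h1 x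
    rwa [FiniteField.X_pow_card_sub_X_natDegree_eq F hp.out.one_lt] at h4
  refine le_antisymm h2 ?_
  rw [hn]
  exact Nat.le_self_pow n.ne_zero p

/-- A small non-central subgroup normalised by `H` lies in `H`. -/
lemma le_of_nb {K : Subgroup (GL I4 F)} (hK : K ≤ spGL 2 F) (hH : NB H K)
    (h0 : ¬ K ≤ scalars I4 F) (hc : Nat.card K < 51840) : K ≤ H := by
  have h1 : H ≤ Subgroup.normalizer (K : Set (GL I4 F)) ⊓ spGL 2 F := fun g hg =>
    ⟨Subgroup.mem_normalizer_fintype fun x hx => hH g hg x hx, h.spH hg⟩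
  rcases h.max.2 _ h1 inf_le_right with h2 | h2
  · exact h2 ▸ le_inf Subgroup.le_normalizer hK
  · rcases sp_simple h.two hK fun g hg x hx =>
      (Subgroup.mem_normalizer_iff.1 (h2.ge hg).1 x).1 hx with h3 | h3
    · exact absurd h3 h0
    · exact absurd (h3 ▸ hc) (not_lt.2 (le_card_sp4 h.two))

/-- An overgroup of `H` acting non-trivially on at most seven points is `H`. -/
lemma eq_of_perm {M : Subgroup (GL I4 F)} (hM : M ≤ spGL 2 F) (hH : H ≤ M) {α : Type*}
    [Fintype α] (hα : Fintype.card α ≤ 7) (φ : M →* Equiv.Perm α) (hφ : ∃ g, φ g ≠ 1) : M = H := by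
  classical
  refine (h.max.2 M hH hM).resolve_right ?_
  rintro rfl
  obtain ⟨g, hg⟩ := hφ
  rcases sp_simple h.two (N := φ.ker.map (spGL 2 F).subtype) (Subgroup.map_subtype_le _)
    (by
      rintro x hx _ ⟨y, hy, rfl⟩
      exact ⟨_, φ.normal_ker.conj_mem y hy ⟨x, hx⟩, rfl⟩) with h3 | h3
  · have h4 : Nat.card φ.ker ≤ 2 := by
      have : Nat.card φ.ker ≤ Nat.card ({1, -1} : Set (GL I4 F)) :=
        Nat.card_le_card_of_injective (fun x => ⟨x.1.1, by
          simpa using eq_or_of_scalar x.1.2 (h3 ⟨x.1, x.2, rfl⟩)⟩)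
          fun x y hxy => Subtype.ext (Subtype.ext (Subtype.mk.inj hxy))
      exact this.trans (by rw [Nat.card_coe_set_eq]; exact (Set.ncard_insert_le _ _).trans (by simp))
    have h5 : φ.ker.index ≤ 5040 := by
      rw [Subgroup.index_ker]
      refine (Nat.card_le_card_of_injective _ φ.range.subtype_injective).trans ?_
      rw [Nat.card_eq_fintype_card, Fintype.card_perm]
      exact Nat.factorial_le hα
    exact absurd ((le_card_sp4 h.two).trans (φ.ker.card_mul_index.ge.trans (Nat.mul_le_mul h4 h5)))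
      (by norm_num)
  · obtain ⟨y, hy, hy'⟩ := h3.ge g.2
    exact hg (by rw [← show y = g from Subtype.ext hy']; exact hy)

end Ctx

/-- `P` modulo scalars. -/
abbrev Bar (P : Subgroup (GL I4 F)) := P ⧸ (scalars I4 F).subgroupOf P

/-- `-1` is the only involution of `P`. -/
def Uniq (P : Subgroup (GL I4 F)) : Prop := -1 ∈ P ∧ ∀ g ∈ P, g * g = 1 → g = 1 ∨ g = -1

end Ctx

/-! ### Case A: one involution -/

/-- Defining characteristic. -/
def DefStmt : Prop := ∀ (F : Type u) [Field F] [Fintype F] (H P : Subgroup (GL I4 F)), Ctx H P →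
  ∀ (K : Type) [Field K] [Fintype K] (p : ℕ) [Fact p.Prime] [CharP F p] [CharP K p],
    3 < Fintype.card K → Nonempty (P ≃* SL(2, K)) → 5 ≤ p ∧ Fintype.card K = Fintype.card F

/-- Cross characteristic. -/
def CrossStmt : Prop := ∀ (F : Type u) [Field F] [Fintype F] (H P : Subgroup (GL I4 F)), Ctx H P →
  ∀ (K : Type) [Field K] [Fintype K], Odd (Fintype.card K) → 3 < Fintype.card K →
    (Fintype.card K : F) ≠ 0 → Nonempty (P ≃* SL(2, K)) → Fintype.card K = 5 ∨ Fintype.card K = 9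

/-- `SL₂(7)` is not maximal in `Sp₄(7)`. -/
def L27Stmt : Prop := ∀ (F : Type u) [Field F] [Fintype F] (H P : Subgroup (GL I4 F)), Ctx H P →
  ∀ (K : Type) [Field K] [Fintype K], Fintype.card K = 7 → Fintype.card F = 7 →
    Nonempty (P ≃* SL(2, K)) → False

/-- The normaliser of `SL₂(5)` is never maximal. -/
def A5Stmt : Prop := ∀ (F : Type u) [Field F] [Fintype F] (H P : Subgroup (GL I4 F)), Ctx H P →
  ∀ (K : Type) [Field K] [Fintype K], Fintype.card K = 5 → Nonempty (P ≃* SL(2, K)) → False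

def A6Stmt : Prop := ∀ (F : Type u) [Field F] [Fintype F] (H P : Subgroup (GL I4 F)), Ctx H P →
  Uniq P → Nonempty (Bar P ≃* alternatingGroup (Fin 6)) →
    ∀ (p : ℕ) [Fact p.Prime] [CharP F p], Fintype.card F = p ∧ 5 ≤ p ∧ p ≠ 7

def A7Stmt : Prop := ∀ (F : Type u) [Field F] [Fintype F] (H P : Subgroup (GL I4 F)), Ctx H P →
  Uniq P → Nonempty (Bar P ≃* alternatingGroup (Fin 7)) → Fintype.card F = 7

/-! ### Case B: root sets -/

abbrev V5 (F : Type*) := Fin 5 → F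

section Roots

variable {F : Type*} [Field F]

/-- The reflection of `b` in the unit vector `a`. -/
def rf (a b : V5 F) : V5 F := b - (2 * (a ⬝ᵥ b)) • a

/-- A reflection-closed set of unit vectors of `F⁵` containing the standard basis, forming one
orbit, in which not all pairs generate `2`-groups of order at most `8`. -/
structure RS (R : Set (V5 F)) : Prop where
  two : (2 : F) ≠ 0
  norm : ∀ a ∈ R, a ⬝ᵥ a = 1
  refl : ∀ a ∈ R, ∀ b ∈ R, rf a b ∈ R
  frame : ∀ i, Pi.single i 1 ∈ R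
  homog : ∀ a ∈ R, ∀ b ∈ R, ∃ l : List (V5 F), (∀ c ∈ l, c ∈ R) ∧ l.foldr rf a = b
  bs : ∀ a ∈ R, ∃ b ∈ R, a ⬝ᵥ b ≠ 0 ∧ b ≠ a ∧ b ≠ -a ∧ 2 * (a ⬝ᵥ b) ^ 2 ≠ 1

lemma rf_dot (a x y : V5 F) : rf a x ⬝ᵥ y = x ⬝ᵥ y - 2 * (a ⬝ᵥ x) * (a ⬝ᵥ y) := by
  rw [rf, sub_dotProduct, smul_dotProduct, smul_eq_mul]

lemma dot_rf (a x y : V5 F) : x ⬝ᵥ rf a y = x ⬝ᵥ y - 2 * (a ⬝ᵥ x) * (a ⬝ᵥ y) := by
  rw [dotProduct_comm, rf_dot, dotProduct_comm y, mul_right_comm]

lemma rf_dot_rf {a : V5 F} (ha : a ⬝ᵥ a = 1) (x y : V5 F) : rf a x ⬝ᵥ rf a y = x ⬝ᵥ y := by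
  rw [rf_dot, dot_rf, dot_rf, ha]; ring

lemma rf_rf {a : V5 F} (ha : a ⬝ᵥ a = 1) (x : V5 F) : rf a (rf a x) = x := by
  rw [rf, dot_rf, ha, rf]; module

lemma rf_add (a x y : V5 F) : rf a (x + y) = rf a x + rf a y := by
  simp only [rf, dotProduct_add]; module

lemma rf_smul (a : V5 F) (c : F) (x : V5 F) : rf a (c • x) = c • rf a x := by
  simp only [rf, dotProduct_smul, smul_eq_mul]; module

lemma rf_apply (a x : V5 F) (i : Fin 5) : rf a x i = x i - 2 * (a ⬝ᵥ x) * a i := rfl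

lemma rf_single (i : Fin 5) (x : V5 F) :
    rf (Pi.single i 1) x = Function.update x i (-x i) := by
  ext j
  rw [rf_apply, single_dotProduct, one_mul]
  by_cases h : j = i
  · subst h; simp; ring
  · simp [h]

/-- The reflection as a linear equivalence. -/
def rfE {a : V5 F} (ha : a ⬝ᵥ a = 1) : V5 F ≃ₗ[F] V5 F where
  toFun := rf a
  invFun := rf a
  map_add' := rf_add a
  map_smul' := rf_smul a
  left_inv := rf_rf ha
  right_inv := rf_rf ha

namespace RS

variable {R : Set (V5 F)} (h : RS R)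
include h

lemma neg_mem {a : V5 F} (ha : a ∈ R) : -a ∈ R := by
  have := h.refl a ha a ha
  rwa [rf, h.norm a ha, show a - (2 * 1 : F) • a = -a by module] at this

lemma flip {a : V5 F} (ha : a ∈ R) (i : Fin 5) : Function.update a i (-a i) ∈ R :=
  rf_single i a ▸ h.refl _ (h.frame i) a ha

/-- All sign changes of a root are roots. -/
lemma signs {a : V5 F} (ha : a ∈ R) (ε : Fin 5 → F) (hε : ∀ i, ε i = 1 ∨ ε i = -1) :
    (fun i => ε i * a i) ∈ R := by
  have key : ∀ s : Finset (Fin 5), (fun i => if i ∈ s then ε i * a i else a i) ∈ R := by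
    intro s
    induction s using Finset.induction_on with
    | empty => simpa using ha
    | insert j s hj ih =>
      rcases hε j with e | e
      · convert ih using 2 with i
        by_cases hi : i = j
        · subst hi; simp [hj, e]
        · simp [hi]
      · convert h.flip ih j using 2 with i
        by_cases hi : i = j
        · subst hi; simp [hj, e]
        · simp [hi]
  simpa using key Finset.univ

lemma rf_mem_iff {a : V5 F} (ha : a ∈ R) {x : V5 F} : rf a x ∈ R ↔ x ∈ R :=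
  ⟨fun hx => rf_rf (h.norm a ha) x ▸ h.refl a ha _ hx, h.refl a ha x⟩

/-- Homogeneity: an isometry preserving `R` moves `a` to `b`. -/
lemma exists_iso {a b : V5 F} (ha : a ∈ R) (hb : b ∈ R) : ∃ g : V5 F ≃ₗ[F] V5 F,
    (∀ x y, g x ⬝ᵥ g y = x ⬝ᵥ y) ∧ (∀ x, g x ∈ R ↔ x ∈ R) ∧ g a = b := by
  obtain ⟨l, hl, rfl⟩ := h.homog a ha b hb
  clear hb
  induction l with
  | nil => exact ⟨.refl _ _, fun _ _ => rfl, fun _ => Iff.rfl, rfl⟩
  | cons c l ih =>
    obtain ⟨g, h1, h2, h3⟩ := ih fun x hx => hl x (List.mem_cons_of_mem _ hx)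
    have hc := hl c List.mem_cons_self
    exact ⟨g.trans (rfE (h.norm c hc)), fun x y => (rf_dot_rf (h.norm c hc) _ _).trans (h1 x y),
      fun x => (h.rf_mem_iff hc).trans (h2 x), congrArg (rf c) h3⟩

/-- Connectedness. -/
lemma conn (Z : Submodule F (V5 F)) (hZ : ∀ a ∈ R, a ∈ Z ∨ ∀ z ∈ Z, a ⬝ᵥ z = 0) {a : V5 F}
    (ha : a ∈ R) (haZ : a ∈ Z) : Z = ⊤ := by
  have key : ∀ b ∈ R, b ∈ Z := fun b hb => by
    obtain ⟨l, hl, rfl⟩ := h.homog a ha b hb
    clear hb
    induction l with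
    | nil => exact haZ
    | cons c l ih =>
      have h1 := ih fun x hx => hl x (List.mem_cons_of_mem _ hx)
      rw [List.foldr_cons, rf]
      rcases hZ c (hl c List.mem_cons_self) with h2 | h2
      · exact Z.sub_mem h1 (Z.smul_mem _ h2)
      · rwa [h2 _ h1, mul_zero, zero_smul, sub_zero]
  refine eq_top_iff.2 fun x _ => ?_
  rw [pi_eq_sum_univ' x]
  exact Z.sum_mem fun i _ => Z.smul_mem _ (key _ (h.frame i))

/-- Transport along an isometry which permutes the standard basis up to `R`. -/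
lemma map (g : V5 F ≃ₗ[F] V5 F) (hg : ∀ x y, g x ⬝ᵥ g y = x ⬝ᵥ y)
    (hf : ∀ i, g (Pi.single i 1) ∈ R) : RS {x | g x ∈ R} := by
  have e : ∀ x y, g (rf x y) = rf (g x) (g y) := fun x y => by rw [rf, rf, map_sub, map_smul, hg]
  refine ⟨h.two, fun a ha => hg a a ▸ h.norm _ ha, fun a ha b hb => ?_, hf, fun a ha b hb => ?_,
    fun a ha => ?_⟩
  · exact (congrArg (· ∈ R) (e a b)).mpr (h.refl _ ha _ hb)
  · obtain ⟨l, hl, e1⟩ := h.homog _ ha _ hb
    refine ⟨l.map g.symm, fun c hc => ?_, g.injective (Eq.trans ?_ e1)⟩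
    · obtain ⟨d, hd, rfl⟩ := List.mem_map.1 hc
      simpa using hl d hd
    · clear hl e1
      induction l with
      | nil => rfl
      | cons c l ih => rw [List.map_cons, List.foldr_cons, List.foldr_cons, e, ih, g.apply_symm_apply]
  · obtain ⟨b, hb, h1, h2, h3, h4⟩ := h.bs _ ha
    obtain ⟨b, rfl⟩ := g.surjective b
    rw [hg] at h1 h4
    exact ⟨b, hb, h1, fun e => h2 (by rw [e]), fun e => h3 (by rw [e, map_neg]), h4⟩

/-- Permuting the coordinates. -/
lemma perm (σ : Equiv.Perm (Fin 5)) : RS {x : V5 F | x ∘ σ ∈ R} :=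
  h.map (LinearEquiv.funCongrLeft F F σ) (fun x y => comp_equiv_dotProduct_comp_equiv x y σ)
    fun i => by
      convert h.frame (σ.symm i) using 1
      ext j
      simp [LinearEquiv.funCongrLeft_apply, LinearMap.funLeft_apply, Pi.single_apply,
        Equiv.eq_symm_apply]

end RS

end Roots

/-- There is a degenerate pair. -/
def NDStmt : Prop := ∀ (F : Type u) [Field F] [Fintype F] (R : Set (V5 F)), RS R →
  ∃ a ∈ R, ∃ b ∈ R, a ⬝ᵥ b = 1 ∧ a ≠ b

/-- The icosahedral exception in characteristic three. -/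
def GoldStmt : Prop := ∀ (F : Type u) [Field F] (R : Set (V5 F)), RS R → (3 : F) = 0 →
  (∀ a ∈ R, ∀ b ∈ R, (a ⬝ᵥ b) ^ 9 = a ⬝ᵥ b) → (∃ a ∈ R, ∃ b ∈ R, (a ⬝ᵥ b) ^ 4 = -1) →
    ∃ (a v : V5 F) (c : F), a ∈ R ∧ v ≠ 0 ∧ v ⬝ᵥ v = 0 ∧ a ⬝ᵥ v = 0 ∧ a + v ∈ R ∧ a + c • v ∈ R ∧
      c ^ 3 ≠ c

/-- With a degenerate pair, all unit vectors are roots. -/
def DGStmt : Prop := ∀ (F : Type u) [Field F] [Fintype F] (R : Set (V5 F)), RS R →
  (∃ a ∈ R, ∃ b ∈ R, a ⬝ᵥ b = 1 ∧ a ≠ b) →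
  (∀ k : Subfield F, (∀ a ∈ R, ∀ b ∈ R, (a ⬝ᵥ b) ^ 2 ∈ k) → k = ⊤) →
    ∀ y : V5 F, y ⬝ᵥ y = 1 → y ∈ R

end Cfsg.Agent.H25.S4
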