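import Cfsg.Agent.H25.S4Fr3
import Cfsg.Agent.H79.SpSign
import Cfsg.Agent.H80.SpB2
import Cfsg.Agent.H80.SpND
import Cfsg.Agent.H41.SpDG
import Cfsg.Agent.H78.Gold

/-!
# A residual core of `Sp₄(q)`, `q` odd, has only one involution
-/

set_option autoImplicit false

namespace Cfsg.Agent.H25.S4

universe u

theorem bStmt : BStmt.{u} :=
  H80.SpB.caseB (H79.Sp.bridge absFrame) H79.Sp.sign H80.ND.nd (H41.Sp.dg H78.Gold.gold_stmt)

end Cfsg.Agent.H25.S4
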