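import Cfsg.Agent.H6.ZStar
import Cfsg.Agent.H87.Transfer
import Cfsg.Agent.H3.Cores
import Cfsg.Agent.S0199

/-!
# Fusion of involutions in a simple group: the three tools
-/

set_option autoImplicit false

namespace Cfsg.Agent.H25.S4

open Subgroup

variable {G : Type*} [Group G] [Finite G]

omit [Finite G] in
lemma isPGroup_zpowers_of_sq {t : G} (ht : t * t = 1) : IsPGroup 2 (zpowers t) := by
  rintro ⟨_, k, rfl⟩
  refine ⟨1, Subtype.ext ?_⟩
  simp only [pow_one, SubgroupClass.coe_pow, OneMemClass.coe_one]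
  rw [← zpow_natCast, ← zpow_mul, mul_comm, zpow_mul, zpow_natCast, sq, ht, one_zpow]

/-- A `2`-subgroup of the centraliser of a central element of `S` is conjugate into `S` there. -/
lemma exists_conj_le (S : Sylow 2 G) {z : G} (hz : ∀ s ∈ S, s * z = z * s) {Q : Subgroup G}
    (hQ : IsPGroup 2 Q) (hc : ∀ s ∈ Q, s * z = z * s) :
    ∃ c : G, c * z * c⁻¹ = z ∧ ∀ x ∈ Q, c * x * c⁻¹ ∈ S := by
  have hS : (S : Subgroup G) ≤ centralizer {z} := fun s hs => mem_centralizer_singleton_iff.2 (hz s hs)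
  have hQ' : Q ≤ centralizer {z} := fun s hs => mem_centralizer_singleton_iff.2 (hc s hs)
  obtain ⟨T, hT⟩ := (hQ.comap_subtype (K := centralizer {z})).exists_le_sylow
  obtain ⟨c, hc⟩ := MulAction.exists_smul_eq (centralizer {z} : Subgroup G) T (S.subtype hS)
  refine ⟨c, by rw [mem_centralizer_singleton_iff.1 c.2, mul_inv_cancel_right], fun x hx => ?_⟩
  have h1 : (⟨x, hQ' hx⟩ : centralizer {z}) ∈ (T : Subgroup (centralizer {z} : Subgroup G)) := hT hx
  have h2 : c * ⟨x, hQ' hx⟩ * c⁻¹ ∈ ((c • T : Sylow 2 _) : Subgroup (centralizer {z} : Subgroup G)) :=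
    Subgroup.smul_mem_pointwise_smul _ (MulAut.conj c) _ h1
  rw [hc] at h2
  exact h2

lemma exists_conj_mem (S : Sylow 2 G) {t : G} (ht : t * t = 1) : ∃ c : G, c * t * c⁻¹ ∈ S := by
  obtain ⟨c, -, h⟩ := exists_conj_le S (z := 1) (by simp) (isPGroup_zpowers_of_sq ht) (by simp)
  exact ⟨c, h t (mem_zpowers t)⟩

variable [IsSimpleGroup G] (hG : ¬ IsMulCommutative G)
include hG

omit [Finite G] in
lemma eq_one_of_central {z : G} (h : ∀ g, g * z = z * g) : z = 1 := by
  rcases (inferInstance : (center G).Normal).eq_bot_or_eq_top with h1 | h1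
  · exact mem_bot.1 (h1 ▸ mem_center_iff.2 h)
  · exact absurd ⟨⟨fun a b => mem_center_iff.mp (h1 ▸ mem_top b) a⟩⟩ hG

/-- Thompson's transfer lemma for a sign character of a Sylow `2`-subgroup. -/
lemma transfer {F : Type*} [Field F] (h2 : (2 : F) ≠ 0) (S : Sylow 2 G) (c : G → F)
    (hc : ∀ s ∈ S, c s = 1 ∨ c s = -1) (hm : ∀ s ∈ S, ∀ t ∈ S, c (s * t) = c s * c t)
    {s₀ : G} (hs₀ : s₀ ∈ S) (h0 : c s₀ = -1) {t : G} (ht : t * t = 1) :
    ∃ g : G, g * t * g⁻¹ ∈ S ∧ c (g * t * g⁻¹) = 1 := by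
  have hne : (-1 : F) ≠ 1 := fun h => h2 (by linear_combination -h)
  have h1 : c 1 = 1 := by
    have := hm 1 S.one_mem 1 S.one_mem
    rw [mul_one] at this
    rcases hc 1 S.one_mem with h | h
    · exact h
    · rw [h] at this; exact absurd (by linear_combination this) hne
  obtain ⟨M, hM⟩ : ∃ M : Subgroup G, ∀ s, s ∈ M ↔ s ∈ S ∧ c s = 1 := ⟨
    { carrier := {s | s ∈ S ∧ c s = 1}
      one_mem' := ⟨S.one_mem, h1⟩
      mul_mem' := fun {a b} ha hb => ⟨S.mul_mem ha.1 hb.1, by rw [hm a ha.1 b hb.1, ha.2, hb.2, mul_one]⟩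
      inv_mem' := fun {a} ha => ⟨S.inv_mem ha.1, by
        have := hm a ha.1 _ (S.inv_mem ha.1)
        rwa [mul_inv_cancel, h1, ha.2, one_mul, eq_comm] at this⟩ }, fun _ => Iff.rfl⟩
  by_contra h
  push Not at h
  have hi : M.relIndex S = 2 := by
    refine index_eq_two_iff.2 ⟨⟨s₀, hs₀⟩, fun b => ?_⟩
    have e1 : b * ⟨s₀, hs₀⟩ ∈ M.subgroupOf S ↔ c b = -1 := by
      refine ⟨fun h => ?_, fun h => mem_subgroupOf.2 ((hM _).2 ⟨S.mul_mem b.2 hs₀, ?_⟩)⟩
      · have : c (b * s₀) = 1 := ((hM _).1 (mem_subgroupOf.1 h)).2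
        rw [hm _ b.2 _ hs₀, h0] at this
        linear_combination -this
      · show c (b * s₀) = 1
        rw [hm _ b.2 _ hs₀, h0, h]; ring
    have e2 : b ∈ M.subgroupOf S ↔ c b = 1 := 
      ⟨fun h => ((hM _).1 (mem_subgroupOf.1 h)).2, fun h => mem_subgroupOf.2 ((hM _).2 ⟨b.2, h⟩)⟩
    rw [e1, e2]
    rcases hc b b.2 with h | h
    · exact Or.inr ⟨h, by rw [h]; exact hne.symm⟩
    · exact Or.inl ⟨h, by rw [h]; exact hne⟩
  have hx : ∀ g : G, g * t * g⁻¹ ∉ M := fun g hg => h g ((hM _).1 hg).1 ((hM _).1 hg).2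
  have hodd : Odd (S : Subgroup G).index :=
    Nat.not_even_iff_odd.1 fun h => S.not_dvd_index h.two_dvd
  have hK0 : ∃ K : Subgroup G, K.Normal ∧ K.index = 2 ∧ t ∉ K :=
    H87.thompson_transfer_involution hodd hi ((sq t).trans ht) hx
  obtain ⟨K, hK, hK2, -⟩ := hK0
  rcases hK.eq_bot_or_eq_top with hK' | hK'
  · rw [hK', index_bot] at hK2
    have hc : IsCyclic G := isCyclic_of_prime_card (p := 2) hK2
    obtain ⟨x, hx⟩ := hc.exists_generator
    refine hG ⟨⟨fun a b => ?_⟩⟩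
    obtain ⟨i, rfl⟩ := hx a
    obtain ⟨j, rfl⟩ := hx b
    exact zpow_mul_comm x i j
  · rw [hK', index_top] at hK2
    exact absurd hK2 (by norm_num)

/-- Glauberman's theorem with extremal conjugation. -/
lemma zstar (S : Sylow 2 G) {z : G} (hzS : z ∈ S) (hz : ∀ s ∈ S, s * z = z * s) (hzz : z * z = 1)
    (h1 : z ≠ 1) : ∃ u ∈ S, u ≠ z ∧ ∃ h : G, h * u * h⁻¹ = z ∧
      ∀ x ∈ S, x * u = u * x → h * x * h⁻¹ ∈ S := by
  have ho : orderOf z = 2 := orderOf_eq_prime (by rw [sq, hzz]) h1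
  have hn : (pPrimeCore 2 G).Normal := sSup_normal _ fun _ h => h.1
  have hO : pPrimeCore 2 G = ⊥ := by
    refine hn.eq_bot_or_eq_top.resolve_right fun h => ?_
    have h2 := H3.pPrimeCore_coprime 2 G
    rw [h, card_top] at h2
    exact absurd (Nat.Coprime.eq_one_of_dvd (Nat.Coprime.symm h2) (ho ▸ orderOf_dvd_natCard z))
      (by norm_num)
  obtain ⟨g, hg, hg'⟩ : ∃ g : G, Commute z (g * z * g⁻¹) ∧ g * z * g⁻¹ ≠ z := by
    by_contra h
    push Not at h
    exact h1 (eq_one_of_central hG (mem_center_iff.1 (H6.mem_center_of_isolated ⟨ho, h⟩ hO)))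
  obtain ⟨c, hc, hc'⟩ := exists_conj_le S hz (isPGroup_zpowers_of_sq (t := g * z * g⁻¹)
    (by rw [show g * z * g⁻¹ * (g * z * g⁻¹) = g * (z * z) * g⁻¹ by group, hzz]; group))
    fun s hs => by
      obtain ⟨k, rfl⟩ := hs
      exact (hg.symm.zpow_left k).eq
  refine ⟨_, hc' _ (mem_zpowers _), fun h => hg' ?_, ?_⟩
  · rw [← hc] at h
    nth_rw 2 [← hc] at h
    have := (MulAut.conj c).injective (show MulAut.conj c (g * (c * z * c⁻¹) * g⁻¹) =
      MulAut.conj c (c * z * c⁻¹) from h)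
    rwa [hc] at this
  · let Q : Subgroup G := ((S : Subgroup G) ⊓ centralizer {c * (g * z * g⁻¹) * c⁻¹}).map
      (MulAut.conj (c * g)⁻¹).toMonoidHom
    obtain ⟨d, hd, hd'⟩ := exists_conj_le S hz (Q := Q) ((S.2.to_inf_left).map _) (by
      rintro _ ⟨x, hx, rfl⟩
      have := mem_centralizer_singleton_iff.1 hx.2
      simp only [MulEquiv.coe_toMonoidHom, MulAut.conj_apply]
      calc _ = (c * g)⁻¹ * (x * (c * (g * z * g⁻¹) * c⁻¹)) * (c * g) := by group
        _ = _ := by rw [this]; group)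
    refine ⟨d * (c * g)⁻¹, by
      calc _ = d * z * d⁻¹ := by group
        _ = z := hd, fun x hx hxu => ?_⟩
    have := hd' _ ⟨x, ⟨hx, mem_centralizer_singleton_iff.2 hxu⟩, rfl⟩
    simp only [MulEquiv.coe_toMonoidHom, MulAut.conj_apply] at this
    convert this using 1
    group

/-- The Baer–Suzuki theorem for an involution. -/
lemma baer {t : G} (ht : t * t = 1) (h1 : t ≠ 1) : ∃ g : G, (t * (g * t * g⁻¹)) ^ 4 ≠ 1 := by
  by_contra h
  push Not at h
  obtain ⟨N, hN, hp, hle⟩ := S0199.result (p := 2) (zpowers t) (isPGroup_zpowers_of_sq ht) fun g => by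
    set s := g * t * g⁻¹ with hs
    have hss : s * s = 1 := by rw [show s * s = g * (t * t) * g⁻¹ by rw [hs]; group, ht]; group
    have hi : t * (t * s) * t⁻¹ = (t * s)⁻¹ := by
      rw [← mul_assoc, ht, one_mul, mul_inv_rev, inv_eq_of_mul_eq_one_right hss]
    have key : ∀ k : ℤ, t * (t * s) ^ k = (t * s) ^ (-k) * t := fun k => by
      rw [zpow_neg, ← inv_zpow, ← hi, conj_zpow, inv_mul_cancel_right]
    let D : Subgroup G :=
      { carrier := {x | ∃ k : ℤ, x = (t * s) ^ k ∨ x = (t * s) ^ k * t}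
        one_mem' := ⟨0, Or.inl (zpow_zero _).symm⟩
        mul_mem' := by
          rintro _ _ ⟨k, rfl | rfl⟩ ⟨l, rfl | rfl⟩
          · exact ⟨k + l, Or.inl (zpow_add _ _ _).symm⟩
          · exact ⟨k + l, Or.inr (by rw [zpow_add, mul_assoc])⟩
          · exact ⟨k + -l, Or.inr (by rw [mul_assoc, key, zpow_add, mul_assoc])⟩
          · exact ⟨k + -l, Or.inl (by
              rw [mul_assoc, ← mul_assoc t ((t * s) ^ l), key, mul_assoc, ht, mul_one, zpow_add])⟩
        inv_mem' := by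
          rintro _ ⟨k, rfl | rfl⟩
          · exact ⟨-k, Or.inl (zpow_neg _ _).symm⟩
          · exact ⟨k, Or.inr (by
              rw [mul_inv_rev, inv_eq_of_mul_eq_one_right ht, ← zpow_neg, key, neg_neg])⟩ }
    have hD : IsPGroup 2 D := by
      rintro ⟨_, k, rfl | rfl⟩
      · refine ⟨2, Subtype.ext ?_⟩
        simp only [SubgroupClass.coe_pow, OneMemClass.coe_one]
        rw [← zpow_natCast, ← zpow_mul, mul_comm k, zpow_mul, zpow_natCast]
        rw [show 2 ^ 2 = 4 by norm_num, h g, one_zpow]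
      · refine ⟨1, Subtype.ext ?_⟩
        simp only [SubgroupClass.coe_pow, OneMemClass.coe_one, pow_one]
        rw [sq, mul_assoc, ← mul_assoc t ((t * s) ^ k), key, mul_assoc, ht, mul_one, ← zpow_add,
          add_neg_cancel, zpow_zero]
    refine hD.to_le (sup_le (zpowers_le.2 ⟨0, Or.inr (by simp)⟩) ?_)
    rw [MonoidHom.map_zpowers, zpowers_le]
    refine ⟨-1, Or.inr ?_⟩
    rw [← key, zpow_one, ← mul_assoc, ht, one_mul]
    rfl
  rcases hN.eq_bot_or_eq_top with rfl | rfl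
  · exact h1 (mem_bot.1 (hle (mem_zpowers t)))
  · have hp' : IsPGroup 2 G := hp.of_equiv topEquiv
    have := hp'.center_nontrivial
    obtain ⟨z, hz⟩ := exists_ne (1 : center G)
    exact hz (Subtype.ext (eq_one_of_central hG (mem_center_iff.1 z.2)))

end Cfsg.Agent.H25.S4
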