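import Cfsg.Agent.H25.S4Defs
import Cfsg.Agent.H25.S4Grp

/-!
# Maximal subgroups of `Sp₄(q)`, `q` odd: the interface for the frame theorem and case B
-/

set_option autoImplicit false

namespace Cfsg.Agent.H25.S4

open Matrix Cfsg.Geo

universe u

/-- `t` acts as minus the reflection in the unit vector `a`. -/
def Rt {F W G : Type*} [Field F] [AddCommGroup W] [Module F W] [Group G]
    (B : LinearMap.BilinForm F W) (ρ : G →* Module.End F W) (a : W) (t : G) : Prop :=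
  B a a = 1 ∧ ∀ x, ρ t x = (2 * B a x) • a - x

/-- The frame theorem for an abstract orthogonal space of dimension five. -/
def AbsFrameStmt : Prop := ∀ (F W G : Type u) [Field F] [AddCommGroup W] [Module F W] [Group G]
  [Finite G] [IsSimpleGroup G] (B : LinearMap.BilinForm F W) (ρ : G →* Module.End F W),
  (2 : F) ≠ 0 → Module.finrank F W = 5 → (∀ x y, B x y = B y x) → (∀ x, (∀ y, B x y = 0) → x = 0) →
  ¬ IsMulCommutative G → Function.Injective ρ → (∀ g x y, B (ρ g x) (ρ g y) = B x y) →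
  (∃ a t, Rt B ρ a t) →
    (∃ (a : Fin 4 → W) (t : Fin 4 → G), (∀ i, Rt B ρ (a i) (t i)) ∧
      ∀ i j, i ≠ j → B (a i) (a j) = 0) ∧
    ∀ a t b s, Rt B ρ a t → Rt B ρ b s → IsConj t s

/-- The non-central involutions of `P`. -/
def Inv {F : Type*} [Field F] (P : Subgroup (GL I4 F)) (g : GL I4 F) : Prop :=
  g ∈ P ∧ g * g = 1 ∧ (g : M4 F) ∈ Wsp F

/-- The frame theorem in `Sp₄`. -/
def FrameStmt : Prop := ∀ (F : Type u) [Field F] [Fintype F] (H P : Subgroup (GL I4 F)), Ctx H P →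
  (∃ g, Inv P g) →
    (∃ e : Fin 4 → GL I4 F, (∀ i, Inv P (e i)) ∧ ∀ i j, i ≠ j → bil (e i : M4 F) (e j) = 0) ∧
    ∀ g g', Inv P g → Inv P g' → ∃ x ∈ P, x * g * x⁻¹ = g' ∨ x * g * x⁻¹ = -g'

/-- A field endomorphism fixing the squares of all inner products acts by signs. -/
def SignStmt : Prop := ∀ (F : Type u) [Field F] (R : Set (V5 F)), RS R → ∀ σ : F →+* F,
  (∀ a ∈ R, ∀ b ∈ R, σ ((a ⬝ᵥ b) ^ 2) = (a ⬝ᵥ b) ^ 2) →
    ∃ δ : Fin 5 → F, (∀ i, δ i = 1 ∨ δ i = -1) ∧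
      ∀ a ∈ R, ∃ ε : F, (ε = 1 ∨ ε = -1) ∧ ∀ i, σ (a i) = ε * δ i * a i

/-- Case B does not occur. -/
def BStmt : Prop := ∀ (F : Type u) [Field F] [Fintype F] (H P : Subgroup (GL I4 F)), Ctx H P →
  ∀ g, ¬ Inv P g

end Cfsg.Agent.H25.S4
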