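import Cfsg.Agent.H25.S4Defs2
import Cfsg.Agent.H27.AltBasis

/-!
# The frame theorem, I: invariant lines of `2`-groups and root elements
-/

set_option autoImplicit false

namespace Cfsg.Agent.H25.S4

open Module Subgroup

universe u

lemma exists_central_mod {T : Type*} [Group T] [Finite T] (hT : IsPGroup 2 T) (K : Subgroup T)
    [K.Normal] (hK : K ≠ ⊤) : ∃ z, z ∉ K ∧ z * z ∈ K ∧ ∀ s, s * z * (z * s)⁻¹ ∈ K := by
  have hQ := hT.to_quotient K
  have : Nontrivial (T ⧸ K) := QuotientGroup.nontrivial_iff.2 hK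
  have := hQ.center_nontrivial
  obtain ⟨n, hn, hc⟩ := (hQ.to_subgroup (center (T ⧸ K))).nontrivial_iff_card.1 this
  obtain ⟨⟨c, hc'⟩, ho⟩ := exists_prime_orderOf_dvd_card' (G := center (T ⧸ K)) 2
    (hc ▸ dvd_pow_self 2 hn.ne')
  obtain ⟨z, rfl⟩ := QuotientGroup.mk_surjective c
  refine ⟨z, fun h => ?_, ?_, fun s => ?_⟩
  · have : (⟨z, hc'⟩ : center (T ⧸ K)) = 1 := Subtype.ext ((QuotientGroup.eq_one_iff z).2 h)
    rw [this, orderOf_one] at ho
    exact absurd ho (by norm_num)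
  · have := congrArg Subtype.val (ho ▸ pow_orderOf_eq_one (⟨z, hc'⟩ : center (T ⧸ K)))
    rw [← QuotientGroup.eq_one_iff, QuotientGroup.mk_mul, ← sq]
    exact this
  · rw [← QuotientGroup.eq_one_iff, QuotientGroup.mk_mul, QuotientGroup.mk_inv, mul_inv_eq_one,
      QuotientGroup.mk_mul, QuotientGroup.mk_mul]
    exact mem_center_iff.1 hc' _

section

variable {F : Type*} [Field F]

lemma exists_nonsing {W : Type*} [AddCommGroup W] [Module F W] (h2 : (2 : F) ≠ 0)
    {B : LinearMap.BilinForm F W} (hs : ∀ x y, B x y = B y x) (U : Submodule F W) {x y : W}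
    (hx : x ∈ U) (hy : y ∈ U) (h : B x y ≠ 0) : ∃ v ∈ U, B v v ≠ 0 := by
  by_contra h0
  push Not at h0
  have := h0 _ (U.add_mem hx hy)
  simp only [map_add, LinearMap.add_apply, h0 x hx, h0 y hy, hs y x] at this
  exact mul_ne_zero h2 h (by linear_combination this)

/-- A `2`-group of isometries of an odd-dimensional space fixes a non-singular line. -/
theorem exists_line (h2 : (2 : F) ≠ 0) {T : Type*} [Group T] [Finite T] (hT : IsPGroup 2 T) (n : ℕ) :
    ∀ (W : Type u) [AddCommGroup W] [Module F W] [FiniteDimensional F W]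
      (B : LinearMap.BilinForm F W) (ρ : T →* End F W), finrank F W = n → Odd n →
      (∀ x y, B x y = B y x) → (∀ x, (∀ y, B x y = 0) → x = 0) →
      (∀ g x y, B (ρ g x) (ρ g y) = B x y) →
        ∃ v, B v v ≠ 0 ∧ ∀ s, ρ s v = v ∨ ρ s v = -v := by
  induction n using Nat.strong_induction_on with
  | _ n ih =>
  intro W _ _ _ B ρ hn hodd hs hnd hi
  obtain ⟨K, hK⟩ : ∃ K : Subgroup T, ∀ s, s ∈ K ↔ ρ s = 1 ∨ ρ s = -1 := ⟨
    { carrier := {s | ρ s = 1 ∨ ρ s = -1}
      one_mem' := Or.inl (map_one ρ)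
      mul_mem' := by
        rintro a b (ha | ha) (hb | hb) <;> simp [ha, hb]
      inv_mem' := by
        intro a ha
        have e : ρ a * ρ a⁻¹ = 1 := by rw [← map_mul, mul_inv_cancel, map_one]
        rcases ha with ha | ha
        · left; rwa [ha, one_mul] at e
        · right; rwa [ha, neg_one_mul, neg_eq_iff_eq_neg] at e }, fun _ => Iff.rfl⟩
  have e0 : ∀ g, ρ g * ρ g⁻¹ = 1 := fun g => by rw [← map_mul, mul_inv_cancel, map_one]
  have : K.Normal := ⟨fun a ha g => by
    rw [hK] at ha ⊢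
    rcases ha with ha | ha <;> simp [ha, e0]⟩
  by_cases hKt : K = ⊤
  · have : Nontrivial W := Module.nontrivial_of_finrank_pos (R := F) (hn ▸ hodd.pos)
    obtain ⟨x, hx⟩ := exists_ne (0 : W)
    obtain ⟨y, hy⟩ : ∃ y, B x y ≠ 0 := by
      by_contra h; push Not at h; exact hx (hnd x h)
    obtain ⟨v, -, hv⟩ := exists_nonsing h2 hs ⊤ trivial trivial hy
    refine ⟨v, hv, fun s => ?_⟩
    rcases (hK s).1 (hKt ▸ mem_top s) with h | h <;> simp [h]
  obtain ⟨z, hz, hzz, hc⟩ := exists_central_mod hT K hKt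
  rw [hK, map_mul] at hzz
  have hdet : ∀ g, LinearMap.det (ρ g) ≠ 0 := fun g h => by
    have := congrArg LinearMap.det (e0 g)
    rw [map_mul, h, zero_mul, map_one] at this
    exact zero_ne_one this
  have hc' : ∀ s, ρ s * ρ z = ρ z * ρ s := fun s => by
    have e : ρ s * ρ z = ρ (s * z * (z * s)⁻¹) * (ρ z * ρ s) := by
      rw [← map_mul, ← map_mul, ← map_mul, inv_mul_cancel_right]
    rcases (hK _).1 (hc s) with h | h
    · rwa [h, one_mul] at e
    · rw [h, neg_one_mul, ← neg_one_smul F] at e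
      have := congrArg LinearMap.det e
      rw [LinearMap.det_smul, map_mul, map_mul, hn, hodd.neg_one_pow] at this
      exact absurd (by linear_combination this) (mul_ne_zero h2 (mul_ne_zero (hdet s) (hdet z)))
  rcases hzz with hzz | hzz
  swap
  · have hz2 : ∀ x, ρ z (ρ z x) = -x := fun x => LinearMap.congr_fun hzz x
    have ha : LinearMap.BilinForm.IsAlt (B.compl₁₂ (ρ z) LinearMap.id) := fun x => by
      have := hi z (ρ z x) x
      rw [hz2, map_neg, LinearMap.neg_apply, hs x] at this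
      exact (mul_eq_zero.1 (show 2 * B (ρ z x) x = 0 by linear_combination -this)).resolve_left h2
    have h0 : ∀ x, (∀ y, B (ρ z x) y = 0) → x = 0 := fun x hx => by
      have := hz2 x
      rwa [hnd _ hx, map_zero, eq_comm, neg_eq_zero] at this
    have := H27.even_finrank_of_alt (B := B.compl₁₂ (ρ z) LinearMap.id)
      ⟨h0, fun y hy => h0 y fun x => by
        have := ha.neg_eq x y
        rw [hy x, neg_zero] at this
        exact this.symm⟩ ha
    exact absurd hodd (hn ▸ Nat.not_odd_iff_even.2 this)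
  have hz2 : ∀ x, ρ z (ρ z x) = x := fun x => LinearMap.congr_fun hzz x
  have key : ∀ ε : F, ε = 1 ∨ ε = -1 → Odd (finrank F (End.eigenspace (ρ z) ε)) →
      ∃ v, B v v ≠ 0 ∧ ∀ s, ρ s v = v ∨ ρ s v = -v := fun ε hε ho => by
    have hεε : ε * ε = 1 := by rcases hε with rfl | rfl <;> simp
    set U := End.eigenspace (ρ z) ε
    have hU : ∀ x, x ∈ U ↔ ρ z x = ε • x := fun x => End.mem_eigenspace_iff
    have hinv : ∀ s, ∀ x ∈ U, ρ s x ∈ U := fun s x hx => by
      rw [hU] at hx ⊢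
      rw [← End.mul_apply, ← hc', End.mul_apply, hx, map_smul]
    have hlt : finrank F U < n := hn ▸ Submodule.finrank_lt fun h => hz ((hK z).2 (by
      rcases hε with rfl | rfl
      · exact Or.inl (LinearMap.ext fun x => by simpa using (hU x).1 (h ▸ trivial))
      · exact Or.inr (LinearMap.ext fun x => by simpa using (hU x).1 (h ▸ trivial))))
    let ρ' : T →* End F U :=
      { toFun := fun s => (ρ s).restrict (hinv s)
        map_one' := by ext x; simp
        map_mul' := fun a b => by ext x; simp }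
    obtain ⟨v, hv, hv'⟩ := ih _ hlt U (B.restrict U) ρ' rfl ho (fun x y => hs x y)
      (fun x hx => Subtype.ext (hnd x fun y => by
        have h1 := hx ⟨y + ε • ρ z y, (hU _).2 (by
          rw [map_add, map_smul, hz2, smul_add, smul_smul, hεε, one_smul, add_comm])⟩
        have h3 := hi z x (ρ z y)
        rw [hz2, (hU _).1 x.2, map_smul, LinearMap.smul_apply, smul_eq_mul] at h3
        simp only [LinearMap.BilinForm.restrict_apply, LinearMap.domRestrict_apply, map_add,
          map_smul, smul_eq_mul] at h1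
        refine (mul_eq_zero.1 (show 2 * B x y = 0 from ?_)).resolve_left h2
        linear_combination h1 + ε * h3 - B x y * hεε)) fun g x y => hi g x y
    exact ⟨v, hv, fun s => (hv' s).imp (congrArg Subtype.val) (congrArg Subtype.val)⟩
  have hcp : IsCompl (End.eigenspace (ρ z) 1) (End.eigenspace (ρ z) (-1)) := by
    refine ⟨Submodule.disjoint_def.2 fun x h1 h3 => ?_, codisjoint_iff.2 (eq_top_iff.2 fun x _ => ?_)⟩
    · rw [End.mem_eigenspace_iff] at h1 h3
      refine (smul_eq_zero.1 (show (2 : F) • x = 0 from ?_)).resolve_left h2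
      rw [h1] at h3
      linear_combination (norm := module) h3
    · refine Submodule.mem_sup.2 ⟨(2 : F)⁻¹ • (x + ρ z x), Submodule.smul_mem _ _ ?_,
        (2 : F)⁻¹ • (x - ρ z x), Submodule.smul_mem _ _ ?_, ?_⟩
      · rw [End.mem_eigenspace_iff, map_add, hz2, one_smul, add_comm]
      · rw [End.mem_eigenspace_iff, map_sub, hz2, neg_one_smul, neg_sub]
      · rw [← smul_add, show x + ρ z x + (x - ρ z x) = (2 : F) • x by module, inv_smul_smul₀ h2]
  have := Submodule.finrank_add_eq_of_isCompl hcp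
  rw [hn] at this
  rcases Nat.even_or_odd (finrank F (End.eigenspace (ρ z) 1)) with h | h
  · exact key _ (Or.inr rfl) ((Nat.odd_add'.1 (this ▸ hodd)).2 h)
  · exact key _ (Or.inl rfl) h

end

/-- An orthogonal space of dimension five with a faithful action by isometries. -/
structure OS {F W G : Type*} [Field F] [AddCommGroup W] [Module F W] [Group G]
    (B : LinearMap.BilinForm F W) (ρ : G →* End F W) : Prop where
  two : (2 : F) ≠ 0
  rank : finrank F W = 5
  symm : ∀ x y, B x y = B y x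
  nd : ∀ x, (∀ y, B x y = 0) → x = 0
  inj : Function.Injective ρ
  iso : ∀ g x y, B (ρ g x) (ρ g y) = B x y

section

variable {F W G : Type*} [Field F] [AddCommGroup W] [Module F W] [Group G]
  {B : LinearMap.BilinForm F W} {ρ : G →* End F W}

lemma rho_mul (g h : G) (x : W) : ρ (g * h) x = ρ g (ρ h x) := by rw [map_mul, End.mul_apply]

lemma rho_inv (g : G) (x : W) : ρ g⁻¹ (ρ g x) = x := by
  rw [← rho_mul, inv_mul_cancel, map_one, End.one_apply]

lemma rho_inv' (g : G) (x : W) : ρ g (ρ g⁻¹ x) = x := by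
  rw [← rho_mul, mul_inv_cancel, map_one, End.one_apply]

lemma rho_conj (g t : G) (x : W) : ρ (g * t * g⁻¹) (ρ g x) = ρ g (ρ t x) := by
  rw [rho_mul, rho_mul, rho_inv]

lemma Rt.orth {a x : W} {t : G} (h : Rt B ρ a t) (hx : B a x = 0) : ρ t x = -x := by
  rw [h.2, hx, mul_zero, zero_smul, zero_sub]

lemma Rt.self {a : W} {t : G} (h : Rt B ρ a t) : ρ t a = a := by
  rw [h.2, h.1]; module

lemma Rt.neg {a : W} {t : G} (h : Rt B ρ a t) : Rt B ρ (-a) t :=
  ⟨by simpa using h.1, fun x => by rw [h.2]; simp⟩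

lemma Rt.ne_zero {a : W} {t : G} (h : Rt B ρ a t) : a ≠ 0 := fun e => by
  have := h.1
  rw [e, map_zero] at this
  exact zero_ne_one this

lemma pm_of_smul {a b : W} {c : F} (ha : B a a = 1) (hb : B b b = 1) (e : b = c • a) :
    b = a ∨ b = -a := by
  rw [e, map_smul, map_smul, LinearMap.smul_apply, ha, smul_eq_mul, smul_eq_mul, mul_one] at hb
  rcases mul_self_eq_one_iff.1 hb with h | h <;> simp [e, h]

namespace OS

variable (h : OS B ρ)
include h

lemma iso' (g : G) (x y : W) : B (ρ g x) y = B x (ρ g⁻¹ y) := by rw [← h.iso g x, rho_inv']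

lemma eq_zero_of_neg {x : W} (hx : -x = x) : x = 0 :=
  (smul_eq_zero.1 (show (2 : F) • x = 0 by linear_combination (norm := module) -hx)).resolve_left
    h.two

/-- Eigenvectors for `1` and `-1` are orthogonal. -/
lemma orth {g : G} {x y : W} (hx : ρ g x = x) (hy : ρ g y = -y) : B x y = 0 := by
  have := h.iso g x y
  rw [hx, hy, map_neg] at this
  exact (mul_eq_zero.1 (show 2 * B x y = 0 by linear_combination -this)).resolve_left h.two

lemma conj {a : W} {t : G} (ha : Rt B ρ a t) (g : G) : Rt B ρ (ρ g a) (g * t * g⁻¹) :=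
  ⟨by rw [h.iso, ha.1], fun x => by
    rw [rho_mul, rho_mul, ha.2, map_sub, map_smul, rho_inv', h.iso']⟩

lemma sq {a : W} {t : G} (ha : Rt B ρ a t) : t * t = 1 := h.inj (LinearMap.ext fun x => by
  rw [rho_mul, ha.2 x, map_sub, map_smul, ha.self, ha.2, map_one, End.one_apply]; module)

lemma uniq {a : W} {t s : G} (ha : Rt B ρ a t) (hb : Rt B ρ a s) : t = s :=
  h.inj (LinearMap.ext fun x => by rw [ha.2, hb.2])

lemma fix {a v : W} {t : G} (ha : Rt B ρ a t) (hv : ρ t v = v) : v = B a v • a := by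
  rw [ha.2] at hv
  refine smul_right_injective W h.two ?_
  linear_combination (norm := module) -hv

lemma pm {a b : W} {t : G} (ha : Rt B ρ a t) (hb : Rt B ρ b t) : b = a ∨ b = -a :=
  pm_of_smul ha.1 hb.1 (h.fix ha hb.self)

lemma comm {a : W} {t s : G} (ha : Rt B ρ a t) (hs : s * t = t * s) : ρ s a = a ∨ ρ s a = -a :=
  h.pm ha (by have := h.conj ha s; rwa [hs, mul_inv_cancel_right] at this)

lemma comm' {a : W} {t s : G} (ha : Rt B ρ a t) (hs : ρ s a = a ∨ ρ s a = -a) : s * t = t * s := by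
  have := h.conj ha s
  rw [← mul_inv_eq_iff_eq_mul]
  rcases hs with e | e <;> rw [e] at this
  exacts [h.uniq this ha, h.uniq this ha.neg]

lemma eq_of_fix {a b v : W} {t s : G} (ha : Rt B ρ a t) (hb : Rt B ρ b s) (hv : v ≠ 0)
    (h1 : ρ t v = v) (h2 : ρ s v = v) : t = s := by
  have e1 := h.fix ha h1
  have e2 := h.fix hb h2
  have h0 : B b v ≠ 0 := fun e => hv (by rw [e2, e, zero_smul])
  rcases pm_of_smul ha.1 hb.1 (c := (B b v)⁻¹ * B a v)
    (by rw [mul_smul, ← e1, eq_inv_smul_iff₀ h0, ← e2]) with e | e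
  · exact h.uniq ha (e ▸ hb)
  · exact h.uniq ha.neg (e ▸ hb)

lemma fin : FiniteDimensional F W := Module.finite_of_finrank_pos (by rw [h.rank]; norm_num)

omit [Group G] h in
lemma expand {k : ℕ} (v : Fin k → W) (h0 : ∀ i, B (v i) (v i) ≠ 0)
    (h1 : ∀ i j, i ≠ j → B (v i) (v j) = 0) (x : W) (i : Fin k) :
    B (v i) (x - ∑ j, (B (v j) x / B (v j) (v j)) • v j) = 0 := by
  rw [map_sub, map_sum, Finset.sum_eq_single i (fun j _ hj => by
    rw [map_smul, h1 i j hj.symm, smul_zero]) (by simp), map_smul, smul_eq_mul,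
    div_mul_cancel₀ _ (h0 i), sub_self]

/-- Fewer than five orthogonal non-singular vectors can be extended. -/
lemma extend {k : ℕ} (hk : k < 5) (v : Fin k → W) (h0 : ∀ i, B (v i) (v i) ≠ 0)
    (h1 : ∀ i j, i ≠ j → B (v i) (v j) = 0) : ∃ w, B w w ≠ 0 ∧ ∀ i, B (v i) w = 0 := by
  have := h.fin
  let U : Submodule F W := ⨅ i, LinearMap.ker (B (v i))
  have hU : ∀ x, x ∈ U ↔ ∀ i, B (v i) x = 0 := fun x => by simp [U]
  obtain ⟨x, hx⟩ : ∃ x, x ∉ Submodule.span F (Set.range v) := by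
    by_contra hc
    push Not at hc
    have h3 := finrank_range_le_card (R := F) v
    rw [Set.finrank, (Submodule.eq_top_iff').2 hc, finrank_top, h.rank, Fintype.card_fin] at h3
    omega
  set u := x - ∑ j, (B (v j) x / B (v j) (v j)) • v j with hu
  have hu1 : u ∈ U := (hU u).2 (expand v h0 h1 x)
  obtain ⟨y, hy⟩ : ∃ y, B u y ≠ 0 := by
    by_contra hc
    push Not at hc
    refine hx ?_
    rw [sub_eq_zero.1 (hu.symm.trans (h.nd u hc))]
    exact Submodule.sum_mem _ fun j _ => Submodule.smul_mem _ _ (Submodule.subset_span ⟨j, rfl⟩)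
  obtain ⟨w, hw, hw'⟩ := exists_nonsing h.two h.symm U hu1 ((hU _).2 (expand v h0 h1 y)) (by
    rw [map_sub, map_sum, Finset.sum_eq_zero fun j _ => by
      rw [map_smul, h.symm u, (hU u).1 hu1, smul_zero], sub_zero]
    exact hy)
  exact ⟨w, hw', (hU w).1 hw⟩

/-- Five orthogonal non-singular vectors span. -/
lemma five (v : Fin 5 → W) (h0 : ∀ i, B (v i) (v i) ≠ 0) (h1 : ∀ i j, i ≠ j → B (v i) (v j) = 0)
    {x : W} (hx : ∀ i, B (v i) x = 0) : x = 0 := by
  have := h.fin
  have hli : LinearIndependent F v :=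
    LinearMap.BilinForm.linearIndependent_of_iIsOrtho (B := B) (fun i j hij => h1 i j hij) h0
  have ht := hli.span_eq_top_of_card_eq_finrank' (by rw [h.rank, Fintype.card_fin])
  refine h.nd x fun y => ?_
  obtain ⟨c, rfl⟩ := (Submodule.mem_span_range_iff_exists_fun F).1 (ht ▸ Submodule.mem_top (x := y))
  rw [map_sum]
  exact Finset.sum_eq_zero fun i _ => by rw [map_smul, h.symm, hx, smul_zero]

lemma five' {a b c d e x : W} (ha : B a a ≠ 0) (hb : B b b ≠ 0) (hc : B c c ≠ 0) (hd : B d d ≠ 0)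
    (he : B e e ≠ 0) (ab : B a b = 0) (ac : B a c = 0) (ad : B a d = 0) (ae : B a e = 0)
    (bc : B b c = 0) (bd : B b d = 0) (be : B b e = 0) (cd : B c d = 0) (ce : B c e = 0)
    (de : B d e = 0) (ax : B a x = 0) (bx : B b x = 0) (cx : B c x = 0) (dx : B d x = 0)
    (ex : B e x = 0) : x = 0 := by
  refine h.five ![a, b, c, d, e] (fun i => ?_) (fun i j hij => ?_) fun i => ?_
  · fin_cases i <;> assumption
  · fin_cases i <;> fin_cases j <;> first | exact absurd rfl hij | assumption |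
      (rw [h.symm]; assumption)
  · fin_cases i <;> assumption

lemma ne_one {a : W} {t : G} (ha : Rt B ρ a t) : t ≠ 1 := fun e => by
  obtain ⟨w, hw, hw'⟩ := h.extend (by norm_num) ![a] (fun i => by fin_cases i; simp [ha.1])
    fun i j hij => absurd (Subsingleton.elim i j) hij
  have := ha.orth (hw' 0)
  rw [e, map_one, End.one_apply] at this
  rw [h.eq_zero_of_neg this.symm, map_zero] at hw
  exact hw rfl

/-- Two root elements generating a `2`-group. -/
lemma dihedral (S : Subgroup G) {e : W} {s : G} (he : Rt B ρ e s) (hs : s ∈ S) (n : ℕ) :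
    ∀ {a : W} {t : G}, Rt B ρ a t → t ∈ S → (t * s) ^ 2 ^ n = 1 → B a e ≠ 0 → a ≠ e → a ≠ -e →
      ∃ (x y : F) (r : G), x ≠ 0 ∧ Rt B ρ (x • a + y • e) r ∧ r ∈ S ∧ B e (x • a + y • e) = 0 := by
  induction n with
  | zero =>
    intro a t ha _ hn _ h1 h2
    rw [pow_zero, pow_one, mul_eq_one_iff_eq_inv, inv_eq_of_mul_eq_one_right (h.sq he)] at hn
    exact absurd (h.pm he (hn ▸ ha)) (not_or.2 ⟨h1, h2⟩)
  | succ n ih =>
    intro a t ha ht hn h0 h1 h2
    have hc := h.conj he t
    have hm : t * s * t⁻¹ ∈ S := S.mul_mem (S.mul_mem ht hs) (S.inv_mem ht)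
    have e1 : ρ t e = (2 * B a e) • a + (-1 : F) • e := by rw [ha.2]; module
    by_cases h3 : B (ρ t e) e = 0
    · exact ⟨_, _, _, mul_ne_zero h.two h0, e1 ▸ hc, hm, by rw [← e1, h.symm, h3]⟩
    obtain ⟨x, y, r, hx, hr, hr', h4⟩ := ih hc hm (by
      rw [inv_eq_of_mul_eq_one_right (h.sq ha), mul_assoc (t * s), ← _root_.sq, ← pow_mul,
        ← pow_succ', hn]) h3 (fun e2 => by
        rcases pm_of_smul ha.1 he.1 (h.fix ha e2) with e3 | e3
        exacts [h1 e3.symm, h2 (by rw [e3, neg_neg])]) fun e2 => h0 (h.orth ha.self e2)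
    have e2 : x • ρ t e + y • e = (x * (2 * B a e)) • a + (y - x) • e := by rw [e1]; module
    exact ⟨_, _, r, mul_ne_zero hx (mul_ne_zero h.two h0), e2 ▸ hr, hr', e2 ▸ h4⟩

end OS

open Classical in
/-- The sign of `s` on an eigenvector. -/
noncomputable def sg (ρ : G →* End F W) (v : W) (s : G) : F := if ρ s v = v then 1 else -1

lemma sg_pm (v : W) (s : G) : sg ρ v s = 1 ∨ sg ρ v s = -1 := by
  unfold sg; split_ifs <;> simp

lemma sg_smul {v : W} {s : G} (h : ρ s v = v ∨ ρ s v = -v) : ρ s v = sg ρ v s • v := by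
  unfold sg
  split_ifs with h1
  · rw [h1, one_smul]
  · rw [h.resolve_left h1, neg_one_smul]

lemma sg_eq {v : W} (hv : v ≠ 0) {s : G} {c : F} (h : ρ s v = v ∨ ρ s v = -v)
    (hc : ρ s v = c • v) : sg ρ v s = c := smul_left_injective F hv ((sg_smul h).symm.trans hc)

lemma sg_mul {S : Subgroup G} {v : W} (hv : v ≠ 0) (h : ∀ s ∈ S, ρ s v = v ∨ ρ s v = -v) :
    ∀ s ∈ S, ∀ t ∈ S, sg ρ v (s * t) = sg ρ v s * sg ρ v t := fun s hs t ht =>
  sg_eq hv (h _ (S.mul_mem hs ht)) (by
    rw [rho_mul, sg_smul (h t ht), map_smul, sg_smul (h s hs), smul_smul, mul_comm])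

variable [Finite G] [IsSimpleGroup G]

lemma transfer_vec (hG : ¬ IsMulCommutative G) (h2 : (2 : F) ≠ 0) (S : Sylow 2 G) {v : W}
    (hv : v ≠ 0) (h : ∀ s ∈ S, ρ s v = v ∨ ρ s v = -v) {t : G} (ht : t * t = 1) :
    ∃ g : G, g * t * g⁻¹ ∈ S ∧ ρ (g * t * g⁻¹) v = v := by
  by_cases h0 : ∃ s ∈ S, ρ s v = -v
  · obtain ⟨s, hs, h0⟩ := h0
    obtain ⟨g, hg, h1⟩ := transfer hG h2 S (sg ρ v) (fun s _ => sg_pm v s) (sg_mul hv h) hs
      (sg_eq hv (h s hs) (by rw [h0, neg_one_smul])) ht
    exact ⟨g, hg, by rw [sg_smul (h _ hg), h1, one_smul]⟩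
  · obtain ⟨g, hg⟩ := exists_conj_mem S ht
    exact ⟨g, hg, (h _ hg).resolve_right fun e => h0 ⟨_, hg, e⟩⟩

end

end Cfsg.Agent.H25.S4
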