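import Cfsg.Agent.H25.S4Fr1

/-!
# The frame theorem, II: isotropic coordinates on a plane
-/

set_option autoImplicit false

namespace Cfsg.Agent.H25.S4

open Module Subgroup

lemma exists_pow_sq_eq_neg {K : Type*} [Field K] (k : ℕ) :
    ∀ χ : K, χ ^ 2 ^ k = 1 → χ ^ 2 ≠ 1 → ∃ j, (χ ^ j) ^ 2 = -1 := by
  induction k with
  | zero => intro χ h h1; rw [pow_zero, pow_one] at h; simp [h] at h1
  | succ k ih =>
    intro χ h h1
    by_cases h2 : (χ ^ 2) ^ 2 = 1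
    · exact ⟨1, by rw [pow_one]; exact (sq_eq_one_iff.1 h2).resolve_left h1⟩
    · obtain ⟨j, hj⟩ := ih (χ ^ 2) (by rw [← pow_mul, ← pow_succ', h]) h2
      exact ⟨2 * j, by rw [pow_mul, hj]⟩

lemma exists_fourth {Γ : Type*} [CommGroup Γ] [IsCyclic Γ] {α β : Γ} (hα : ∀ x, α ≠ x ^ 2)
    (hβ : ∀ x, β ≠ x ^ 2) : ∃ x, α = x ^ 4 * β ∨ α = x ^ 4 * β⁻¹ := by
  obtain ⟨g, hg⟩ := IsCyclic.exists_generator (α := Γ)
  obtain ⟨j, rfl⟩ := hg α
  obtain ⟨k, rfl⟩ := hg β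
  have key : ∀ i : ℤ, (∀ x, g ^ i ≠ x ^ 2) → i % 2 = 1 := fun i hi => by
    by_contra h
    refine hi (g ^ (i / 2)) ?_
    rw [← zpow_natCast, ← zpow_mul]
    congr 1
    omega
  have hj := key j hα
  have hk := key k hβ
  by_cases h : (j - k) % 4 = 0
  · refine ⟨g ^ ((j - k) / 4), Or.inl ?_⟩
    simp only
    rw [← zpow_natCast, ← zpow_mul, ← zpow_add]
    congr 1
    omega
  · refine ⟨g ^ ((j + k) / 4), Or.inr ?_⟩
    simp only
    rw [← zpow_natCast, ← zpow_mul, ← zpow_neg, ← zpow_add]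
    congr 1
    omega

variable {F W G K : Type*} [Field F] [AddCommGroup W] [Module F W] [Group G] [Field K] [Algebra F K]
  {B : LinearMap.BilinForm F W} {ρ : G →* End F W}

/-- A plane with isotropic coordinates. -/
structure Pl (F W K : Type*) [Field F] [AddCommGroup W] [Module F W] [Field K] [Algebra F K] where
  U : Submodule F W
  z : W →ₗ[F] K
  z' : W →ₗ[F] K
  ext0 : ∀ v ∈ U, z v = 0 → z' v = 0 → v = 0

namespace Pl

variable (P : Pl F W K) (ρ)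

/-- `s` acts as a rotation. -/
def Rot (s : G) (χ : K) : Prop :=
  χ ≠ 0 ∧ ∀ v ∈ P.U, ρ s v ∈ P.U ∧ P.z (ρ s v) = χ * P.z v ∧ P.z' (ρ s v) = χ⁻¹ * P.z' v

/-- `s` acts as a reflection. -/
def Ref (s : G) (χ : K) : Prop :=
  χ ≠ 0 ∧ ∀ v ∈ P.U, ρ s v ∈ P.U ∧ P.z (ρ s v) = χ * P.z' v ∧ P.z' (ρ s v) = χ⁻¹ * P.z v

variable {P ρ} {s t : G} {χ ψ : K}

lemma ext' {v w : W} (hv : v ∈ P.U) (hw : w ∈ P.U) (h : P.z v = P.z w) (h' : P.z' v = P.z' w) :
    v = w := sub_eq_zero.1 (P.ext0 _ (P.U.sub_mem hv hw) (by rw [map_sub, h, sub_self])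
      (by rw [map_sub, h', sub_self]))

lemma Rot.mul (h : P.Rot ρ s χ) (h' : P.Rot ρ t ψ) : P.Rot ρ (s * t) (χ * ψ) :=
  ⟨mul_ne_zero h.1 h'.1, fun v hv => by
    obtain ⟨h1, h2, h3⟩ := h'.2 v hv
    obtain ⟨h4, h5, h6⟩ := h.2 _ h1
    rw [rho_mul, h5, h6, h2, h3, mul_inv]
    exact ⟨h4, by ring, by ring⟩⟩

lemma Rot.mul_ref (h : P.Rot ρ s χ) (h' : P.Ref ρ t ψ) : P.Ref ρ (s * t) (χ * ψ) :=
  ⟨mul_ne_zero h.1 h'.1, fun v hv => by
    obtain ⟨h1, h2, h3⟩ := h'.2 v hv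
    obtain ⟨h4, h5, h6⟩ := h.2 _ h1
    rw [rho_mul, h5, h6, h2, h3, mul_inv]
    exact ⟨h4, by ring, by ring⟩⟩

lemma Ref.mul_rot (h : P.Ref ρ s χ) (h' : P.Rot ρ t ψ) : P.Ref ρ (s * t) (χ * ψ⁻¹) :=
  ⟨mul_ne_zero h.1 (inv_ne_zero h'.1), fun v hv => by
    obtain ⟨h1, h2, h3⟩ := h'.2 v hv
    obtain ⟨h4, h5, h6⟩ := h.2 _ h1
    rw [rho_mul, h5, h6, h2, h3, mul_inv, inv_inv]
    exact ⟨h4, by ring, by ring⟩⟩

lemma Ref.mul (h : P.Ref ρ s χ) (h' : P.Ref ρ t ψ) : P.Rot ρ (s * t) (χ * ψ⁻¹) :=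
  ⟨mul_ne_zero h.1 (inv_ne_zero h'.1), fun v hv => by
    obtain ⟨h1, h2, h3⟩ := h'.2 v hv
    obtain ⟨h4, h5, h6⟩ := h.2 _ h1
    rw [rho_mul, h5, h6, h2, h3, mul_inv, inv_inv]
    exact ⟨h4, by ring, by ring⟩⟩

lemma Rot.one : P.Rot ρ (1 : G) 1 := ⟨one_ne_zero, fun v hv => by simpa using hv⟩

lemma Rot.pow (h : P.Rot ρ s χ) (j : ℕ) : P.Rot ρ (s ^ j) (χ ^ j) := by
  induction j with
  | zero => simpa using Rot.one
  | succ j ih => rw [pow_succ, pow_succ]; exact ih.mul h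

lemma Rot.inv (h : P.Rot ρ s χ) (hs : ∀ v ∈ P.U, ρ s⁻¹ v ∈ P.U) : P.Rot ρ s⁻¹ χ⁻¹ :=
  ⟨inv_ne_zero h.1, fun v hv => by
    obtain ⟨-, h2, h3⟩ := h.2 _ (hs v hv)
    rw [rho_inv'] at h2 h3
    rw [h2, h3, inv_inv, inv_mul_cancel_left₀ h.1, mul_inv_cancel_left₀ h.1]
    exact ⟨hs v hv, rfl, rfl⟩⟩

lemma Rot.neg (h : ∀ v ∈ P.U, ρ s v = -v) : P.Rot ρ s (-1) :=
  ⟨by simp, fun v hv => by simpa [h v hv] using hv⟩

lemma Rot.eq_one (h : P.Rot ρ s 1) {v : W} (hv : v ∈ P.U) : ρ s v = v :=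
  ext' (h.2 v hv).1 hv (by simpa using (h.2 v hv).2.1) (by simpa using (h.2 v hv).2.2)

lemma Rot.eq_neg (h : P.Rot ρ s (-1)) {v : W} (hv : v ∈ P.U) : ρ s v = -v :=
  ext' (h.2 v hv).1 (P.U.neg_mem hv) (by simpa using (h.2 v hv).2.1)
    (by simpa using (h.2 v hv).2.2)

lemma Rot.pm (h : P.Rot ρ s χ) (hχ : χ ^ 2 = 1) :
    (∀ v ∈ P.U, ρ s v = v) ∨ ∀ v ∈ P.U, ρ s v = -v := by
  rcases sq_eq_one_iff.1 hχ with rfl | rfl
  exacts [Or.inl fun _ => h.eq_one, Or.inr fun _ => h.eq_neg]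

lemma Rot.of_one {p : W} (hp : p ∈ P.U) (h1 : P.z p = 1) (h : P.Rot ρ (1 : G) χ) : χ = 1 := by
  simpa [h1] using (h.2 p hp).2.1.symm

lemma Ref.eq (h : P.Ref ρ s χ) (h' : P.Ref ρ t χ) {v : W} (hv : v ∈ P.U) : ρ s v = ρ t v :=
  ext' (h.2 v hv).1 (h'.2 v hv).1 (by rw [(h.2 v hv).2.1, (h'.2 v hv).2.1])
    (by rw [(h.2 v hv).2.2, (h'.2 v hv).2.2])

lemma Ref.eq_neg (h : P.Ref ρ s (-χ)) (h' : P.Ref ρ t χ) {v : W} (hv : v ∈ P.U) :
    ρ s v = -ρ t v :=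
  ext' (h.2 v hv).1 (P.U.neg_mem (h'.2 v hv).1)
    (by rw [map_neg, (h.2 v hv).2.1, (h'.2 v hv).2.1, neg_mul])
    (by rw [map_neg, (h.2 v hv).2.2, (h'.2 v hv).2.2, inv_neg, neg_mul])

end Pl

/-- Isotropic coordinates exist over an algebraically closed extension. -/
lemma OS.exists_pl [IsAlgClosed K] (h : OS B ρ) {p q : W} (hp : B p p ≠ 0) (hq : B q q ≠ 0)
    (hpq : B p q = 0) : ∃ P : Pl F W K, P.U = Submodule.span F {p, q} ∧ P.z p = 1 ∧ P.z' p = 1 ∧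
      P.z' q = -P.z q ∧
      (∀ v ∈ P.U, algebraMap F K (B v v) = algebraMap F K (B p p) * (P.z v * P.z' v)) ∧
      ∀ g, ρ g p ∈ P.U → ρ g q ∈ P.U → ∃ χ, P.Rot ρ g χ ∨ P.Ref ρ g χ := by
  obtain ⟨τ, hτ⟩ := IsAlgClosed.exists_pow_nat_eq (algebraMap F K (-(B q q / B p p))) two_pos
  have hi := (algebraMap F K).injective
  have hτ0 : τ ≠ 0 := fun e => by
    rw [e, zero_pow two_ne_zero, eq_comm, map_eq_zero, neg_eq_zero] at hτ
    exact div_ne_zero hq hp hτ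
  have h2 : (2 : K) ≠ 0 := fun e => h.two (hi (by rw [map_ofNat, e, map_zero]))
  have hp' : algebraMap F K (B p p) ≠ 0 := by simpa using hp
  have hτ' : algebraMap F K (B q q) = -(τ ^ 2 * algebraMap F K (B p p)) := by
    rw [hτ, map_neg, map_div₀, neg_mul, neg_neg, div_mul_cancel₀ _ hp']
  obtain ⟨Z, hZ⟩ : ∃ Z : K → W →ₗ[F] K, ∀ σ x y,
      Z σ (x • p + y • q) = algebraMap F K x + σ * algebraMap F K y :=
    ⟨fun σ => (B p).smulRight (algebraMap F K (B p p)⁻¹) +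
      (B q).smulRight (σ * algebraMap F K (B q q)⁻¹), fun σ x y => by
        have hq' : algebraMap F K (B q q) ≠ 0 := by simpa using hq
        simp only [LinearMap.add_apply, LinearMap.smulRight_apply, map_add, map_smul, hpq,
          h.symm q p, smul_eq_mul, mul_zero, add_zero, zero_add, Algebra.smul_def, map_mul,
          map_inv₀, Algebra.algebraMap_self, RingHom.id_apply, map_zero, zero_mul]
        field_simp⟩
  have hZp : ∀ σ, Z σ p = 1 := fun σ => by simpa using hZ σ 1 0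
  have hZq : ∀ σ, Z σ q = σ := fun σ => by simpa using hZ σ 0 1
  have hB : ∀ x y x' y' : F, B (x • p + y • q) (x' • p + y' • q) =
      x * x' * B p p + y * y' * B q q := fun x y x' y' => by
    simp only [map_add, map_smul, LinearMap.add_apply, LinearMap.smul_apply, hpq, h.symm q p,
      smul_eq_mul]
    ring
  refine ⟨⟨Submodule.span F {p, q}, Z τ, Z (-τ), fun v hv h3 h4 => ?_⟩, rfl, hZp _, hZp _,
    by simp only [hZq], fun v hv => ?_, fun g hgp hgq => ?_⟩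
  · obtain ⟨x, y, rfl⟩ := Submodule.mem_span_pair.1 hv
    rw [hZ] at h3 h4
    have hx : algebraMap F K x = 0 := (mul_eq_zero.1 (show 2 * algebraMap F K x = 0 by
      linear_combination h3 + h4)).resolve_left h2
    have hy : algebraMap F K y = 0 := (mul_eq_zero.1 (show τ * algebraMap F K y = 0 by
      linear_combination h3 - hx)).resolve_left hτ0
    rw [map_eq_zero] at hx hy
    simp [hx, hy]
  · obtain ⟨x, y, rfl⟩ := Submodule.mem_span_pair.1 hv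
    simp only [hZ, hB]
    simp only [map_add, map_mul, hτ']
    ring
  obtain ⟨a, c, e1⟩ := Submodule.mem_span_pair.1 hgp
  obtain ⟨b, d, e2⟩ := Submodule.mem_span_pair.1 hgq
  have i1 := congrArg (algebraMap F K) (h.iso g p p)
  have i2 := congrArg (algebraMap F K) (h.iso g q q)
  have i3 := congrArg (algebraMap F K) (h.iso g p q)
  rw [← e1, hB] at i1
  rw [← e2, hB] at i2
  rw [← e1, ← e2, hB, hpq] at i3
  simp only [map_add, map_mul, hτ', map_zero] at i1 i2 i3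
  have ev : ∀ σ x y, Z σ (ρ g (x • p + y • q)) =
      algebraMap F K x * (algebraMap F K a + σ * algebraMap F K c) +
      algebraMap F K y * (algebraMap F K b + σ * algebraMap F K d) := fun σ x y => by
    rw [map_add, map_smul, map_smul, ← e1, ← e2, map_add, map_smul, map_smul, hZ, hZ,
      Algebra.smul_def, Algebra.smul_def]
  have hm : ∀ x y : F, ρ g (x • p + y • q) ∈ Submodule.span F {p, q} := fun x y => by
    rw [map_add, map_smul, map_smul]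
    exact Submodule.add_mem _ (Submodule.smul_mem _ _ hgp) (Submodule.smul_mem _ _ hgq)
  generalize algebraMap F K a = A, algebraMap F K b = B', algebraMap F K c = C,
    algebraMap F K d = D, algebraMap F K (B p p) = E at i1 i2 i3 ev hp'
  have j1 : (A + τ * C) * (A - τ * C) = 1 := mul_right_cancel₀ hp' (by linear_combination i1)
  have j2 : (B' + τ * D) * (B' - τ * D) = -τ ^ 2 := mul_right_cancel₀ hp' (by linear_combination i2)
  have j3 : A * B' - τ ^ 2 * C * D = 0 := mul_right_cancel₀ hp' (by linear_combination i3)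
  have h0 : A + τ * C ≠ 0 := left_ne_zero_of_mul_eq_one j1
  have hinv : (A + τ * C)⁻¹ = A - τ * C := inv_eq_of_mul_eq_one_right j1
  have j4 : ((B' + τ * D) * (A - τ * C) - τ) * ((B' + τ * D) * (A - τ * C) + τ) = 0 := by
    linear_combination (2 * (B' + τ * D) * (A - τ * C)) * j3 -
      ((A + τ * C) * (A - τ * C)) * j2 + τ ^ 2 * j1
  refine ⟨A + τ * C, (mul_eq_zero.1 j4).imp (fun j => ⟨h0, fun v hv => ?_⟩)
    fun j => ⟨h0, fun v hv => ?_⟩⟩
  all_goals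
    obtain ⟨x, y, rfl⟩ := Submodule.mem_span_pair.1 hv
    simp only [ev, hZ, hinv]
    refine ⟨hm x y, ?_, ?_⟩
  · linear_combination algebraMap F K y * ((A + τ * C) * j - (B' + τ * D) * j1)
  · linear_combination algebraMap F K y * ((A - τ * C) * (2 * j3 - j) - (B' - τ * D) * j1)
  · linear_combination algebraMap F K y * ((A + τ * C) * j - (B' + τ * D) * j1)
  · linear_combination algebraMap F K y * ((A - τ * C) * (2 * j3 - j) - (B' - τ * D) * j1)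

end Cfsg.Agent.H25.S4
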