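import Cfsg.Agent.H25.S4Fr2

/-!
# The frame theorem, III: three orthogonal roots in a Sylow `2`-subgroup
-/

set_option autoImplicit false

namespace Cfsg.Agent.H25.S4

open Module Subgroup

universe u

variable {F W G K : Type*} [Field F] [AddCommGroup W] [Module F W] [Group G] [Field K] [Algebra F K]
  {B : LinearMap.BilinForm F W} {ρ : G →* End F W}

/-- The configuration to be excluded. -/
structure K3 (B : LinearMap.BilinForm F W) (ρ : G →* End F W) (S : Subgroup G)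
    (a0 a1 a2 n1 n2 : W) (t0 t1 t2 : G) (P Q : Pl F W K) : Prop where
  os : OS B ρ
  r0 : Rt B ρ a0 t0
  r1 : Rt B ρ a1 t1
  r2 : Rt B ρ a2 t2
  m0 : t0 ∈ S
  m1 : t1 ∈ S
  m2 : t2 ∈ S
  o01 : B a0 a1 = 0
  o02 : B a0 a2 = 0
  o12 : B a1 a2 = 0
  c0 : ∀ s ∈ S, ρ s a0 = a0 ∨ ρ s a0 = -a0
  no4 : ∀ f r, Rt B ρ f r → B a0 f = 0 → B a1 f = 0 → B a2 f = 0 → False
  rts : ∀ e r, Rt B ρ e r → r ∈ S → e = a0 ∨ e = -a0 ∨ e ∈ P.U
  PU : P.U = Submodule.span F {a1, a2}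
  z1 : P.z a1 = 1
  z1' : P.z' a1 = 1
  z2 : P.z' a2 = -P.z a2
  Pn : ∀ v ∈ P.U, algebraMap F K (B v v) = P.z v * P.z' v
  Pd : ∀ s ∈ S, ∃ χ, P.Rot ρ s χ ∨ P.Ref ρ s χ
  QU : ∀ x, x ∈ Q.U ↔ B a0 x = 0 ∧ B a1 x = 0 ∧ B a2 x = 0
  q1 : n1 ∈ Q.U
  q2 : n2 ∈ Q.U
  d1 : B n1 n1 ≠ 0
  d2 : B n2 n2 ≠ 0
  d12 : B n1 n2 = 0
  y1 : Q.z n1 = 1
  Qd : ∀ s ∈ S, ∃ χ, Q.Rot ρ s χ ∨ Q.Ref ρ s χ

namespace K3

variable {S : Subgroup G} {a0 a1 a2 n1 n2 : W} {t0 t1 t2 : G} {P Q : Pl F W K}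
  (h : K3 B ρ S a0 a1 a2 n1 n2 t0 t1 t2 P Q)
include h

lemma p1 : a1 ∈ P.U := h.PU ▸ Submodule.subset_span (by simp)

lemma p2 : a2 ∈ P.U := h.PU ▸ Submodule.subset_span (by simp)

lemma oP {x v : W} (h1 : B a1 x = 0) (h2 : B a2 x = 0) (hv : v ∈ P.U) : B v x = 0 := by
  obtain ⟨c, d, rfl⟩ := Submodule.mem_span_pair.1 (h.PU ▸ hv)
  simp [h1, h2]

lemma o0P {v : W} (hv : v ∈ P.U) : B v a0 = 0 :=
  h.oP (h.os.symm _ _ ▸ h.o01) (h.os.symm _ _ ▸ h.o02) hv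

lemma oPQ {v x : W} (hv : v ∈ P.U) (hx : x ∈ Q.U) : B v x = 0 :=
  h.oP ((h.QU x).1 hx).2.1 ((h.QU x).1 hx).2.2 hv

lemma ext {g g' : G} (h0 : ρ g a0 = ρ g' a0) (h1 : ∀ v ∈ P.U, ρ g v = ρ g' v)
    (h2 : ∀ v ∈ Q.U, ρ g v = ρ g' v) : g = g' := by
  refine h.os.inj (LinearMap.ext fun x => ?_)
  have e : x = B a0 x • a0 + B a1 x • a1 + B a2 x • a2 +
      (x - B a0 x • a0 - B a1 x • a1 - B a2 x • a2) := by module
  have hq : x - B a0 x • a0 - B a1 x • a1 - B a2 x • a2 ∈ Q.U := by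
    simp [h.QU, h.r0.1, h.r1.1, h.r2.1, h.o01, h.o02, h.o12, h.os.symm a1 a0, h.os.symm a2 a0,
      h.os.symm a2 a1]
  rw [e]
  simp only [map_add, map_smul, h0, h1 _ h.p1, h1 _ h.p2, h2 _ hq]

lemma n0 : ρ (t0 * t1 * t2) a0 = a0 := by
  rw [rho_mul, rho_mul, h.r2.orth (h.os.symm _ _ ▸ h.o02), map_neg,
    h.r1.orth (h.os.symm _ _ ▸ h.o01), neg_neg, h.r0.self]

lemma nP {v : W} (hv : v ∈ P.U) : ρ (t0 * t1 * t2) v = v := by
  obtain ⟨c, d, rfl⟩ := Submodule.mem_span_pair.1 (h.PU ▸ hv)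
  simp only [map_add, map_smul, rho_mul, h.r2.orth (h.os.symm _ _ ▸ h.o12), h.r2.self, map_neg,
    h.r1.self, h.r1.orth h.o12, h.r0.orth h.o01, h.r0.orth h.o02, neg_neg]

lemma nQ {v : W} (hv : v ∈ Q.U) : ρ (t0 * t1 * t2) v = -v := by
  obtain ⟨h0, h1, h2⟩ := (h.QU v).1 hv
  rw [rho_mul, rho_mul, h.r2.orth h2, map_neg, h.r1.orth h1, neg_neg, h.r0.orth h0]

lemma mP {s : G} (hs : s ∈ S) {v : W} (hv : v ∈ P.U) : ρ s v ∈ P.U := by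
  obtain ⟨χ, e | e⟩ := h.Pd s hs <;> exact (e.2 v hv).1

lemma mQ {s : G} (hs : s ∈ S) {v : W} (hv : v ∈ Q.U) : ρ s v ∈ Q.U := by
  obtain ⟨χ, e | e⟩ := h.Qd s hs <;> exact (e.2 v hv).1

lemma nn : t0 * t1 * t2 * (t0 * t1 * t2) = 1 :=
  h.ext (by rw [rho_mul, h.n0, h.n0]; simp) (fun v hv => by rw [rho_mul, h.nP hv, h.nP hv]; simp)
    fun v hv => by rw [rho_mul, h.nQ hv, map_neg, h.nQ hv]; simp

lemma n_ne : t0 * t1 * t2 ≠ 1 := fun e => by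
  have := h.nQ h.q1
  rw [e, map_one, End.one_apply] at this
  exact h.d1 (by rw [h.os.eq_zero_of_neg this.symm, map_zero])

lemma n_central (s : G) (hs : s ∈ S) : s * (t0 * t1 * t2) = t0 * t1 * t2 * s :=
  h.ext (by
    rw [rho_mul, rho_mul _ s, h.n0]
    rcases h.c0 s hs with e | e <;> simp only [e, map_neg, h.n0])
    (fun v hv => by rw [rho_mul, rho_mul _ s, h.nP hv, h.nP (h.mP hs hv)])
    fun v hv => by rw [rho_mul, rho_mul _ s, h.nQ hv, h.nQ (h.mQ hs hv), map_neg]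

lemma ref1 : P.Ref ρ t1 1 := ⟨one_ne_zero, fun v hv => ⟨h.mP h.m1 hv, by
  obtain ⟨c, d, rfl⟩ := Submodule.mem_span_pair.1 (h.PU ▸ hv)
  simp [h.r1.self, h.r1.orth h.o12, h.z1, h.z1', h.z2]⟩⟩

lemma rot0 : P.Rot ρ t0 (-1) := Pl.Rot.neg fun _ hv => h.r0.orth (h.os.symm _ _ ▸ h.o0P hv)

/-- No conjugate of `n` inverts a root. -/
lemma star {u g r : G} {f : W} (hg : g * u * g⁻¹ = t0 * t1 * t2) (hf : Rt B ρ f r)
    (e : ρ u f = -f) : False := by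
  have e1 : ρ (t0 * t1 * t2) (ρ g f) = -ρ g f := by rw [← hg, rho_conj, e, map_neg]
  exact h.no4 _ _ (h.os.conj hf g) (h.os.orth h.n0 e1) (h.os.orth (h.nP h.p1) e1)
    (h.os.orth (h.nP h.p2) e1)

/-- The conjugates of `n` in `S`. -/
lemma refl {u g : G} (hu : u ∈ S) (hg : g * u * g⁻¹ = t0 * t1 * t2) (hne : u ≠ t0 * t1 * t2) :
    ρ u a0 = a0 ∧ (∃ A, P.Ref ρ u A ∧ ∀ s γ, P.Rot ρ s γ → A ≠ γ ^ 2 ∧ -A ≠ γ ^ 2) ∧
      ∃ A, Q.Ref ρ u A := by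
  have hs := h.os.symm
  have e0 : u = g⁻¹ * (t0 * t1 * t2) * g⁻¹⁻¹ := by rw [← hg]; group
  have huu : u * u = 1 := by
    rw [e0, show ∀ n : G, g⁻¹ * n * g⁻¹⁻¹ * (g⁻¹ * n * g⁻¹⁻¹) = g⁻¹ * (n * n) * g by
      intro n; group, h.nn]
    group
  have hu2 : ∀ x, ρ u (ρ u x) = x := fun x => by rw [← rho_mul, huu, map_one, End.one_apply]
  have eQ : ∀ v ∈ Q.U, ρ u (ρ g⁻¹ v) = -ρ g⁻¹ v := fun v hv => by
    rw [e0, rho_conj, h.nQ hv, map_neg]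
  have eP : ∀ v ∈ P.U, ρ u (ρ g⁻¹ v) = ρ g⁻¹ v := fun v hv => by rw [e0, rho_conj, h.nP hv]
  have e00 : ρ u (ρ g⁻¹ a0) = ρ g⁻¹ a0 := by rw [e0, rho_conj, h.n0]
  have h0 : ρ u a0 = a0 := (h.c0 u hu).resolve_right (h.star hg h.r0)
  have u0 : B a0 a0 ≠ 0 := h.r0.1 ▸ one_ne_zero
  have u1 : B a1 a1 ≠ 0 := h.r1.1 ▸ one_ne_zero
  have u2 : B a2 a2 ≠ 0 := h.r2.1 ▸ one_ne_zero
  obtain ⟨A, hA⟩ : ∃ A, P.Ref ρ u A := by
    obtain ⟨χ, e | e⟩ := h.Pd u hu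
    swap
    · exact ⟨χ, e⟩
    rcases e.pm (by rw [sq]; exact (huu ▸ e.mul e).of_one h.p1 h.z1) with e1 | e1
    swap
    · exact (h.star hg h.r1 (e1 _ h.p1)).elim
    refine absurd (h.ext (by rw [h0, h.n0]) (fun v hv => by rw [e1 v hv, h.nP hv])
      fun v hv => ?_) hne
    have hy : ρ u (v + ρ u v) = v + ρ u v := by rw [map_add, hu2, add_comm]
    obtain ⟨y0, y1, y2⟩ := (h.QU _).1 (Q.U.add_mem hv (h.mQ hu hv))
    rw [h.nQ hv, eq_neg_iff_add_eq_zero, add_comm]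
    exact h.os.five' u0 u1 u2 (d := ρ g⁻¹ n1) (e := ρ g⁻¹ n2) (by rw [h.os.iso]; exact h.d1)
      (by rw [h.os.iso]; exact h.d2) h.o01 h.o02 (h.os.orth h0 (eQ _ h.q1))
      (h.os.orth h0 (eQ _ h.q2)) h.o12 (h.os.orth (e1 _ h.p1) (eQ _ h.q1))
      (h.os.orth (e1 _ h.p1) (eQ _ h.q2)) (h.os.orth (e1 _ h.p2) (eQ _ h.q1))
      (h.os.orth (e1 _ h.p2) (eQ _ h.q2)) (by rw [h.os.iso]; exact h.d12) y0 y1 y2
      (hs _ _ ▸ h.os.orth hy (eQ _ h.q1)) (hs _ _ ▸ h.os.orth hy (eQ _ h.q2))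
  have hns : ∀ s γ, P.Rot ρ s γ → A ≠ γ ^ 2 ∧ -A ≠ γ ^ 2 := fun s γ hγ => by
    have := hγ.1
    constructor
    · rintro rfl
      obtain ⟨k1, k2, k3⟩ := hγ.2 _ h.p2
      obtain ⟨k4, k5, k6⟩ := hA.2 _ k1
      refine h.star hg (h.os.conj h.r2 s) (Pl.ext' k4 (P.U.neg_mem k1) ?_ ?_)
      · rw [k5, map_neg, k2, k3, h.z2]; field_simp
      · rw [k6, map_neg, k2, k3, h.z2]; field_simp
    · intro e
      obtain rfl : A = -γ ^ 2 := by rw [← e, neg_neg]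
      obtain ⟨k1, k2, k3⟩ := hγ.2 _ h.p1
      obtain ⟨k4, k5, k6⟩ := hA.2 _ k1
      refine h.star hg (h.os.conj h.r1 s) (Pl.ext' k4 (P.U.neg_mem k1) ?_ ?_)
      · rw [k5, map_neg, k2, k3, h.z1, h.z1']; field_simp
      · rw [k6, map_neg, k2, k3, h.z1, h.z1']; field_simp
  refine ⟨h0, ⟨A, hA, hns⟩, ?_⟩
  obtain ⟨χ, e | e⟩ := h.Qd u hu
  swap
  · exact ⟨χ, e⟩
  exfalso
  obtain ⟨k1, k2, k3⟩ := hA.2 _ h.p1
  obtain ⟨k4, k5⟩ := hns 1 1 Pl.Rot.one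
  have k0 := hA.1
  have nz : ∀ c : F, algebraMap F K c + A ≠ 0 → algebraMap F K c * A + 1 ≠ 0 →
      B (c • a1 + ρ u a1) (c • a1 + ρ u a1) ≠ 0 := fun c l1 l2 e1 => by
    have := h.Pn _ (P.U.add_mem (P.U.smul_mem c h.p1) k1)
    rw [e1, map_zero, map_add, map_add, map_smul, map_smul, k2, k3, h.z1, h.z1', Algebra.smul_def,
      mul_one, mul_one, mul_one, eq_comm, mul_eq_zero] at this
    rcases this with l | l
    · exact l1 l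
    · exact l2 (by rw [← mul_inv_cancel₀ k0, mul_comm A, ← add_mul, l, zero_mul])
  obtain ⟨y0, y1, -⟩ := (h.QU _).1 h.q1
  obtain ⟨w0, w1, -⟩ := (h.QU _).1 h.q2
  rcases e.pm (by rw [sq]; exact (huu ▸ e.mul e).of_one h.q1 h.y1) with e1 | e1
  · have hm := P.U.add_mem (P.U.smul_mem 1 h.p1) k1
    have hy : ρ u ((1 : F) • a1 + ρ u a1) = (1 : F) • a1 + ρ u a1 := by
      rw [one_smul, map_add, hu2, add_comm]
    have := h.os.five' u0 (nz 1 (fun l => k5 (by rw [map_one] at l; linear_combination -l))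
      fun l => k5 (by rw [map_one] at l; linear_combination -l)) h.d1 h.d2
      (e := ρ g⁻¹ n1) (x := ρ g⁻¹ n2) (by rw [h.os.iso]; exact h.d1) (hs _ _ ▸ h.o0P hm) y0 w0
      (h.os.orth h0 (eQ _ h.q1)) (h.oPQ hm h.q1) (h.oPQ hm h.q2) (h.os.orth hy (eQ _ h.q1)) h.d12
      (h.os.orth (e1 _ h.q1) (eQ _ h.q1)) (h.os.orth (e1 _ h.q2) (eQ _ h.q1))
      (h.os.orth h0 (eQ _ h.q2)) (h.os.orth hy (eQ _ h.q2)) (h.os.orth (e1 _ h.q1) (eQ _ h.q2))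
      (h.os.orth (e1 _ h.q2) (eQ _ h.q2)) (by rw [h.os.iso]; exact h.d12)
    exact h.d2 (by rw [← h.os.iso g⁻¹, this, map_zero])
  · have hm := P.U.add_mem (P.U.smul_mem (-1) h.p1) k1
    have hy : ρ u ((-1 : F) • a1 + ρ u a1) = -((-1 : F) • a1 + ρ u a1) := by
      rw [map_add, map_smul, hu2]; module
    have := h.os.five' (nz (-1) (fun l => k4 (by rw [map_neg, map_one] at l; linear_combination l))
      fun l => k4 (by rw [map_neg, map_one] at l; linear_combination -l)) h.d1 h.d2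
      (d := ρ g⁻¹ a0) (e := ρ g⁻¹ a1) (x := ρ g⁻¹ a2) (by rw [h.os.iso]; exact u0)
      (by rw [h.os.iso]; exact u1) (h.oPQ hm h.q1) (h.oPQ hm h.q2) (hs _ _ ▸ h.os.orth e00 hy)
      (hs _ _ ▸ h.os.orth (eP _ h.p1) hy) h.d12 (hs _ _ ▸ h.os.orth e00 (e1 _ h.q1))
      (hs _ _ ▸ h.os.orth (eP _ h.p1) (e1 _ h.q1)) (hs _ _ ▸ h.os.orth e00 (e1 _ h.q2))
      (hs _ _ ▸ h.os.orth (eP _ h.p1) (e1 _ h.q2)) (by rw [h.os.iso]; exact h.o01)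
      (hs _ _ ▸ h.os.orth (eP _ h.p2) hy) (hs _ _ ▸ h.os.orth (eP _ h.p2) (e1 _ h.q1))
      (hs _ _ ▸ h.os.orth (eP _ h.p2) (e1 _ h.q2)) (by rw [h.os.iso]; exact h.o02)
      (by rw [h.os.iso]; exact h.o12)
    exact u2 (by rw [← h.os.iso g⁻¹, this, map_zero])

/-- The rotations of the root plane induced by `S` form a cyclic group. -/
lemma fourth [Finite G] {A C : K} (hA : ∃ s ∈ S, P.Rot ρ s A) (hC : ∃ s ∈ S, P.Rot ρ s C)
    (hA' : ∀ s γ, P.Rot ρ s γ → A ≠ γ ^ 2) (hC' : ∀ s γ, P.Rot ρ s γ → C ≠ γ ^ 2) :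
    ∃ s ∈ S, ∃ x, P.Rot ρ s x ∧ (A = x ^ 4 * C ∨ A = x ^ 4 * C⁻¹) := by
  obtain ⟨Γ, hΓ⟩ : ∃ Γ : Subgroup Kˣ, ∀ γ, γ ∈ Γ ↔ ∃ s ∈ S, P.Rot ρ s γ := ⟨
    { carrier := {γ | ∃ s ∈ S, P.Rot ρ s γ}
      one_mem' := ⟨1, S.one_mem, Pl.Rot.one⟩
      mul_mem' := fun ⟨s, hs, e⟩ ⟨t, ht, e'⟩ => ⟨s * t, S.mul_mem hs ht, e.mul e'⟩
      inv_mem' := fun ⟨s, hs, e⟩ => ⟨s⁻¹, S.inv_mem hs, by
        rw [Units.val_inv_eq_inv_val]
        exact e.inv fun _ => h.mP (S.inv_mem hs)⟩ }, fun _ => Iff.rfl⟩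
  have : Finite Γ := by
    have : Finite (Set.range fun s : G => P.z (ρ s a1)) := (Set.finite_range _).to_subtype
    refine Finite.of_injective (fun γ : Γ => (⟨γ.1, by
      obtain ⟨s, -, e⟩ := (hΓ _).1 γ.2
      exact ⟨s, by simpa [h.z1] using (e.2 _ h.p1).2.1⟩⟩ :
        Set.range fun s : G => P.z (ρ s a1))) fun x y e => Subtype.ext (Units.ext ?_)
    exact Subtype.mk.inj e
  obtain ⟨s, hs, e⟩ := hA
  obtain ⟨t, ht, e'⟩ := hC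
  obtain ⟨x, hx⟩ := exists_fourth (Γ := Γ) (α := ⟨Units.mk0 A e.1, (hΓ _).2 ⟨s, hs, e⟩⟩)
    (β := ⟨Units.mk0 C e'.1, (hΓ _).2 ⟨t, ht, e'⟩⟩)
    (fun x hx => by
      obtain ⟨r, -, k⟩ := (hΓ _).1 x.2
      exact hA' r _ k (by simpa using congrArg (fun y : Γ => ((y : Kˣ) : K)) hx))
    fun x hx => by
      obtain ⟨r, -, k⟩ := (hΓ _).1 x.2
      exact hC' r _ k (by simpa using congrArg (fun y : Γ => ((y : Kˣ) : K)) hx)
  obtain ⟨r, hr, k⟩ := (hΓ _).1 x.2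
  exact ⟨r, hr, _, k, hx.imp (fun hx => by simpa using congrArg (fun y : Γ => ((y : Kˣ) : K)) hx)
    fun hx => by simpa using congrArg (fun y : Γ => ((y : Kˣ) : K)) hx⟩

end K3

theorem K3.false [Finite G] [IsSimpleGroup G] (hG : ¬ IsMulCommutative G) {S : Sylow 2 G}
    {a0 a1 a2 n1 n2 : W} {t0 t1 t2 : G} {P Q : Pl F W K}
    (h : K3 B ρ S a0 a1 a2 n1 n2 t0 t1 t2 P Q) : False := by
  have hs := h.os.symm
  have hn : t0 * t1 * t2 ∈ (S : Subgroup G) := mul_mem (mul_mem h.m0 h.m1) h.m2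
  obtain ⟨u, hu, hne, g, hg, hg'⟩ := zstar hG S hn h.n_central h.nn h.n_ne
  obtain ⟨h0, ⟨A, hA, hA'⟩, A', hQ⟩ := h.refl hu hg hne
  by_cases hc : ∀ s ∈ S, ∀ χ, Q.Rot ρ s χ → χ ^ 2 = 1
  · obtain ⟨b, hb, hb0, hb1⟩ : ∃ b ∈ Q.U, b ≠ 0 ∧ (ρ u b = b ∨ ρ u b = -b) := by
      by_cases e : n1 + ρ u n1 = 0
      · exact ⟨n1, h.q1, fun e => h.d1 (by rw [e, map_zero]), Or.inr (eq_neg_of_add_eq_zero_right e)⟩
      · refine ⟨_, Q.U.add_mem h.q1 (h.mQ hu h.q1), e, Or.inl ?_⟩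
        have := (hQ.mul hQ)
        rw [mul_inv_cancel₀ hQ.1] at this
        rw [map_add, ← rho_mul, this.eq_one h.q1, add_comm]
    obtain ⟨x, hx, hx'⟩ := transfer_vec hG h.os.two S hb0 (fun s hs => by
      obtain ⟨χ, e | e⟩ := h.Qd s hs
      · exact (e.pm (hc s hs _ e)).imp (· b hb) (· b hb)
      · have k := ((e.mul hQ).pm (hc _ (mul_mem hs hu) _ (e.mul hQ))).imp (· b hb) (· b hb)
        rw [rho_mul] at k
        rcases hb1 with e1 | e1 <;> rw [e1] at k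
        · exact k
        · rw [map_neg, neg_eq_iff_eq_neg, neg_inj] at k
          exact k.symm) (h.os.sq h.r0)
    have hr := h.os.conj h.r0 x
    refine hb0 (h.os.eq_zero_of_neg ((hr.orth ?_).symm.trans hx'))
    rcases h.rts _ _ hr hx with e | e | e
    · rw [e]; exact ((h.QU b).1 hb).1
    · rw [e, map_neg, LinearMap.neg_apply, ((h.QU b).1 hb).1, neg_zero]
    · exact h.oPQ e hb
  push Not at hc
  obtain ⟨y, hy, χ, hχ, hχ'⟩ := hc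
  obtain ⟨k, hk⟩ := S.2 ⟨y, hy⟩
  obtain ⟨j, hj⟩ := exists_pow_sq_eq_neg k χ (Pl.Rot.of_one (ρ := ρ) h.q1 h.y1
    ((show y ^ 2 ^ k = 1 from congrArg Subtype.val hk) ▸ hχ.pow _)) hχ'
  have hy' : y ^ j ∈ (S : Subgroup G) := pow_mem hy j
  have hχj := hχ.pow j
  generalize y ^ j = y', χ ^ j = χ' at hj hy' hχj
  have hw : y' * u * y'⁻¹ ∈ (S : Subgroup G) := mul_mem (mul_mem hy' hu) (inv_mem hy')
  have hw1 : g * y'⁻¹ * (y' * u * y'⁻¹) * (g * y'⁻¹)⁻¹ = t0 * t1 * t2 := by rw [← hg]; group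
  obtain ⟨k0, ⟨C, hC, hC'⟩, -⟩ := h.refl hw hw1 fun e => hne (by
    rw [mul_inv_eq_iff_eq_mul, ← h.n_central _ hy'] at e
    exact mul_left_cancel e)
  have hwQ := (hχj.mul_ref hQ).mul_rot (hχj.inv fun _ => h.mQ (inv_mem hy'))
  rw [inv_inv, mul_right_comm, ← sq, hj, neg_one_mul] at hwQ
  let Pw : G → K → Prop := fun w C => (∃ g : G, g * w * g⁻¹ = t0 * t1 * t2) ∧ ρ w a0 = a0 ∧
    (∀ v ∈ Q.U, ρ w v = -ρ u v) ∧ P.Ref ρ w C
  have step : ∀ w C s x, Pw w C → s ∈ (S : Subgroup G) → P.Rot ρ s x →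
      ∃ w', Pw w' (x ^ 4 * C⁻¹) := by
    rintro w C s x ⟨⟨c, hc⟩, k1, k2, k3⟩ hs' hx
    have hr := h.os.conj h.r1 s
    have hrr := h.os.sq hr
    have hm := h.mP hs' h.p1
    have hf := (hx.mul_ref h.ref1).mul_rot (hx.inv fun _ => h.mP (inv_mem hs'))
    generalize s * t1 * s⁻¹ = r at hr hrr hf
    refine ⟨r * w * r, ⟨c * r, ?_⟩, ?_, fun v hv => ?_, ?_⟩
    · rw [← hc, mul_inv_rev, inv_eq_of_mul_eq_one_right hrr,
        show c * r * (r * w * r) * (r * c⁻¹) = c * (r * r) * w * (r * r) * c⁻¹ by group, hrr]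
      group
    · rw [rho_mul, rho_mul, hr.orth (h.o0P hm), map_neg, k1, map_neg, hr.orth (h.o0P hm), neg_neg]
    · rw [rho_mul, rho_mul, hr.orth (h.oPQ hm hv), map_neg, k2 v hv, neg_neg,
        hr.orth (h.oPQ hm (h.mQ hu hv))]
    · convert (hf.mul k3).mul_ref hf using 1
      rw [inv_inv]; ring
  have hP0 : Pw _ C := ⟨⟨_, hw1⟩, k0, fun v hv => hwQ.eq_neg hQ hv, hC⟩
  have hu' : P.Ref ρ (u * t0) (-A) := by simpa using hA.mul_rot h.rot0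
  obtain ⟨w, ⟨c, hc⟩, k1, k2, k3⟩ : ∃ w, Pw w (-A) := by
    obtain ⟨s, hs', x, hx, e | e⟩ := h.fourth (A := -A) (C := C)
      ⟨_, mul_mem (mul_mem hu h.m0) h.m1, by simpa using hu'.mul h.ref1⟩
      ⟨_, mul_mem hw h.m1, by simpa using hC.mul h.ref1⟩ (fun s γ e => (hA' s γ e).2)
      fun s γ e => (hC' s γ e).1
    · obtain ⟨w1, h1⟩ := step _ _ 1 1 hP0 (one_mem _) Pl.Rot.one
      obtain ⟨w2, h2⟩ := step _ _ s x h1 hs' hx
      exact ⟨w2, by simpa [e] using h2⟩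
    · exact e ▸ step _ _ s x hP0 hs' hx
  obtain rfl : w = u * t0 := h.ext (by rw [k1, rho_mul, h.r0.self, h0]) (fun v hv => k3.eq hu' hv)
    fun v hv => by rw [k2 v hv, rho_mul, h.r0.orth ((h.QU v).1 hv).1, map_neg]
  have hr := h.os.conj h.r0 g
  have key : ∀ f r, Rt B ρ f r → ρ (t0 * t1 * t2) f = f → B (ρ g a0) f = 0 → False :=
    fun f r hf e1 e2 => h.star hc (h.os.conj hf g⁻¹) (by
      rw [show u * t0 = g⁻¹ * (t0 * t1 * t2 * (g * t0 * g⁻¹)) * g⁻¹⁻¹ by rw [← hg]; group,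
        rho_conj, rho_mul, hr.orth e2, map_neg, e1, map_neg])
  rcases h.rts _ _ hr (hg' _ h.m0 (h.os.comm' h.r0 (Or.inl h0)).symm) with e | e | e
  · exact key _ _ h.r1 (h.nP h.p1) (by rw [e, h.o01])
  · exact key _ _ h.r1 (h.nP h.p1) (by rw [e, map_neg, LinearMap.neg_apply, h.o01, neg_zero])
  · exact key _ _ h.r0 h.n0 (h.o0P e)

lemma OS.perp [Finite G] (h : OS B ρ) (S : Sylow 2 G) {a e : W} {t r : G} (ha : Rt B ρ a t)
    (ht : t ∈ S) (he : Rt B ρ e r) (hr : r ∈ S) : ∃ x y : F, x ≠ 0 ∧ B a (x • e + y • a) = 0 ∧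
      (x • e + y • a = 0 ∨ ∃ r' ∈ S, Rt B ρ (x • e + y • a) r') := by
  by_cases h0 : B e a = 0
  · exact ⟨1, 0, one_ne_zero, by simpa [h.symm a] using h0, Or.inr ⟨r, hr, by simpa using he⟩⟩
  by_cases h1 : e = a
  · exact ⟨1, -1, one_ne_zero, by simp [h1], Or.inl (by simp [h1])⟩
  by_cases h2 : e = -a
  · exact ⟨1, 1, one_ne_zero, by simp [h2], Or.inl (by simp [h2])⟩
  obtain ⟨k, hk⟩ := S.2 ⟨r * t, mul_mem hr ht⟩
  obtain ⟨x, y, r', hx, h3, h4, h5⟩ := h.dihedral S ha ht k he hr (congrArg Subtype.val hk) h0 h1 h2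
  exact ⟨x, y, hx, h5, Or.inr ⟨r', h4, h3⟩⟩

/-- The frame theorem. -/
theorem absFrame : AbsFrameStmt.{u} := by
  intro F W G _ _ _ _ _ _ B ρ h2 hr hs hnd hG hi hiso ⟨b, s, hb⟩
  have h : OS B ρ := ⟨h2, hr, hs, hnd, hi, hiso⟩
  have := h.fin
  obtain ⟨S⟩ : Nonempty (Sylow 2 G) := inferInstance
  obtain ⟨v, hv, hv'⟩ := exists_line h2 S.2 5 W B (ρ.comp (S : Subgroup G).subtype) hr (by decide)
    hs hnd fun g => hiso g
  have hv0 : v ≠ 0 := fun e => hv (by rw [e, map_zero])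
  have hv1 : ∀ s ∈ S, ρ s v = v ∨ ρ s v = -v := fun s hs => hv' ⟨s, hs⟩
  obtain ⟨g0, m0, f0⟩ := transfer_vec hG h2 S hv0 hv1 (h.sq hb)
  have r0 := h.conj hb g0
  generalize g0 * s * g0⁻¹ = t0, ρ g0 b = a0 at m0 f0 r0
  have hcj : ∀ a t, Rt B ρ a t → ∃ g : G, g * t * g⁻¹ = t0 := fun a t ha => by
    obtain ⟨g, -, e⟩ := transfer_vec hG h2 S hv0 hv1 (h.sq ha)
    exact ⟨g, h.eq_of_fix (h.conj ha g) r0 hv0 e f0⟩
  refine ⟨?_, fun a t b s ha hb => (isConj_iff.2 (hcj a t ha)).trans (isConj_iff.2 (hcj b s hb)).symm⟩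
  have c0 : ∀ s ∈ S, ρ s a0 = a0 ∨ ρ s a0 = -a0 := fun s hs => by
    have e := h.fix r0 f0
    have e1 : B a0 v ≠ 0 := fun e1 => hv0 (by rw [e, e1, zero_smul])
    have k := hv1 s hs
    rw [e, map_smul, ← smul_neg] at k
    exact k.imp (fun k => smul_right_injective W e1 k) fun k => smul_right_injective W e1 k
  have o0 : ∀ e r, Rt B ρ e r → r ∈ S → e = a0 ∨ e = -a0 ∨ B a0 e = 0 := fun e r he hr => by
    rcases c0 r hr with k | k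
    · rcases h.pm r0 (h.eq_of_fix he r0 r0.ne_zero k r0.self ▸ he) with k | k
      exacts [Or.inl k, Or.inr (Or.inl k)]
    · exact Or.inr (Or.inr (hs _ _ ▸ h.orth he.self k))
  have oS : ∀ s ∈ S, ∀ x, B a0 x = 0 → B a0 (ρ s x) = 0 := fun s hs x hx => by
    rw [← h.iso s] at hx
    rcases c0 s hs with k | k <;> simpa [k] using hx
  obtain ⟨t1, m1, hne, g, hg, -⟩ := zstar hG S m0 (fun s hs => h.comm' r0 (c0 s hs)) (h.sq r0)
    (h.ne_one r0)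
  obtain ⟨a1, r1⟩ : ∃ a1, Rt B ρ a1 t1 :=
    ⟨_, (show g⁻¹ * t0 * g⁻¹⁻¹ = t1 by rw [← hg]; group) ▸ h.conj r0 g⁻¹⟩
  have o01 : B a0 a1 = 0 := ((o0 _ _ r1 m1).resolve_left fun e => hne (h.uniq (e ▸ r1) r0)).resolve_left
    fun e => hne (h.uniq (e ▸ r1) r0.neg)
  have mS : ∀ s ∈ S, ∀ t ∈ S, s * t * s⁻¹ ∈ S := fun s hs t ht =>
    S.mul_mem (S.mul_mem hs ht) (S.inv_mem hs)
  obtain ⟨a2, t2, r2, m2, o02, o12⟩ : ∃ a2 t2, Rt B ρ a2 t2 ∧ t2 ∈ S ∧ B a0 a2 = 0 ∧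
      B a1 a2 = 0 := by
    by_contra hc
    push Not at hc
    have hR : ∀ e r, Rt B ρ e r → r ∈ S → B a0 e = 0 → e = a1 ∨ e = -a1 := fun e r he hr h0 => by
      obtain ⟨x, y, hx, h3, h4 | ⟨r', h4, h5⟩⟩ := h.perp S r1 m1 he hr
      · refine pm_of_smul r1.1 he.1 (c := x⁻¹ * -y) ?_
        rw [mul_smul, eq_inv_smul_iff₀ hx, neg_smul, eq_neg_iff_add_eq_zero, h4]
      · exact absurd h3 (hc _ _ h5 h4 (by simp [h0, o01]))
    have c1 : ∀ s ∈ S, ρ s a1 = a1 ∨ ρ s a1 = -a1 := fun s hs =>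
      hR _ _ (h.conj r1 s) (mS s hs _ m1) (oS s hs _ o01)
    have k0 : sg ρ a0 t0 * sg ρ a1 t0 = -1 := by
      rw [sg_eq r0.ne_zero (c0 _ m0) (c := 1) (by rw [r0.self, one_smul]),
        sg_eq r1.ne_zero (c1 _ m0) (c := -1) (by rw [r0.orth o01, neg_one_smul]), one_mul]
    have k1 : sg ρ a0 t1 * sg ρ a1 t1 = -1 := by
      rw [sg_eq r1.ne_zero (c1 _ m1) (c := 1) (by rw [r1.self, one_smul]),
        sg_eq r0.ne_zero (c0 _ m1) (c := -1) (by rw [r1.orth (hs _ _ ▸ o01), neg_one_smul]), mul_one]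
    obtain ⟨x, hx, hx'⟩ := transfer hG h2 S (fun s => sg ρ a0 s * sg ρ a1 s)
      (fun s _ => by
        rcases sg_pm (ρ := ρ) a0 s with e | e <;> rcases sg_pm (ρ := ρ) a1 s with e' | e' <;>
          simp [e, e'])
      (fun s hs t ht => by
        rw [sg_mul (S := S) r0.ne_zero c0 s hs t ht, sg_mul (S := S) r1.ne_zero c1 s hs t ht]
        ring) m0 k0 (h.sq r0)
    have hr := h.conj r0 x
    have : x * t0 * x⁻¹ = t0 ∨ x * t0 * x⁻¹ = t1 := by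
      rcases o0 _ _ hr hx with e | e | e
      · exact Or.inl (h.uniq (e ▸ hr) r0)
      · exact Or.inl (h.uniq (e ▸ hr) r0.neg)
      · rcases hR _ _ hr hx e with e | e
        exacts [Or.inr (h.uniq (e ▸ hr) r1), Or.inr (h.uniq (e ▸ hr) r1.neg)]
    rcases this with e | e <;> rw [e] at hx'
    · exact h2 (by linear_combination k0 - hx')
    · exact h2 (by linear_combination k1 - hx')
  by_contra hno
  have no4 : ∀ f r, Rt B ρ f r → B a0 f = 0 → B a1 f = 0 → B a2 f = 0 → False :=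
    fun f r hf e0 e1 e2 => hno ⟨![a0, a1, a2, f], ![t0, t1, t2, r],
      fun i => by fin_cases i <;> assumption, fun i j hij => by
        fin_cases i <;> fin_cases j <;> first | exact absurd rfl hij | assumption |
          (rw [hs]; assumption)⟩
  have u0 : B a0 a0 ≠ 0 := r0.1 ▸ one_ne_zero
  have u1 : B a1 a1 ≠ 0 := r1.1 ▸ one_ne_zero
  have u2 : B a2 a2 ≠ 0 := r2.1 ▸ one_ne_zero
  have rts : ∀ e r, Rt B ρ e r → r ∈ S → B a0 e = 0 → e ∈ Submodule.span F {a1, a2} :=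
    fun e r he hr h0 => by
    obtain ⟨x, y, hx, h3, h4 | ⟨r', h4, h5⟩⟩ := h.perp S r1 m1 he hr
    · refine Submodule.mem_span_pair.2 ⟨x⁻¹ * -y, 0, ?_⟩
      rw [zero_smul, add_zero, mul_smul, inv_smul_eq_iff₀ hx, neg_smul, neg_eq_iff_add_eq_zero,
        add_comm, h4]
    obtain ⟨x', y', hx', h6, h7 | ⟨r'', -, h8⟩⟩ := h.perp S r2 m2 h5 h4
    · refine Submodule.mem_span_pair.2 ⟨(x' * x)⁻¹ * -(x' * y), (x' * x)⁻¹ * -y', ?_⟩
      rw [mul_smul, mul_smul _ (-y'), ← smul_add, inv_smul_eq_iff₀ (mul_ne_zero hx' hx)]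
      linear_combination (norm := module) -h7
    · exact (no4 _ _ h8 (by simp [h0, o01, o02]) (by rw [map_add, map_smul, h3]; simp [o12]) h6).elim
  obtain ⟨n1, d1, e1⟩ := h.extend (by norm_num) ![a0, a1, a2] (fun i => by fin_cases i <;> assumption)
    fun i j hij => by
      fin_cases i <;> fin_cases j <;> first | exact absurd rfl hij | assumption |
        (rw [hs]; assumption)
  have e10 : B a0 n1 = 0 := e1 0
  have e11 : B a1 n1 = 0 := e1 1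
  have e12 : B a2 n1 = 0 := e1 2
  obtain ⟨n2, d2, e2⟩ := h.extend (by norm_num) ![a0, a1, a2, n1]
    (fun i => by fin_cases i <;> assumption) fun i j hij => by
      fin_cases i <;> fin_cases j <;> first | exact absurd rfl hij | assumption |
        (rw [hs]; assumption)
  have e20 : B a0 n2 = 0 := e2 0
  have e21 : B a1 n2 = 0 := e2 1
  have e22 : B a2 n2 = 0 := e2 2
  have e23 : B n1 n2 = 0 := e2 3
  obtain ⟨P, PU, z1, z1', z2, Pn, Pd⟩ := h.exists_pl (K := AlgebraicClosure F) u1 u2 o12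
  obtain ⟨Q, QU, y1, -, -, -, Qd⟩ := h.exists_pl (K := AlgebraicClosure F) d1 d2 e23
  have QU' : ∀ x, x ∈ Q.U ↔ B a0 x = 0 ∧ B a1 x = 0 ∧ B a2 x = 0 := fun x => by
    rw [QU, Submodule.mem_span_pair]
    constructor
    · rintro ⟨c, d, rfl⟩
      simp [e10, e11, e12, e20, e21, e22]
    · rintro ⟨k0, k1, k2⟩
      refine ⟨B n1 x / B n1 n1, B n2 x / B n2 n2, (sub_eq_zero.1 (h.five' u0 u1 u2 d1 d2 o01 o02 e10
        e20 o12 e11 e21 e12 e22 e23 ?_ ?_ ?_ ?_ ?_)).symm⟩ <;>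
      simp [k0, k1, k2, e10, e11, e12, e20, e21, e22, e23, hs n2 n1, d1, d2]
  have mP : ∀ s ∈ S, ρ s a1 ∈ P.U ∧ ρ s a2 ∈ P.U := fun s hs => PU ▸
    ⟨rts _ _ (h.conj r1 s) (mS s hs _ m1) (oS s hs _ o01),
      rts _ _ (h.conj r2 s) (mS s hs _ m2) (oS s hs _ o02)⟩
  have mQ : ∀ s ∈ S, ∀ x ∈ Q.U, ρ s x ∈ Q.U := fun s hs' x hx => by
    obtain ⟨k0, k1, k2⟩ := (QU' x).1 hx
    have k : ∀ v ∈ P.U, B v x = 0 := fun v hv => by
      obtain ⟨c, d, rfl⟩ := Submodule.mem_span_pair.1 (PU ▸ hv)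
      simp [k1, k2]
    obtain ⟨k3, k4⟩ := mP _ (S.inv_mem hs')
    exact (QU' _).2 ⟨oS s hs' x k0, by rw [hs, h.iso', hs, k _ k3], by rw [hs, h.iso', hs, k _ k4]⟩
  have q1 := (QU' n1).2 ⟨e10, e11, e12⟩
  have q2 := (QU' n2).2 ⟨e20, e21, e22⟩
  exact K3.false hG (S := S) ⟨h, r0, r1, r2, m0, m1, m2, o01, o02, o12, c0, no4,
    fun e r he hr => (o0 e r he hr).imp_right (Or.imp_right fun k => PU ▸ rts e r he hr k), PU, z1,
    z1', z2, fun v hv => by rw [Pn v hv, r1.1, map_one, one_mul],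
    fun s hs => Pd s (mP s hs).1 (mP s hs).2, QU', q1, q2, d1, d2, e23, y1,
    fun s hs => Qd s (mQ s hs _ q1) (mQ s hs _ q2)⟩

end Cfsg.Agent.H25.S4
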