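import Cfsg.Agent.H25.GO4
import Cfsg.Agent.H25.Unitary

/-! Extraspecial `2`-groups: symplectic type, the quaternion group over the field of three
elements, and the decomposition `Sp₂ ⊗ O₄⁺`. -/

set_option autoImplicit false
set_option linter.unusedSectionVars false
set_option linter.unusedSimpArgs false
set_option linter.style.haveILetI false

namespace Cfsg.Agent.H25

open Matrix Cfsg.Geo Module
open QuadraticMap (polar)
open scoped Kronecker MatrixGroups commutatorElement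

variable {ι κ μ : Type} [Fintype ι] [DecidableEq ι] [Fintype κ] [DecidableEq κ]
  [Fintype μ] [DecidableEq μ] {F : Type*} [Field F] {ε : F}
  {f : (ι → F) → (ι → F) → F} {H R : Subgroup (GL ι F)}

lemma coe_scal_neg_one : ((scal ι (-1 : Fˣ) : GL ι F) : Matrix ι ι F) = -1 := by
  rw [coe_scal, Units.val_neg, Units.val_one, neg_one_smul]

lemma scal_neg_one_mul_self : (scal ι (-1 : Fˣ) : GL ι F) * scal ι (-1) = 1 := by
  rw [← map_mul, neg_mul_neg, one_mul, map_one]

lemma ES.comm_or [Nonempty ι] (h : ES 2 R) {x y : GL ι F} (hx : x ∈ R) (hy : y ∈ R) :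
    x * y = y * x ∨ x * y = scal ι (-1) * (y * x) := by
  obtain ⟨c, hc, h1⟩ := h.exists_comm hx hy
  have : (c : F) * c = 1 := by rw [← Units.val_mul, ← sq, hc, Units.val_one]
  rcases mul_self_eq_one_iff.1 this with h2 | h2
  · left; rw [h1, show c = 1 from Units.ext h2, map_one, one_mul]
  · right; rw [h1, show c = -1 from Units.ext h2]

lemma ES.sq_or [Nonempty ι] (h : ES 2 R) {x : GL ι F} (hx : x ∈ R) :
    x * x = 1 ∨ x * x = scal ι (-1) := by
  obtain ⟨c, hc⟩ := mem_scalars_iff_scal.1 (h.pow_mem x hx)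
  have h1 := h.pow_eq x hx
  rw [show 2 * Nat.gcd 2 2 = 2 * 2 from rfl, pow_mul, ← hc, ← map_pow, ← map_one (scal ι)] at h1
  have : (c : F) * c = 1 := by rw [← Units.val_mul, ← sq, scal_injective h1, Units.val_one]
  rw [← sq, ← hc]
  rcases mul_self_eq_one_iff.1 this with h2 | h2
  · left; rw [show c = 1 from Units.ext h2, map_one]
  · right; rw [show c = -1 from Units.ext h2]

theorem ES.exists_anticomm (h : ES 2 R) (hn : 3 ≤ Fintype.card ι) {x : GL ι F} (hx : x ∈ R)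
    (hxs : x ∉ scalars ι F) : ∃ y ∈ R, y * y = scal ι (-1) ∧ x * y = scal ι (-1) * (y * x) := by
  haveI : Nonempty ι := Fintype.card_pos_iff.1 (by omega)
  set z : GL ι F := scal ι (-1) with hz
  have hzc : ∀ g, g * z = z * g := fun g => commute_scal _ g
  have hzz : z * z = 1 := scal_neg_one_mul_self
  by_contra hc
  push Not at hc
  have h1 : ∀ y ∈ R, x * y = z * (y * x) → y * y = 1 := fun y hy hxy =>
    (h.sq_or hy).resolve_right fun h' => hc y hy h' hxy
  obtain ⟨y, hy, hxy⟩ : ∃ y ∈ R, x * y = z * (y * x) := by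
    by_contra h2
    push Not at h2
    exact hxs (mem_scalars_of_galg_eq_top h.galg_top fun g hg =>
      (h.comm_or hx hg).resolve_right (h2 g hg))
  have hyy := h1 y hy hxy
  have hinv : ∀ w ∈ R, x * w = w * x → y * w * y = w⁻¹ := fun w hw hxw => by
    have := h1 (y * w) (R.mul_mem hy hw) (by rw [← mul_assoc, hxy]; simp only [mul_assoc, hxw])
    exact eq_inv_of_mul_eq_one_left (by rw [← this]; simp only [mul_assoc])
  have hab : ∀ w ∈ R, x * w = w * x → ∀ w' ∈ R, x * w' = w' * x → w * w' = w' * w :=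
    fun w hw hxw w' hw' hxw' => by
    have h2 := hinv _ (R.mul_mem hw hw') (by rw [← mul_assoc, hxw, mul_assoc, hxw', mul_assoc])
    have h3 : y * (w * w') * y = (y * w * y) * (y * w' * y) := by
      simp only [mul_assoc]
      rw [← mul_assoc y y, hyy, one_mul]
    rw [h3, hinv w hw hxw, hinv w' hw' hxw', ← _root_.mul_inv_rev] at h2
    exact (inv_injective h2).symm
  have hsplit : ∀ g ∈ R, ∃ w ∈ R, x * w = w * x ∧ (g = w ∨ g = y * w) := fun g hg => by
    rcases h.comm_or hx hg with h2 | h2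
    · exact ⟨g, hg, h2, Or.inl rfl⟩
    · refine ⟨y * g, R.mul_mem hy hg, ?_, Or.inr (by rw [← mul_assoc, hyy, one_mul])⟩
      rw [← mul_assoc, hxy, mul_assoc, mul_assoc, h2, ← mul_assoc y z, hzc y, mul_assoc,
        ← mul_assoc z z, hzz, one_mul, mul_assoc]
  have hcen : ∀ w ∈ R, x * w = w * x → w * y = y * w → w ∈ scalars ι F := fun w hw hxw hwy =>
    mem_scalars_of_galg_eq_top h.galg_top fun g hg => by
      obtain ⟨w', hw', h2, rfl | rfl⟩ := hsplit g hg
      · exact hab w hw hxw _ hw' h2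
      · rw [← mul_assoc, hwy, mul_assoc, hab w hw hxw w' hw' h2, mul_assoc]
  have hcx : ∀ w ∈ R, x * w = w * x → ∃ c : F, (w : Matrix ι ι F) = c • 1 ∨
      (w : Matrix ι ι F) = c • ((x⁻¹ : GL ι F) : Matrix ι ι F) := fun w hw hxw => by
    rcases h.comm_or hw hy with h2 | h2
    · obtain ⟨c, hc⟩ := (mem_scalars_iff w).1 (hcen w hw hxw h2)
      exact ⟨c, Or.inl hc⟩
    · obtain ⟨c, hc⟩ := (mem_scalars_iff _).1 (hcen (w * x) (R.mul_mem hw hx)
        (by rw [← mul_assoc, hxw]) (by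
          rw [mul_assoc, hxy, ← mul_assoc w z, hzc w, mul_assoc, ← mul_assoc w y, h2,
            ← mul_assoc, ← mul_assoc, hzz, one_mul, mul_assoc]))
      refine ⟨c, Or.inr ?_⟩
      rw [← mul_one (w : Matrix ι ι F), ← gl_mul_inv x, ← mul_assoc, ← Units.val_mul, hc,
        Matrix.smul_mul, one_mul]
  let b : Fin 4 → Matrix ι ι F := ![1, (x⁻¹ : GL ι F), y, y * (x⁻¹ : GL ι F)]
  have hb : ∀ i, b i ∈ Submodule.span F (Set.range b) := fun i => Submodule.subset_span ⟨i, rfl⟩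
  have h4 : Submodule.span F (Set.range b) = ⊤ := by
    refine Submodule.eq_top_iff'.2 fun a => galg_induction (N := R) (fun g hg => ?_) (zero_mem _)
      (fun _ _ => add_mem) (fun c _ => Submodule.smul_mem _ c) (h.galg_top ▸ Algebra.mem_top)
    obtain ⟨w, hw, h2, rfl | rfl⟩ := hsplit g hg <;> obtain ⟨c, h3 | h3⟩ := hcx _ hw h2
    · rw [h3]; exact Submodule.smul_mem _ c (hb 0)
    · rw [h3]; exact Submodule.smul_mem _ c (hb 1)
    · rw [Units.val_mul, h3, Matrix.mul_smul, mul_one]; exact Submodule.smul_mem _ c (hb 2)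
    · rw [Units.val_mul, h3, Matrix.mul_smul]; exact Submodule.smul_mem _ c (hb 3)
  have h5 := finrank_range_le_card (R := F) b
  rw [Set.finrank, h4, finrank_top, Module.finrank_matrix, Module.finrank_self,
    Fintype.card_fin] at h5
  nlinarith

theorem ES.isSymplecticTypeGroup_two [Finite F] (h : ES 2 R) (hn : 3 ≤ Fintype.card ι) :
    IsSymplecticTypeGroup 2 R := by
  haveI : Nonempty ι := Fintype.card_pos_iff.1 (by omega)
  have h2 := two_ne_zero_of_ES h (by omega)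
  refine h.isSymplecticTypeGroup (by omega) (nb_of_le_normalizer le_rfl) fun A hA hN hc x hx => ?_
  by_contra hxs
  obtain ⟨y, hy, h1, h3⟩ := h.exists_anticomm hn (hA hx) hxs
  have h1' : (y : Matrix ι ι F) * y = -1 := by rw [← Units.val_mul, h1, coe_scal_neg_one]
  have hyi : ((y⁻¹ : GL ι F) : Matrix ι ι F) = -y :=
    Units.inv_eq_of_mul_eq_one_right (by rw [mul_neg, h1', neg_neg])
  let g : GL ι F := glOf (1 + (y : Matrix ι ι F)) ((2 : F)⁻¹ • (1 - y)) (by
    rw [Matrix.mul_smul, add_mul, mul_sub, mul_sub, h1', one_mul, one_mul, mul_one, sub_neg_eq_add,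
      ← add_assoc, sub_add_cancel, ← two_smul F, smul_smul, inv_mul_cancel₀ h2, one_smul])
  have hg : ∀ r : GL ι F, r * y = scal ι (-1) * (y * r) → g * r * g⁻¹ = r * y⁻¹ := fun r hr => by
    rw [mul_inv_eq_iff_eq_mul]
    have := congrArg Units.val hr
    rw [Units.val_mul, Units.val_mul, Units.val_mul, coe_scal_neg_one, neg_one_mul] at this
    refine Units.ext ?_
    change (1 + (y : Matrix ι ι F)) * r = ((r * y⁻¹ : GL ι F) : Matrix ι ι F) * (1 + y)
    rw [Units.val_mul, hyi, mul_assoc, mul_add, neg_mul, neg_mul, h1', mul_one, neg_neg, mul_add,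
      mul_neg, this, neg_neg, mul_one, add_mul, one_mul, add_comm]
  have hgN : g ∈ Subgroup.normalizer (R : Set (GL ι F)) :=
    Subgroup.mem_normalizer_fintype fun r hr => by
      rcases h.comm_or hr hy with h4 | h4
      · have : g * r = r * g := Units.ext (by
          change (1 + (y : Matrix ι ι F)) * r = r * (1 + y)
          rw [add_mul, mul_add, one_mul, mul_one, ← Units.val_mul, ← h4, Units.val_mul])
        rwa [this, mul_inv_cancel_right]
      · rw [hg r h4]; exact R.mul_mem hr (R.inv_mem hy)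
  have h5 := hc x hx _ (hN g hgN x hx)
  rw [hg x h3, mul_assoc, mul_right_inj, eq_inv_mul_iff_mul_eq, ← mul_assoc, mul_inv_eq_iff_eq_mul,
    h3, eq_comm, mul_eq_right] at h5
  have h6 := congrArg Units.val h5
  rw [coe_scal_neg_one, Units.val_one, neg_eq_iff_add_eq_zero, ← two_smul F] at h6
  exact one_ne_zero ((smul_eq_zero.1 h6).resolve_left h2)

/-- The quaternion group over the field of three elements. -/
theorem exists_ES_q8 [Fintype F] (hF : Fintype.card F = 3) :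
    ∃ A : Subgroup (GL (Fin 2) F), ES 2 A ∧ NB ⊤ A ∧ A ≤ specialLinear (Fin 2) F := by
  let e₀ := ZMod.ringEquivOfPrime F Nat.prime_three hF
  let e := e₀.mapMatrix (m := Fin 2)
  let p : Matrix (Fin 2) (Fin 2) F → Prop := fun x => x * x = -1 ∨ x = 1 ∨ x = -1
  let p₀ : Matrix (Fin 2) (Fin 2) (ZMod 3) → Prop := fun x => x * x = -1 ∨ x = 1 ∨ x = -1
  have hp : ∀ x, p (e x) ↔ p₀ x := fun x => by
    simp only [p, p₀]
    rw [← map_mul, ← map_one e, ← map_neg, e.injective.eq_iff, e.injective.eq_iff, e.injective.eq_iff]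
  have k1 : ∀ x y, p₀ x → p₀ y → p₀ (x * y) ∧ (x * y = y * x ∨ x * y = -(y * x)) := by
    decide +kernel
  have k2 : ∀ x, p₀ x → x.det = 1 := by decide +kernel
  have k3 : ∀ a : Matrix (Fin 2) (Fin 2) (ZMod 3), ∃ c₀ c₁ c₂ c₃ : ZMod 3,
      a = c₀ • 1 + c₁ • !![0, -1; 1, 0] + c₂ • !![1, 1; 1, -1] + c₃ • !![-1, 1; 1, 1] := by
    decide +kernel
  have k1' : ∀ x y, p x → p y → p (x * y) ∧ (x * y = y * x ∨ x * y = -(y * x)) := by
    intro x y hx hy
    obtain ⟨x, rfl⟩ := e.surjective x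
    obtain ⟨y, rfl⟩ := e.surjective y
    obtain ⟨h1, h2⟩ := k1 x y ((hp x).1 hx) ((hp y).1 hy)
    rw [← map_mul, ← map_mul, ← map_neg, hp, e.injective.eq_iff, e.injective.eq_iff]
    exact ⟨h1, h2⟩
  have hsq : ∀ x, p x → x * x = 1 ∨ x * x = -1 := by
    rintro x (h | rfl | rfl)
    · exact Or.inr h
    · exact Or.inl (one_mul _)
    · exact Or.inl (by rw [neg_mul_neg, one_mul])
  let A : Subgroup (GL (Fin 2) F) :=
    { carrier := {g | p g}
      mul_mem' := fun {a b} ha hb => (k1' _ _ ha hb).1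
      one_mem' := Or.inr (Or.inl rfl)
      inv_mem' := fun {a} ha => by
        rcases hsq _ ha with h | h
        · rwa [inv_eq_of_mul_eq_one_right (Units.ext h : a * a = 1)]
        · left
          rw [← Units.val_mul, ← _root_.mul_inv_rev]
          exact Units.inv_eq_of_mul_eq_one_right (by rw [Units.val_mul, h, neg_mul_neg, one_mul]) }
  have hgal : ∀ x, p x → x ∈ galg A := fun x hx => by
    rcases hsq x hx with h | h
    · exact coe_mem_galg (g := glOf x x h) hx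
    · exact coe_mem_galg (g := glOf x (-x) (by rw [mul_neg, h, neg_neg])) hx
  have hsc : ∀ g : GL (Fin 2) F, (g : Matrix (Fin 2) (Fin 2) F) = 1 ∨
      (g : Matrix (Fin 2) (Fin 2) F) = -1 → g ∈ scalars (Fin 2) F := by
    rintro g (h | h)
    · exact mem_scalars_of_eq_smul (c := 1) (by rw [h, one_smul])
    · exact mem_scalars_of_eq_smul (c := -1) (by rw [h, neg_one_smul])
  refine ⟨A, ⟨Nat.prime_two, eq_top_iff.2 fun a _ => ?_, fun x hx y hy => hsc _ ?_,
    fun x hx => hsc _ (by rw [sq]; exact hsq _ hx), fun x hx => Units.ext ?_, fun z hz _ => ?_⟩,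
    fun g _ x hx => ?_, fun x hx => ?_⟩
  · obtain ⟨a, rfl⟩ := e.surjective a
    obtain ⟨c₀, c₁, c₂, c₃, rfl⟩ := k3 a
    have hs : ∀ (c : ZMod 3) x, p₀ x → e (c • x) ∈ galg A := fun c x hx => by
      have : e (c • x) = e₀ c • e x := by
        ext i j
        simp [e]
      rw [this]
      exact Subalgebra.smul_mem _ (hgal _ ((hp x).2 hx)) _
    simp only [map_add]
    exact add_mem (add_mem (add_mem (hs _ _ (by decide)) (hs _ _ (by decide))) (hs _ _ (by decide)))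
      (hs _ _ (by decide))
  · have : ((⁅x, y⁆ : GL (Fin 2) F) : Matrix (Fin 2) (Fin 2) F) =
        (x * y : Matrix (Fin 2) (Fin 2) F) * ((y * x)⁻¹ : GL (Fin 2) F) := by
      rw [commutatorElement_def, _root_.mul_inv_rev, mul_assoc (x * y), Units.val_mul, Units.val_mul]
    rw [this]
    rcases (k1' _ _ hx hy).2 with h | h <;> rw [h, ← Units.val_mul]
    · exact Or.inl (gl_mul_inv _)
    · exact Or.inr (by rw [neg_mul, gl_mul_inv])
  · rw [show 2 * Nat.gcd 2 2 = 2 * 2 from rfl, pow_mul, sq, sq, Units.val_mul, Units.val_mul]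
    rcases hsq _ hx with h | h <;> rw [h]
    · exact one_mul _
    · rw [neg_mul_neg, one_mul, Units.val_one]
  · obtain ⟨c, hc⟩ := (mem_scalars_iff z).1 hz
    rcases mul_self_eq_one_iff.1 (mul_self_of_card_le_three hF.le c.ne_zero) with h | h
    · exact Or.inr (Or.inl (by rw [hc, h, one_smul]))
    · exact Or.inr (Or.inr (by rw [hc, h, neg_one_smul]))
  · change p _
    rw [← cj_coe]
    rcases hx with h | h | h
    · left; rw [← map_mul, h, map_neg, map_one]
    · right; left; rw [h, map_one]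
    · right; right; rw [h, map_neg, map_one]
  · obtain ⟨y, hy⟩ := e.surjective x
    refine Units.ext ?_
    rw [Matrix.GeneralLinearGroup.val_det_apply, ← hy, Units.val_one, ← map_one e₀,
      ← k2 y ((hp y).1 (hy ▸ hx))]
    exact (RingEquiv.map_det e₀ y).symm

lemma scalars_le_isom [Fintype F] [Nonempty ι] (hF : Fintype.card F ≤ 3) (h : Sq (idF F) ε f) :
    scalars ι F ≤ isom f := fun z hz => by
  obtain ⟨c, rfl⟩ := mem_scalars_iff_scal.1 hz
  exact (scal_mem_isom_iff h).2 (mul_self_of_card_le_three hF c.ne_zero)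

lemma TensorData.kronSub_le_isom {σ : F ≃+* F} {a b : ℕ} {T : (Fin a × Fin b → F) ≃ₗ[F] (ι → F)}
    {ε₁ ε₂ : F} {f₁ : (Fin a → F) → (Fin a → F) → F} {f₂ : (Fin b → F) → (Fin b → F) → F}
    (h : TensorData σ f T ε₁ ε₂ f₁ f₂) (hf : Sq σ ε f) {A : Subgroup (GL (Fin a) F)}
    {B : Subgroup (GL (Fin b) F)} (hA : A ≤ isom f₁) (hB : B ≤ isom f₂) :
    kronSub T A B ≤ isom f := by
  rintro g ⟨x, hx, y, hy, hg⟩
  refine mem_isom.2 (hf.fixes_of_adj ?_)
  rw [hg, h.adj_kron, h.sq₁.adj_of_fixes (fixesForm_iff.2 hA) hx,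
    h.sq₂.adj_of_fixes (fixesForm_iff.2 hB) hy, ← map_mul, ← Matrix.mul_kronecker_mul, gl_inv_mul,
    gl_inv_mul, Matrix.one_kronecker_one, map_one]

lemma specialLinear_le_isom_alt2 {f₁ : (Fin 2 → F) → (Fin 2 → F) → F} (h : Sq (idF F) ε f₁)
    (ha : ∀ v, f₁ v v = 0) : specialLinear (Fin 2) F ≤ isom f₁ := fun g hg => mem_isom.2 fun u v => by
  have : (g : Matrix (Fin 2) (Fin 2) F).det = 1 := congrArg Units.val (MonoidHom.mem_ker.1 hg)
  rw [h.sesq.eq_det2 ha, h.sesq.eq_det2 ha u, det2_mulVec, this, one_mul]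

lemma cj_kron {g : GL (κ × μ) F} {x : GL κ F} {y : GL μ F}
    (h : (g : Matrix (κ × μ) (κ × μ) F) = (x : Matrix κ κ F) ⊗ₖ (y : Matrix μ μ F))
    (a : Matrix κ κ F) (b : Matrix μ μ F) : cj g (a ⊗ₖ b) = cj x a ⊗ₖ cj y b := by
  rw [cj_apply, Units.inv_eq_of_mul_eq_one_right
    (a := ((x⁻¹ : GL κ F) : Matrix κ κ F) ⊗ₖ ((y⁻¹ : GL μ F) : Matrix μ μ F)) (by
      rw [h, ← Matrix.mul_kronecker_mul, gl_mul_inv, gl_mul_inv, Matrix.one_kronecker_one]),
    h, ← Matrix.mul_kronecker_mul, ← Matrix.mul_kronecker_mul, cj_apply, cj_apply]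

/-- Conjugation by a similarity of the plus-type space of dimension four. -/
lemma go4_cj (h2 : (2 : F) ≠ 0) {f₂ : (κ → F) → (κ → F) → F}
    {S : (Fin 2 × Fin 2 → F) ≃ₗ[F] (κ → F)} (hS : ∀ u v, f₂ (S u) (S v) = g4 F u v)
    {y : GL κ F} (hy : y ∈ similarityGroup f₂) : ∃ a b : GL (Fin 2) F,
      (∀ u v, cj y (conjT S (u ⊗ₖ v)) = conjT S (cj a u ⊗ₖ cj b v)) ∨
      ∀ u v, cj y (conjT S (u ⊗ₖ v)) = conjT S (cj b v ⊗ₖ cj a u) := by
  obtain ⟨m, hm⟩ := hy
  obtain ⟨a, b, h | h⟩ := go4_cases h2 (y := pullGL (conjT S) y) ⟨m, fun u v => by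
    rw [← hS, ← hS, ← conjT_mulVec, ← conjT_mulVec, map_pullGL, hm]⟩
  · exact ⟨a, b, Or.inl fun u v => by rw [← map_cj_pullGL, cj_kron h]⟩
  · refine ⟨a, b, Or.inr fun u v => ?_⟩
    rw [← map_cj_pullGL, ← cj_swapG (cj a u), ← cj_kron h, ← cj_mul, ← mul_assoc,
      show swapG F * swapG F = 1 from Units.ext swapM_mul_self, one_mul]

/-- The extraspecial group `2₊^{1+4}` normalised by `GO₄⁺(3)`. -/
theorem exists_ES_o4 [Fintype F] (hF : Fintype.card F = 3) {f₂ : (Fin 4 → F) → (Fin 4 → F) → F}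
    (h : Sq (idF F) 1 f₂) (hp : IsPlusTypeOn (fun v => f₂ v v) ⊤) :
    ∃ B : Subgroup (GL (Fin 4) F), ES 2 B ∧ NB (similarityGroup f₂) B ∧ B ≤ isom f₂ := by
  have h2 : (2 : F) ≠ 0 := two_ne_zero_of_odd (by rw [hF]; decide)
  obtain ⟨A, hA, hN, hS⟩ := exists_ES_q8 hF
  obtain ⟨S, hS'⟩ := exists_g4_iso h2 h hp
  obtain ⟨B, hB, h1, -, h3⟩ := exists_ES_kron S hA hA
  refine ⟨B, hB, h3 _ ?_, h1.trans (sup_le ?_ (scalars_le_isom hF.le h))⟩
  · rintro y hy k ⟨u, hu, v, hv, hk⟩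
    obtain ⟨a, b, h4 | h4⟩ := go4_cj h2 hS' hy
    · exact ⟨_, hN a trivial u hu, _, hN b trivial v hv, by rw [← cj_coe, hk, h4, cj_coe, cj_coe]⟩
    · exact ⟨_, hN b trivial v hv, _, hN a trivial u hu, by rw [← cj_coe, hk, h4, cj_coe, cj_coe]⟩
  · rintro k ⟨u, hu, v, hv, hk⟩
    refine mem_isom.2 fun x y => ?_
    obtain ⟨x, rfl⟩ := S.surjective x
    obtain ⟨y, rfl⟩ := S.surjective y
    have hu' : (u : Matrix (Fin 2) (Fin 2) F).det = 1 :=
      congrArg Units.val (MonoidHom.mem_ker.1 (hS hu))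
    have hv' : (v : Matrix (Fin 2) (Fin 2) F).det = 1 :=
      congrArg Units.val (MonoidHom.mem_ker.1 (hS hv))
    rw [hk, conjT_mulVec, conjT_mulVec, hS', hS', g4_kron, hu', hv', one_mul, one_mul]

section Sp8

variable {T : (Fin 2 × Fin 4 → F) ≃ₗ[F] (ι → F)} {f₁ : (Fin 2 → F) → (Fin 2 → F) → F}
  {f₂ : (Fin 4 → F) → (Fin 4 → F) → F}

theorem TensorData.exists_ES_three [Fintype F] (hF : Fintype.card F = 3) (hf : Sq (idF F) ε f)
    (h : TensorData (idF F) f T (-1) 1 f₁ f₂) (hp : IsPlusTypeOn (fun v => f₂ v v) ⊤)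
    (hT : PresT H T) (hH : H ≤ similarityGroup f) :
    ∃ R : Subgroup (GL ι F), ES 2 R ∧ NB H R ∧ R ≤ isom f := by
  haveI : Nonempty ι := Fintype.card_pos_iff.1 (by rw [card_eq_of_linearEquiv T]; simp)
  have h2 : (2 : F) ≠ 0 := two_ne_zero_of_odd (by rw [hF]; decide)
  obtain ⟨A, hA, hN, hS⟩ := exists_ES_q8 hF
  obtain ⟨B, hB, hN', hS'⟩ := exists_ES_o4 hF h.sq₂ hp
  obtain ⟨R, hR, h1, -, h3⟩ := exists_ES_kron T hA hB
  exact ⟨R, hR, h3 _ (hT.nb_kronSub (hN.mono le_top)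
    (hN'.mono (h.swap.fac1_le hf (by omega) (by omega) hH))),
    h1.trans (sup_le (h.kronSub_le_isom hf (hS.trans (specialLinear_le_isom_alt2 h.sq₁
      (h.sq₁.alt_of_two_ne_zero h2))) hS') (scalars_le_isom hF.le hf))⟩

theorem TensorData.exists_cube [Finite F] (h2 : (2 : F) ≠ 0) (hf : Sq (idF F) ε f)
    (h : TensorData (idF F) f T (-1) 1 f₁ f₂) (hp : IsPlusTypeOn (fun v => f₂ v v) ⊤)
    (hT : PresT H T) (hH : H ≤ similarityGroup f) :
    ∃ (e : ι ≃ (Fin 3 → Fin 2)) (P : GL ι F), IsTensorPowerFormStructure id f det2 e P ∧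
      H ≤ tensorWreathSubgroup 2 3 e P := by
  haveI : Nonempty ι := Fintype.card_pos_iff.1 (by rw [card_eq_of_linearEquiv T]; simp)
  obtain ⟨S, hS⟩ := exists_g4_iso h2 h.sq₂ hp
  have hS' : (fun u v => f₂ (S u) (S v)) = g4 F := funext fun u => funext (hS u)
  let χ : Matrix (Fin 2 × Fin 2) (Fin 2 × Fin 2) F →ₐ[F] Matrix ι ι F :=
    (conjT T).toAlgHom.comp ((kronR (Fin 2) (Fin 4) F).comp (conjT S).toAlgHom)
  let ψ : Fin 3 → (Matrix (Fin 2) (Fin 2) F →ₐ[F] Matrix ι ι F) :=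
    ![(conjT T).toAlgHom.comp (kronL (Fin 2) (Fin 4) F), χ.comp (kronL (Fin 2) (Fin 2) F),
      χ.comp (kronR (Fin 2) (Fin 2) F)]
  have h0 : ∀ a, ψ 0 a = conjT T (a ⊗ₖ 1) := fun _ => rfl
  have h1 : ∀ a, ψ 1 a = conjT T (1 ⊗ₖ conjT S (a ⊗ₖ 1)) := fun _ => rfl
  have h3 : ∀ a, ψ 2 a = conjT T (1 ⊗ₖ conjT S (1 ⊗ₖ a)) := fun _ => rfl
  obtain ⟨T', hT'⟩ := exists_tensorPow ψ (fun s s' hs a b => by
      fin_cases s <;> fin_cases s' <;> first
        | exact absurd rfl hs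
        | (simp only [Commute, SemiconjBy, Fin.zero_eta, Fin.mk_one, Fin.reduceFinMk, h0, h1, h3,
            ← map_mul, ← Matrix.mul_kronecker_mul, mul_one, one_mul])) fun B hB => by
    refine eq_top_iff.2 fun x _ => ?_
    obtain ⟨x, rfl⟩ := (conjT T).surjective x
    induction x using kron_induction with
    | hadd x y hx hy => rw [map_add]; exact add_mem (hx trivial) (hy trivial)
    | h0 => rw [map_zero]; exact zero_mem _
    | hk a b =>
      rw [← kronL_mul_kronR, map_mul]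
      refine mul_mem (hB 0 a) ?_
      obtain ⟨b, rfl⟩ := (conjT S).surjective b
      change χ b ∈ B
      induction b using kron_induction with
      | hadd x y hx hy => rw [map_add]; exact add_mem (hx trivial) (hy trivial)
      | h0 => rw [map_zero]; exact zero_mem _
      | hk a b => rw [← kronL_mul_kronR, map_mul]; exact mul_mem (hB 1 a) (hB 2 b)
  have hone : (1 : Matrix (Fin 2) (Fin 2) F).trace • (1 : Matrix (Fin 2) (Fin 2) F) - 1 = 1 := by
    rw [Matrix.trace_one, Fintype.card_fin, Nat.cast_ofNat, two_smul, add_sub_cancel_right]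
  have hP := powData_of_adj hf (T := T') (by omega) sq_det2 (Or.inr ⟨rfl, rfl⟩) fun s a => by
    rw [← hT', ← hT', adj_det2]
    fin_cases s
    · change adj _ f (ψ 0 a) = ψ 0 _
      rw [h0, h0, h.adj_kron, h.sq₂.adj_one, h.sq₁.eq_adj (b := adj (idF F) det2 a), adj_det2]
      intro u v
      have ha := h.sq₁.alt_of_two_ne_zero h2
      rw [h.sq₁.sesq.eq_det2 ha, h.sq₁.sesq.eq_det2 ha u, sq_det2.adj_spec]
    · change adj _ f (ψ 1 a) = ψ 1 _
      rw [h1, h1, h.adj_kron, h.sq₁.adj_one, h.sq₂.adj_conjT, hS', adj_g4, hone]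
    · change adj _ f (ψ 2 a) = ψ 2 _
      rw [h3, h3, h.adj_kron, h.sq₁.adj_one, h.sq₂.adj_conjT, hS', adj_g4, hone]
  obtain ⟨e, P, rfl⟩ := exists_frame T'
  refine ⟨e, P, hP.isTensorPowerFormStructure, le_tensorWreathSubgroup e P H fun g hg => ?_⟩
  obtain ⟨x, y, hxy⟩ := hT g hg
  simp only [← hT']
  obtain ⟨a, b, h4 | h4⟩ := go4_cj h2 hS (h.mem_sim hf (by omega) (by omega) (hH hg) hxy).2
  · refine ⟨1, fun s u => ?_⟩
    fin_cases s
    · exact ⟨cj x u, (by rw [h0, h0, cj_conjT_kron hxy, map_one] : cj g (ψ 0 u) = ψ 0 _)⟩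
    · exact ⟨cj a u, (by rw [h1, h1, cj_conjT_kron hxy, h4, map_one, map_one] :
        cj g (ψ 1 u) = ψ 1 _)⟩
    · exact ⟨cj b u, (by rw [h3, h3, cj_conjT_kron hxy, h4, map_one, map_one] :
        cj g (ψ 2 u) = ψ 2 _)⟩
  · refine ⟨Equiv.swap 1 2, fun s u => ?_⟩
    fin_cases s
    · exact ⟨cj x u, (by rw [h0, h0, cj_conjT_kron hxy, map_one] : cj g (ψ 0 u) = ψ 0 _)⟩
    · exact ⟨cj a u, (by rw [h1, h3, cj_conjT_kron hxy, h4, map_one, map_one] :
        cj g (ψ 1 u) = ψ 2 _)⟩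
    · exact ⟨cj b u, (by rw [h3, h1, cj_conjT_kron hxy, h4, map_one, map_one] :
        cj g (ψ 2 u) = ψ 1 _)⟩

end Sp8

end Cfsg.Agent.H25
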