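import Cfsg.Agent.H25.UGDefs

/-! # Project UG: assembly -/

set_option autoImplicit false

namespace Cfsg.Agent.H25.UG

open Cfsg Module Cfsg.Agent.H31 Cfsg.Agent.H77.Sg
open Cfsg.Agent.H53.Uw (St fx Sk)

universe u

/-- the pieces -/
structure Pieces : Prop where
  zt : ZtStmt.{u}
  fn : FunStmt.{u}
  orb1 : Orb1Stmt.{u}
  lev1 : Lev1Stmt.{u}
  lev7 : Lev7Stmt.{u}
  poly : PolyStmt.{u}
  q2 : Q2Stmt.{u}
  iso : IsoStmt.{u}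
  syl : SylStmt.{u}
  tv0 : Tv0Stmt.{u}
  tvk : TvkStmt.{u}
  l3 : L3Stmt.{u}
  tv1 : Tv1Stmt.{u}
  tv3 : Tv3Stmt.{u}
  tv2a : Tv2aStmt.{u}
  tv2b : Tv2bStmt.{u}
  gen : GenStmt.{u}

namespace Pieces

variable (Q : Pieces.{u})
include Q

theorem hasT {E V : Type u} [Field E] [Fintype E] [AddCommGroup V] [Module E V] [Finite V]
    {σ : E →+* E} {B : V →ₛₗ[σ] V →ₗ[E] E} {q : ℕ} {G : Subgroup (V ≃ₗ[E] V)} (hs : St B q)
    (h7 : finrank E V = 7) (hG : G ≤ isom B) (h : Tr1 B G) : HasT B G := by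
  obtain ⟨S, W, v, hS, hy⟩ := Q.syl E V σ B q G hs h7 hG h
  obtain ⟨e₁, e₂, e₃, x, y, z, a₁, a₂, a₃, hm⟩ := Q.tv0 E V σ B q S W v hs h7 hy
  have key : HasT B S := by
    by_contra hn
    have c₀ := Q.tvk E V σ B q S e₁ e₂ e₃ v x y z a₁ a₂ a₃ hs h7 hm hn
    have c : Co σ q x y z a₁ a₂ a₃ :=
      ⟨c₀, Q.l3 E V σ B q S e₁ e₂ e₃ v x y z a₁ a₂ a₃ hs h7 hm hn⟩
    have h3 := Q.tv1 E S σ q x y z a₁ a₂ a₃ hs.card hs.pow c
    have h2 := Q.tv3 E S σ q x y z a₁ a₂ a₃ hs.card hs.pow c h3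
    obtain ⟨k1, k2⟩ := Q.tv2a E S σ q x y z a₁ a₂ a₃ hs.card hs.pow c₀
      fun n a b d => ⟨h2 n a b d, h3 n a b d⟩
    exact hn (Q.tv2b E V σ B q S e₁ e₂ e₃ v x y z a₁ a₂ a₃ hs h7 hm k1 k2)
  obtain ⟨w, c, hw, hc, h1, h2, h3⟩ := key
  exact ⟨w, c, hw, hc, h1, h2, hS h3⟩

theorem main : MainStmt.{u} := by
  intro E K _ _ _ _ _ σ B q R t G c
  obtain ⟨ψ, I, h, f⟩ := Q.fn E K σ B q R t G c (Q.zt E K σ B q R t c.toKt)
  have h1 : Tr1 B G := by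
    rcases c.q2.eq_or_lt with rfl | h3
    · obtain ⟨rfl, rfl⟩ := c.two rfl
      exact Q.q2 E K σ B G ψ I h c f
    by_contra hn
    have h2 := Q.orb1 E K σ B q G c.st c.rk c.le hn
    have h4 : q ≤ I.card + 1 := by have := f.orb; omega
    rcases c.hR with ⟨rfl, -⟩ | ⟨rfl, -⟩
    · obtain ⟨z, hz, e⟩ := Q.lev1 E K σ B q t G ψ I h c f h4
      exact Q.poly E K σ B q t c.toKt h3 z hz e
    · exact Q.lev7 E K σ B q t G ψ I h c f h4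
  exact Q.gen E K σ B q G c.st c.rk c.le (Q.hasT c.st c.rk c.le h1)
    (Q.iso E K σ B q R t G ψ I h c f h1)

end Pieces

end Cfsg.Agent.H25.UG
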