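import Cfsg.Agent.H77.SgDefs2
import Cfsg.Agent.H51.SgKit
import Cfsg.Agent.H53.UwDefs

/-!
Project UG: overgroups of the normaliser of the unitary Singer cycle in `SU_7(q)`.
Definitions and the statements of the pieces.  Proofs: `stubs/notes/h25_ug.md`.
-/

set_option autoImplicit false

namespace Cfsg.Agent.H25.UG

open Cfsg Module Cfsg.Agent.H31 Cfsg.Agent.H77.Sg
open Cfsg.Agent.H53.Uw (St fx Sk)

universe u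

/-- The `m`-th roots of unity. -/
abbrev Rt (K : Type u) [Field K] (m : ℕ) : Subgroup Kˣ := (powMonoidHom m : Kˣ →* Kˣ).ker

/-- The linear characters of the scalars of norm one. -/
abbrev Ch (K : Type u) [Field K] (q : ℕ) : Type u := Rt K (q + 1) →* ℂˣ

/-- The Cayley transform. -/
def kap {K : Type u} [Field K] (s : Kˣ) : K := (s : K) / ((s : K) - 1)

open Classical in
/-- The indicator of the trivial character. -/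
noncomputable def dl {K : Type u} [Field K] {q : ℕ} (ν : Ch K q) : ℂ := if ν = 1 then 1 else 0

section Model

variable {E K : Type u} [Field E] [Field K] [Algebra E K] {σ : E →+* E}

/-- The Weil character (dimension seven). -/
noncomputable def wo (q : ℕ) (g : K ≃ₗ[E] K) : ℂ := -(-(q : ℂ)) ^ finrank E (fx g)

/-- Its component over the central character `ν`. -/
noncomputable def ze (q : ℕ) (ν : Ch K q) (g : K ≃ₗ[E] K) : ℂ :=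
  ((q : ℂ) + 1)⁻¹ * ∑ᶠ z : Rt K (q + 1), (((ν z)⁻¹ : ℂˣ) : ℂ) * wo q (mulH E K z * g)

/-- The matrix coefficient on the torus belonging to a linear character of `G`. -/
noncomputable def hm (q : ℕ) {G : Subgroup (K ≃ₗ[E] K)} (μ : G →* ℂˣ) (s : Kˣ) : ℂ :=
  (Nat.card G : ℂ)⁻¹ * ∑ᶠ g : G, (((μ g)⁻¹ : ℂˣ) : ℂ) * wo q (mulH E K s * g.1)

/-- The Fourier-Gauss transform. -/
noncomputable def Th (q : ℕ) (ψ : AddChar E ℂ) (f : K → ℂ) (x : K) : ℂ :=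
  ∑ᶠ u : K, f u * ψ (Algebra.trace E K (u ^ (q ^ 7 + 1) * x))

/-- Invariant functions. -/
def Inv (G : Subgroup (K ≃ₗ[E] K)) (f : K → ℂ) : Prop := ∀ g ∈ G, ∀ u, f (g u) = f u

/-- The number of orbits on vectors. -/
noncomputable def nO (G : Subgroup (K ≃ₗ[E] K)) : ℕ := Nat.card (MulAction.orbitRel.Quotient G K)

/-- Scalar maps. -/
def Sc (g : K ≃ₗ[E] K) : Prop := ∃ a : E, ∀ x, g x = a • x

/-- The component over `ν` is a linear character, trivial on `P`, plus an irreducible one. -/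
def Spl (G : Subgroup (K ≃ₗ[E] K)) (q t : ℕ) (ν : Ch K q) : Prop :=
  ∃ (μ : G →* ℂˣ) (χ : G → ℂ), IsIrrCharacter G χ ∧ (χ ≠ fun g => (μ g : ℂ)) ∧
    (∀ g : G, ze q ν g.1 = μ g + χ g) ∧ ∀ g : G, g.1 ∈ Pt E K t → μ g = 1

variable (E) in
/-- Invariance under the translations. -/
def TI (q : ℕ) (h : Kˣ → ℂ) : Prop :=
  ∀ s ∈ Rt K (q ^ 7 + 1), ∀ s' ∈ Rt K (q ^ 7 + 1), s ∉ Rt K (q + 1) → s' ∉ Rt K (q + 1) →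
    ∀ c : E, kap s' = kap s + algebraMap E K c → h s' = h s

variable (σ) in
/-- Invariance under the affine maps. -/
def AI (q : ℕ) (h : Kˣ → ℂ) : Prop :=
  ∀ s ∈ Rt K (q ^ 7 + 1), ∀ s' ∈ Rt K (q ^ 7 + 1), s ∉ Rt K (q + 1) → s' ∉ Rt K (q + 1) →
    ∀ r c : E, σ r = r → r ≠ 0 → kap s' = algebraMap E K r * kap s + algebraMap E K c → h s' = h s

variable (σ) in
/-- The class `z P ∖ z` is invariant under the translations. -/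
def Cl (t : ℕ) (z : Kˣ) : Prop :=
  ∀ c : E, c + σ c = 0 → ∀ p ∈ Rt K t, p ≠ 1 → ∃ p' ∈ Rt K t, p' ≠ 1 ∧
    kap (z * p') = kap (z * p) + algebraMap E K c

variable [Fintype E] (B : K →ₛₗ[σ] K →ₗ[E] E)

/-- The field model of the unitary space. -/
structure Fd (q R t : ℕ) : Prop where
  st : St B q
  rk : finrank E K = 7
  form : ∀ x y, B x y = Algebra.trace E K (x ^ q ^ 7 * y)
  card : q ^ 7 + 1 = R * (q + 1) * t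
  hR : (R = 1 ∧ ¬ 7 ∣ q + 1) ∨ (R = 7 ∧ 7 ∣ q + 1)

/-- Elementary consequences.  `Z = Rt K (q+1)`, `P = Rt K t`, `T = Rt K (q^7+1)`. -/
structure Kt (q R t : ℕ) : Prop extends Fd B q R t where
  pp : ∃ p f : ℕ, p.Prime ∧ CharP E p ∧ CharP K p ∧ 0 < f ∧ q = p ^ f
  q2 : 2 ≤ q
  copq : t.Coprime q
  cop1 : t.Coprime (q + 1)
  cop2 : t.Coprime (q ^ 2 - 1)
  cop7 : t.Coprime 7
  t43 : 43 ≤ t
  big : 3 ≤ q → (7 * R) ^ 2 + 1 < t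
  q13 : R = 7 → 13 ≤ q
  two : q = 2 → R = 1 ∧ t = 43
  pr29 : ∀ l : ℕ, l.Prime → l ∣ t → 29 ≤ l
  cardK : Nat.card K = q ^ 14
  cardZ : Nat.card (Rt K (q + 1)) = q + 1
  cardP : Nat.card (Rt K t) = t
  cardT : Nat.card (Rt K (q ^ 7 + 1)) = q ^ 7 + 1
  cardPt : Nat.card (Pt E K t) = t
  cardCh : Nat.card (Ch K q) = q + 1
  cardS : Nat.card {c : E // c + σ c = 0} = q
  ZT : Rt K (q + 1) ≤ Rt K (q ^ 7 + 1)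
  PT : Rt K t ≤ Rt K (q ^ 7 + 1)
  ZP : ∀ s ∈ Rt K (q + 1), s ∈ Rt K t → s = 1
  zE : ∀ z ∈ Rt K (q + 1), ∃ c : E, c * σ c = 1 ∧ (z : K) = algebraMap E K c
  Ez : ∀ c : E, c * σ c = 1 → ∃ z ∈ Rt K (q + 1), (z : K) = algebraMap E K c
  tE : ∀ s ∈ Rt K (q ^ 7 + 1), ∀ c : E, (s : K) = algebraMap E K c → s ∈ Rt K (q + 1)
  iso : ∀ s : Kˣ, mulH E K s ∈ isom B ↔ s ∈ Rt K (q ^ 7 + 1)
  bar : ∃ τ : K ≃+* K, (∀ x, τ x = x ^ q ^ 7) ∧ (∀ x, τ (τ x) = x) ∧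
    ∀ c : E, τ (algebraMap E K c) = algebraMap E K (σ c)
  kapT : ∀ s ∈ Rt K (q ^ 7 + 1), s ≠ 1 → kap s + kap s ^ q ^ 7 = 1
  kapI : ∀ s s' : Kˣ, s ≠ 1 → s' ≠ 1 → kap s = kap s' → s = s'
  kapS : ∀ x : K, x + x ^ q ^ 7 = 1 → ∃ s ∈ Rt K (q ^ 7 + 1), s ≠ 1 ∧ kap s = x
  kapZ : ∀ s ∈ Rt K (q ^ 7 + 1), s ≠ 1 →
    (s ∈ Rt K (q + 1) ↔ ∃ c : E, kap s = algebraMap E K c)
  /-- translations by skew elements act on `T ∖ Z` -/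
  trn : ∀ s ∈ Rt K (q ^ 7 + 1), s ∉ Rt K (q + 1) → ∀ c : E, c + σ c = 0 →
    ∃ s' ∈ Rt K (q ^ 7 + 1), s' ∉ Rt K (q + 1) ∧ kap s' = kap s + algebraMap E K c

/-- The standing hypotheses on the overgroup. -/
structure Cu (q R t : ℕ) (G : Subgroup (K ≃ₗ[E] K)) : Prop extends Kt B q R t where
  le : G ≤ isom B
  mem : ∀ a : Kˣ, mulH E K a ∈ G ↔ ∃ z ∈ Rt K (q + 1), ∃ s ∈ Rt K t, a = z * s
  frob : ∃ φ ∈ G, ∀ x, φ x = x ^ q ^ 2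
  nn : ∃ g ∈ G, ¬ Nm g

/-- The components of the Weil character. -/
structure Zt (q R t : ℕ) : Prop where
  chr : ∀ G : Subgroup (K ≃ₗ[E] K), G ≤ isom B → (∀ z ∈ Rt K (q + 1), mulH E K z ∈ G) →
    ∀ ν : Ch K q, IsCharacter G fun g => ze q ν g.1
  sum : ∀ g : K ≃ₗ[E] K, ∑ᶠ ν : Ch K q, ze q ν g = wo q g
  deg : ∀ ν : Ch K q, ze q ν (1 : K ≃ₗ[E] K) = (R * t : ℕ) - dl ν
  val : ∀ ν : Ch K q, ∀ s ∈ Rt K (q ^ 7 + 1), s ∉ Rt K (q + 1) → ze q ν (mulH E K s) = -dl ν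
  cen : ∀ (ν : Ch K q) (z : Rt K (q + 1)) (g : K ≃ₗ[E] K),
    ze q ν (mulH E K z * g) = ν z * ze q ν g
  com : ∀ (z : Rt K (q + 1)) (g : K ≃ₗ[E] K), mulH E K z * g = g * mulH E K z
  cls : ∀ g k : K ≃ₗ[E] K, wo q (k * g * k⁻¹) = wo q g
  sq : ∀ g : K ≃ₗ[E] K, wo q g * wo q g = Nat.card {x : K // g x = x}

/-- The data extracted from the Weil representation. -/
structure Wr (q : ℕ) (ψ : AddChar E ℂ) (a L : (K ≃ₗ[E] K) → K → ℂ) : Prop where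
  sk : Sk σ ψ
  inv : ∀ g ∈ isom B, ∀ k ∈ isom B, ∀ u, a (k * g * k⁻¹) (k u) = a g u
  tr : ∀ g ∈ isom B, ∀ g' ∈ isom B, wo q (g' * g) = ∑ᶠ u : K, a g u * L g' u
  val : ∀ s ∈ Rt K (q ^ 7 + 1), s ≠ 1 → ∀ u,
    L (mulH E K s) u = -ψ (Algebra.trace E K (u ^ (q ^ 7 + 1) * kap s))

/-- The functions on the torus. -/
structure Fn (q t : ℕ) (G : Subgroup (K ≃ₗ[E] K)) (ψ : AddChar E ℂ) (I : Finset (Ch K q))
    (h : Ch K q → Kˣ → ℂ) : Prop where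
  sk : Sk σ ψ
  one : 1 ∉ I
  hz : ∀ ν ∈ I, ∀ (z : Rt K (q + 1)), ∀ s ∈ Rt K (q ^ 7 + 1), h ν (z * s) = ν z * h ν s
  hp : ∀ ν ∈ I, ∀ p ∈ Rt K t, ∀ s ∈ Rt K (q ^ 7 + 1), h ν (p * s) = h ν s
  hf : ∀ ν ∈ I, ∀ s ∈ Rt K (q ^ 7 + 1), h ν (s ^ q ^ 2) = h ν s
  h1 : ∀ ν ∈ I, h ν 1 = 1
  ex : ∀ ν ∈ I, ∃ f, Inv G f ∧ ∀ s ∈ Rt K (q ^ 7 + 1), s ≠ 1 → h ν s = Th q ψ f (kap s)
  sp : ∀ f, Inv G f → ∃ (c₀ : ℂ) (c : Ch K q → ℂ), ∀ s ∈ Rt K (q ^ 7 + 1), s ∉ Rt K (q + 1) →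
    Th q ψ f (kap s) = c₀ + ∑ ν ∈ I, c ν * h ν s
  gu : ∀ f, Inv (isom B) f → ∃ c₀ : ℂ, ∀ s ∈ Rt K (q ^ 7 + 1), s ∉ Rt K (q + 1) →
    Th q ψ f (kap s) = c₀
  orb : nO G = q + 1 + I.card

end Model

section Geo

variable {E V : Type u} [Field E] [AddCommGroup V] [Module E V] {σ : E →+* E}
  (B : V →ₛₗ[σ] V →ₗ[E] E)

/-- Transitivity on the vectors of each non-zero norm. -/
def Tr1 (G : Subgroup (V ≃ₗ[E] V)) : Prop :=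
  ∀ u v, B u u = B v v → B u u ≠ 0 → ∃ g ∈ G, g u = v

/-- Transitivity on isotropic points, and the squares are induced on each of them. -/
def Iso2 (G : Subgroup (V ≃ₗ[E] V)) : Prop :=
  (∀ w w', w ≠ 0 → w' ≠ 0 → B w w = 0 → B w' w' = 0 → ∃ g ∈ G, ∃ a : E, g w = a • w') ∧
    ∀ w, B w w = 0 → ∀ a : E, a ≠ 0 → ∃ g ∈ G, g w = a ^ 2 • w

/-- All scalars are induced on each isotropic point. -/
def Stab (G : Subgroup (V ≃ₗ[E] V)) : Prop :=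
  ∀ w, B w w = 0 → ∀ a : E, a ≠ 0 → ∃ g ∈ G, g w = a • w

/-- `G` contains a transvection. -/
def HasT (G : Subgroup (V ≃ₗ[E] V)) : Prop :=
  ∃ (w : V) (c : E) (hw : B w w = 0) (hc : c + σ c = 0), w ≠ 0 ∧ c ≠ 0 ∧ tv B w c hw hc ∈ G

/-- A `p`-group transitive on `v + W`. -/
structure Sy (S : Subgroup (V ≃ₗ[E] V)) (W : Submodule E V) (v : V) : Prop where
  le : S ≤ isom B
  pg : IsPGroup (ringChar E) S
  ti : TotIso B W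
  rk : finrank E W = 3
  inv : ∀ g ∈ S, ∀ w ∈ W, g w ∈ W
  vv : B v v = 1
  ov : ∀ w ∈ W, B w v = 0
  mv : ∀ g ∈ S, g v - v ∈ W
  tr : ∀ w ∈ W, ∃ g ∈ S, g v = v + w

/-- The same in coordinates. -/
structure Md (S : Subgroup (V ≃ₗ[E] V)) (e₁ e₂ e₃ v : V) (x y z a₁ a₂ a₃ : S → E) : Prop where
  le : S ≤ isom B
  li : LinearIndependent E ![e₁, e₂, e₃]
  ti : TotIso B (Submodule.span E {e₁, e₂, e₃})
  vv : B v v = 1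
  o₁ : B e₁ v = 0
  o₂ : B e₂ v = 0
  o₃ : B e₃ v = 0
  g₁ : ∀ g : S, g.1 e₁ = e₁
  g₂ : ∀ g : S, g.1 e₂ = e₂ + x g • e₁
  g₃ : ∀ g : S, g.1 e₃ = e₃ + y g • e₂ + z g • e₁
  gv : ∀ g : S, g.1 v = v + a₁ g • e₁ + a₂ g • e₂ + a₃ g • e₃
  sur : ∀ b₁ b₂ b₃ : E, ∃ g, a₁ g = b₁ ∧ a₂ g = b₂ ∧ a₃ g = b₃
  eA : (∃ n, x n = 0 ∧ y n = 0 ∧ z n = 0 ∧ ¬ (a₁ n = 0 ∧ a₂ n = 0 ∧ a₃ n = 0)) →
    ∃ n, x n = 0 ∧ y n = 0 ∧ z n = 0 ∧ a₁ n = 1 ∧ a₂ n = 0 ∧ a₃ n = 0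

end Geo

/-- The cocycle laws. -/
structure Co₀ {E S : Type u} [Field E] [Group S] (σ : E →+* E) (x y z a₁ a₂ a₃ : S → E) :
    Prop where
  mx : ∀ g h, x (g * h) = x g + x h
  my : ∀ g h, y (g * h) = y g + y h
  mz : ∀ g h, z (g * h) = z g + z h + x g * y h
  m₁ : ∀ g h, a₁ (g * h) = a₁ g + a₁ h + x g * a₂ h + z g * a₃ h
  m₂ : ∀ g h, a₂ (g * h) = a₂ g + a₂ h + y g * a₃ h
  m₃ : ∀ g h, a₃ (g * h) = a₃ g + a₃ h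
  sur : ∀ b₁ b₂ b₃ : E, ∃ g, a₁ g = b₁ ∧ a₂ g = b₂ ∧ a₃ g = b₃
  eA : (∃ n, x n = 0 ∧ y n = 0 ∧ z n = 0 ∧ ¬ (a₁ n = 0 ∧ a₂ n = 0 ∧ a₃ n = 0)) →
    ∃ n, x n = 0 ∧ y n = 0 ∧ z n = 0 ∧ a₁ n = 1 ∧ a₂ n = 0 ∧ a₃ n = 0
  k₀ : (2 : E) = 0 → ∀ n, x n = 0 → y n = 0 → z n = 0 → a₁ n = 0 ∧ a₂ n = 0 ∧ a₃ n = 0
  k₁ : ∀ n n', x n = 0 → y n = 0 → z n = 0 → x n' = 0 → y n' = 0 → z n' = 0 →
    ¬ (a₁ n = 0 ∧ a₂ n = 0 ∧ a₃ n = 0) → ∀ l : E, a₁ n' = l * a₁ n → a₂ n' = l * a₂ n →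
    a₃ n' = l * a₃ n → σ l = l

/-- The cocycle laws with the bound on the second layer. -/
structure Co {E S : Type u} [Field E] [Group S] (σ : E →+* E) (q : ℕ) (x y z a₁ a₂ a₃ : S → E) :
    Prop extends Co₀ σ x y z a₁ a₂ a₃ where
  l₃ : {b : E | ∃ n, x n = 0 ∧ y n = 0 ∧ z n = 0 ∧ a₃ n = 0 ∧ a₂ n = b}.ncard ≤ q

/-- The local structure at the prime `l`. -/
structure Gl (G : Type u) [Group G] (l : ℕ) : Prop where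
  ab : ∀ x a b : G, orderOf x = l → Commute a x → Commute b x → Commute a b
  cy : ∀ x y : G, orderOf x = l → orderOf y = l → Commute x y → y ∈ Subgroup.zpowers x
  six : ∀ x : G, orderOf x = l → {y : G | y ∈ Subgroup.zpowers x ∧ IsConj x y}.ncard ≤ 6

/-! ### Numbers and fields -/

def KtStmt : Prop := ∀ (E K : Type u) [Field E] [Fintype E] [Field K] [Algebra E K] [Finite K]
  (σ : E →+* E) (B : K →ₛₗ[σ] K →ₗ[E] E) (q R t : ℕ), Fd B q R t → Kt B q R t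

def Num1Stmt : Prop := ∀ q t : ℕ, 2 ≤ q → ¬ 7 ∣ q + 1 → q ^ 7 + 1 = (q + 1) * t →
  ¬ t - 2 ∣ ordGU q 7

def Num7Stmt : Prop := ∀ q t m c : ℕ, IsPrimePow q → 13 ≤ q → 7 ∣ q + 1 →
  q ^ 7 + 1 = 7 * (q + 1) * t → 1 ≤ m → m ≤ 7 → (c = 1 ∨ c = 2) → ¬ (m = 7 ∧ c = 1) →
  ¬ m * t - c ∣ ordGU q 7

def Num2Stmt : Prop := ∀ q : ℕ, 13 ≤ q → 7 ∣ q + 1 →
  ∃ l s : ℕ, l.Prime ∧ l ≠ 3 ∧ l ^ s ∣ q ^ 2 + q + 1 ∧ 50 ≤ l ^ s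

/-! ### Character theory -/

def ZtStmt : Prop := ∀ (E K : Type u) [Field E] [Fintype E] [Field K] [Algebra E K] [Finite K]
  (σ : E →+* E) (B : K →ₛₗ[σ] K →ₗ[E] E) (q R t : ℕ), Kt B q R t → Zt B q R t

def UcStmt : Prop := ∀ (E K : Type u) [Field E] [Fintype E] [Field K] [Algebra E K] [Finite K]
  (σ : E →+* E) (B : K →ₛₗ[σ] K →ₗ[E] E) (q R t : ℕ) (G : Subgroup (K ≃ₗ[E] K)),
  Cu B q R t G → t.Coprime ((Pt E K t).relIndex G) ∧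
    ∀ Y : Subgroup (K ≃ₗ[E] K), Pt E K t ≤ Y → Y ≤ G → ∃ U : H12.UC Y,
      U.P = (Pt E K t).subgroupOf Y ∧ U.C = (mulH E K).range.subgroupOf Y ∧
      (∀ g : Y, g ∈ U.N ↔ Nm (g : K ≃ₗ[E] K)) ∧ U.e ∣ 7 ∧
      ∀ c : U.C, U.τ c = 1 ↔ Sc ((c : Y) : K ≃ₗ[E] K)

def LinStmt : Prop := ∀ (E K : Type u) [Field E] [Fintype E] [Field K] [Algebra E K] [Finite K]
  (σ : E →+* E) (B : K →ₛₗ[σ] K →ₗ[E] E) (q R t : ℕ) (G : Subgroup (K ≃ₗ[E] K)),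
  Cu B q R t G → ∀ χ : G → ℂ, IsIrrCharacter G χ → (Pt E K t).subgroupOf G ≤ H11.charKer χ →
    ∃ μ : G →* ℂˣ, χ = fun g => (μ g : ℂ)

/-- Abelian groups normalised by an element of large prime order of the field. -/
def AbStmt : Prop := ∀ (E K : Type u) [Field E] [Finite E] [Field K] [Algebra E K] [Finite K]
  (A : Subgroup (K ≃ₗ[E] K)) (r l : ℕ) (s : Kˣ), finrank E K = 7 → r.Prime → l.Prime → 29 ≤ l →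
  r ≠ l → orderOf s = l → (s : K) ∉ E ∙ (1 : K) → IsPGroup r A →
  (∀ a ∈ A, ∀ b ∈ A, a * b = b * a) → (∀ a ∈ A, mulH E K s * a * (mulH E K s)⁻¹ ∈ A) →
  ∀ a ∈ A, mulH E K s * a = a * mulH E K s

def QsStmt : Prop := ∀ (E K : Type u) [Field E] [Finite E] [Field K] [Algebra E K] [Finite K]
  (Q : Subgroup (K ≃ₗ[E] K)) (r l : ℕ) (s : Kˣ), finrank E K = 7 → r.Prime → l.Prime → 29 ≤ l →
  r ≠ l → orderOf s = l → (s : K) ∉ E ∙ (1 : K) → IsPGroup r Q →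
  (∀ a ∈ Q, mulH E K s * a * (mulH E K s)⁻¹ ∈ Q) →
  (∀ a ∈ Q, mulH E K s * a = a * mulH E K s → Sc a) → ∀ a ∈ Q, Sc a

def E1Stmt : Prop := ∀ (E K : Type u) [Field E] [Fintype E] [Field K] [Algebra E K] [Finite K]
  (σ : E →+* E) (B : K →ₛₗ[σ] K →ₗ[E] E) (q R t : ℕ) (G : Subgroup (K ≃ₗ[E] K)),
  Cu B q R t G → ∃ j ∈ SS G t, Nm j ∧ j ∉ (mulH E K).range

def Sm2Stmt : Prop := ∀ (G : Type u) [Group G] [Fintype G] (U : H12.UC G), Nat.card U.P = 43 →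
  U.C = U.P → U.e = 7 → (∀ θ, IsIrrCharacter G θ → θ ≠ (fun _ => 1) → ¬ U.P ≤ H11.charKer θ) →
  ∀ χ, IsIrrCharacter G χ → χ ≠ (fun _ => 1) → 7 < charDegree χ

def SmallStmt : Prop := ∀ (E K : Type u) [Field E] [Fintype E] [Field K] [Algebra E K] [Finite K]
  (σ : E →+* E) (B : K →ₛₗ[σ] K →ₗ[E] E) (q R t : ℕ) (G : Subgroup (K ≃ₗ[E] K)),
  Cu B q R t G → ∀ ψ : G → ℂ, IsIrrCharacter G ψ → ¬ (Pt E K t).subgroupOf G ≤ H11.charKer ψ →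
    7 * R < charDegree ψ

def ConStmt : Prop := ∀ (E K : Type u) [Field E] [Fintype E] [Field K] [Algebra E K] [Finite K]
  (σ : E →+* E) (B : K →ₛₗ[σ] K →ₗ[E] E) (q R t : ℕ) (G : Subgroup (K ≃ₗ[E] K)) [Fintype G],
  Cu B q R t G → Zt B q R t → ∀ (ν : Ch K q) (χ : G → ℂ), IsIrrCharacter G χ →
    classInner (fun g : G => ze q ν g.1 + dl ν) χ ≠ 0 → ∃ (m : ℕ) (c : ℤ), |c| ≤ 2 ∧
      (charDegree χ : ℤ) = m * t + c ∧ ∀ g : G, g.1 ∈ Pt E K t → g ≠ 1 → χ g = c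

def DecStmt : Prop := ∀ (E K : Type u) [Field E] [Fintype E] [Field K] [Algebra E K] [Finite K]
  (σ : E →+* E) (B : K →ₛₗ[σ] K →ₗ[E] E) (q R t : ℕ) (G : Subgroup (K ≃ₗ[E] K)) [Fintype G],
  Cu B q R t G → Zt B q R t → IsIrrCharacter G (fun g => ze q (1 : Ch K q) g.1) ∧
    ∀ ν : Ch K q, ν ≠ 1 → Spl G q t ν ∨ ∀ χ : G → ℂ, IsIrrCharacter G χ →
      classInner (fun g : G => ze q ν g.1) χ ≠ 0 → ∃ a, 1 ≤ a ∧ a ≤ R ∧ charDegree χ = a * t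

/-- The module structure of an element of order `l`. -/
def Gl1Stmt : Prop := ∀ (E V : Type u) [Field E] [Fintype E] [AddCommGroup V] [Module E V]
  [Finite V] (σ : E →+* E) (B : V →ₛₗ[σ] V →ₗ[E] E) (q l : ℕ), St B q → finrank E V = 7 →
  l.Prime → l ≠ 3 → l ∣ q ^ 2 + q + 1 → ∀ x ∈ isom B, orderOf x = l →
  ∃ U₁ U₂ : Submodule E V, finrank E (fx x) = 1 ∧ finrank E U₁ = 3 ∧ finrank E U₂ = 3 ∧
    TotIso B U₁ ∧ TotIso B U₂ ∧ fx x ⊔ U₁ ⊔ U₂ = ⊤ ∧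
    (∀ w ∈ fx x, ∀ u ∈ U₁ ⊔ U₂, B w u = 0) ∧ (∀ u ∈ U₁, x u ∈ U₁) ∧ (∀ u ∈ U₂, x u ∈ U₂) ∧
    ∀ W : Submodule E V, (∀ u ∈ W, x u ∈ W) → W ⊓ fx x = ⊥ → W ≠ ⊥ → finrank E W ≤ 3 →
      W = U₁ ∨ W = U₂

def Gl2Stmt : Prop := ∀ (E V : Type u) [Field E] [Fintype E] [AddCommGroup V] [Module E V]
  [Finite V] (σ : E →+* E) (B : V →ₛₗ[σ] V →ₗ[E] E) (q l : ℕ), St B q → finrank E V = 7 →
  l.Prime → l ≠ 3 → l ∣ q ^ 2 + q + 1 → ∀ G : Subgroup (V ≃ₗ[E] V), G ≤ isom B → Gl G l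

def DegaStmt : Prop := ∀ (G : Type u) [Group G] [Finite G] (l s : ℕ), l.Prime → Gl G l →
  l ^ s ∣ Nat.card G → 50 ≤ l ^ s → ∀ χ : G → ℂ, IsIrrCharacter G χ →
    ∃ δ : ℤ, |δ| ≤ 6 ∧ ((l ^ s : ℕ) : ℤ) ∣ (charDegree χ : ℤ) - δ

def DcStmt : Prop := ∀ (E K : Type u) [Field E] [Fintype E] [Field K] [Algebra E K] [Finite K]
  (σ : E →+* E) (B : K →ₛₗ[σ] K →ₗ[E] E) (q R t : ℕ) (G : Subgroup (K ≃ₗ[E] K)),
  Cu B q R t G → Zt B q R t → ∀ ν : Ch K q,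
    IsIrrCharacter G (fun g => ze q ν g.1) ∨ (ν ≠ 1 ∧ Spl G q t ν)

/-! ### Functions on the torus -/

def WrStmt : Prop := ∀ (E K : Type u) [Field E] [Fintype E] [Field K] [Algebra E K] [Finite K]
  (σ : E →+* E) (B : K →ₛₗ[σ] K →ₗ[E] E) (q R t : ℕ), Kt B q R t → ∃ ψ a L, Wr B q ψ a L

def OrbnStmt : Prop := ∀ (E K : Type u) [Field E] [Fintype E] [Field K] [Algebra E K] [Finite K]
  (σ : E →+* E) (B : K →ₛₗ[σ] K →ₗ[E] E) (q R t : ℕ) (G : Subgroup (K ≃ₗ[E] K)),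
  Cu B q R t G → Zt B q R t → nO (isom B) ≤ q + 1 ∧ ∀ I : Finset (Ch K q),
    (∀ ν ∈ I, Spl G q t ν) → (∀ ν ∉ I, IsIrrCharacter G fun g => ze q ν g.1) →
    nO G = q + 1 + I.card

def SpanStmt : Prop := ∀ (E K : Type u) [Field E] [Fintype E] [Field K] [Algebra E K] [Finite K]
  (σ : E →+* E) (B : K →ₛₗ[σ] K →ₗ[E] E) (q R t : ℕ) (G : Subgroup (K ≃ₗ[E] K))
  (ψ : AddChar E ℂ) (a L : (K ≃ₗ[E] K) → K → ℂ) (I : Finset (Ch K q)) (μ : Ch K q → G →* ℂˣ),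
  Kt B q R t → Zt B q R t → Wr B q ψ a L → G ≤ isom B →
  (∀ z ∈ Rt K (q + 1), mulH E K z ∈ G) → Pt E K t ≤ G → 1 ∉ I →
  (∀ ν ∈ I, ∀ (z : Rt K (q + 1)) (g : G), g.1 = mulH E K z → μ ν g = ν z) →
  (∀ ν ∈ I, ∀ g : G, g.1 ∈ Pt E K t → μ ν g = 1) → (∀ ν ∈ I, hm q (μ ν) 1 = 1) →
  nO G ≤ q + 1 + I.card →
  (∀ ν ∈ I, ∃ f, Inv G f ∧ ∀ s ∈ Rt K (q ^ 7 + 1), s ≠ 1 → hm q (μ ν) s = Th q ψ f (kap s)) ∧
  ∀ f, Inv G f → ∃ (c₀ : ℂ) (c : Ch K q → ℂ), ∀ s ∈ Rt K (q ^ 7 + 1), s ∉ Rt K (q + 1) →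
    Th q ψ f (kap s) = c₀ + ∑ ν ∈ I, c ν * hm q (μ ν) s

def FunStmt : Prop := ∀ (E K : Type u) [Field E] [Fintype E] [Field K] [Algebra E K] [Finite K]
  (σ : E →+* E) (B : K →ₛₗ[σ] K →ₗ[E] E) (q R t : ℕ) (G : Subgroup (K ≃ₗ[E] K)),
  Cu B q R t G → Zt B q R t → ∃ ψ I h, Fn B q t G ψ I h

def Orb1Stmt : Prop := ∀ (E K : Type u) [Field E] [Fintype E] [Field K] [Algebra E K] [Finite K]
  (σ : E →+* E) (B : K →ₛₗ[σ] K →ₗ[E] E) (q : ℕ) (G : Subgroup (K ≃ₗ[E] K)),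
  St B q → finrank E K = 7 → G ≤ isom B → ¬ Tr1 B G → 2 * q ≤ nO G

def Orb2Stmt : Prop := ∀ (E K : Type u) [Field E] [Fintype E] [Field K] [Algebra E K] [Finite K]
  (σ : E →+* E) (B : K →ₛₗ[σ] K →ₗ[E] E) (q : ℕ) (G : Subgroup (K ≃ₗ[E] K)),
  St B q → finrank E K = 7 → G ≤ isom B →
  (nO G ≤ q + 1 → Iso2 B G) ∧ (nO G ≤ q + 2 → Iso2 B G ∨ Stab B G)

/-- Translations preserve the joint level sets. -/
def Lev0Stmt : Prop := ∀ (E K : Type u) [Field E] [Fintype E] [Field K] [Algebra E K] [Finite K]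
  (σ : E →+* E) (B : K →ₛₗ[σ] K →ₗ[E] E) (q R t : ℕ) (G : Subgroup (K ≃ₗ[E] K))
  (ψ : AddChar E ℂ) (I : Finset (Ch K q)) (h : Ch K q → Kˣ → ℂ), Cu B q R t G →
  Fn B q t G ψ I h → ∀ s ∈ Rt K (q ^ 7 + 1), ∀ s' ∈ Rt K (q ^ 7 + 1),
    ∀ r ∈ Rt K (q ^ 7 + 1), ∀ r' ∈ Rt K (q ^ 7 + 1), s ∉ Rt K (q + 1) → s' ∉ Rt K (q + 1) →
    r ∉ Rt K (q + 1) → r' ∉ Rt K (q + 1) → ∀ c : E, kap r = kap s + algebraMap E K c →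
    kap r' = kap s' + algebraMap E K c → (∀ ν ∈ I, h ν s = h ν s') → ∀ ν ∈ I, h ν r = h ν r'

def Lev1Stmt : Prop := ∀ (E K : Type u) [Field E] [Fintype E] [Field K] [Algebra E K] [Finite K]
  (σ : E →+* E) (B : K →ₛₗ[σ] K →ₗ[E] E) (q t : ℕ) (G : Subgroup (K ≃ₗ[E] K))
  (ψ : AddChar E ℂ) (I : Finset (Ch K q)) (h : Ch K q → Kˣ → ℂ), Cu B q 1 t G →
  Fn B q t G ψ I h → q ≤ I.card + 1 → ∃ z ∈ Rt K (q + 1), Cl σ t z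

def Lev7Stmt : Prop := ∀ (E K : Type u) [Field E] [Fintype E] [Field K] [Algebra E K] [Finite K]
  (σ : E →+* E) (B : K →ₛₗ[σ] K →ₗ[E] E) (q t : ℕ) (G : Subgroup (K ≃ₗ[E] K))
  (ψ : AddChar E ℂ) (I : Finset (Ch K q)) (h : Ch K q → Kˣ → ℂ), Cu B q 7 t G →
  Fn B q t G ψ I h → q ≤ I.card + 1 → False

def PolyStmt : Prop := ∀ (E K : Type u) [Field E] [Fintype E] [Field K] [Algebra E K] [Finite K]
  (σ : E →+* E) (B : K →ₛₗ[σ] K →ₗ[E] E) (q t : ℕ), Kt B q 1 t → 3 ≤ q →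
  ∀ z ∈ Rt K (q + 1), ¬ Cl σ t z

def Q2Stmt : Prop := ∀ (E K : Type u) [Field E] [Fintype E] [Field K] [Algebra E K] [Finite K]
  (σ : E →+* E) (B : K →ₛₗ[σ] K →ₗ[E] E) (G : Subgroup (K ≃ₗ[E] K))
  (ψ : AddChar E ℂ) (I : Finset (Ch K 2)) (h : Ch K 2 → Kˣ → ℂ), Cu B 2 1 43 G →
  Fn B 2 43 G ψ I h → Tr1 B G

def InvStmt : Prop := ∀ (E K : Type u) [Field E] [Fintype E] [Field K] [Algebra E K] [Finite K]
  (σ : E →+* E) (B : K →ₛₗ[σ] K →ₗ[E] E) (q R t : ℕ) (G : Subgroup (K ≃ₗ[E] K))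
  (ψ : AddChar E ℂ) (I : Finset (Ch K q)) (h : Ch K q → Kˣ → ℂ), Cu B q R t G →
  Fn B q t G ψ I h → Tr1 B G → ∀ ν ∈ I, TI E q (h ν) ∧ (Stab B G → AI σ q (h ν))

def Sl2Stmt : Prop := ∀ (E K : Type u) [Field E] [Fintype E] [Field K] [Algebra E K] [Finite K]
  (σ : E →+* E) (B : K →ₛₗ[σ] K →ₗ[E] E) (q R t : ℕ) (ν : Ch K q) (h : Kˣ → ℂ), Kt B q R t →
  (∀ (z : Rt K (q + 1)), ∀ s ∈ Rt K (q ^ 7 + 1), h (z * s) = ν z * h s) →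
  (∃ s ∈ Rt K (q ^ 7 + 1), s ∉ Rt K (q + 1) ∧ h s ≠ 0) →
  (TI E q h → ν ^ 2 = 1) ∧ (AI σ q h → ν = 1)

def IsoStmt : Prop := ∀ (E K : Type u) [Field E] [Fintype E] [Field K] [Algebra E K] [Finite K]
  (σ : E →+* E) (B : K →ₛₗ[σ] K →ₗ[E] E) (q R t : ℕ) (G : Subgroup (K ≃ₗ[E] K))
  (ψ : AddChar E ℂ) (I : Finset (Ch K q)) (h : Ch K q → Kˣ → ℂ), Cu B q R t G →
  Fn B q t G ψ I h → Tr1 B G → Iso2 B G

/-! ### Finding a transvection -/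

def Syl1Stmt : Prop := ∀ (E V : Type u) [Field E] [Fintype E] [AddCommGroup V] [Module E V]
  [Finite V] (σ : E →+* E) (B : V →ₛₗ[σ] V →ₗ[E] E) (q : ℕ) (S : Subgroup (V ≃ₗ[E] V)),
  St B q → finrank E V = 7 → S ≤ isom B → IsPGroup (ringChar E) S →
  ∃ (W : Submodule E V) (v : V), TotIso B W ∧ finrank E W = 3 ∧ (∀ g ∈ S, ∀ w ∈ W, g w ∈ W) ∧
    B v v = 1 ∧ (∀ w ∈ W, B w v = 0) ∧ ∀ g ∈ S, g v - v ∈ W

def SylStmt : Prop := ∀ (E V : Type u) [Field E] [Fintype E] [AddCommGroup V] [Module E V]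
  [Finite V] (σ : E →+* E) (B : V →ₛₗ[σ] V →ₗ[E] E) (q : ℕ) (G : Subgroup (V ≃ₗ[E] V)),
  St B q → finrank E V = 7 → G ≤ isom B → Tr1 B G → ∃ S W v, S ≤ G ∧ Sy B S W v

def Tv0Stmt : Prop := ∀ (E V : Type u) [Field E] [Fintype E] [AddCommGroup V] [Module E V]
  [Finite V] (σ : E →+* E) (B : V →ₛₗ[σ] V →ₗ[E] E) (q : ℕ) (S : Subgroup (V ≃ₗ[E] V))
  (W : Submodule E V) (v : V), St B q → finrank E V = 7 → Sy B S W v →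
  ∃ e₁ e₂ e₃ x y z a₁ a₂ a₃, Md B S e₁ e₂ e₃ v x y z a₁ a₂ a₃

def TvkStmt : Prop := ∀ (E V : Type u) [Field E] [Fintype E] [AddCommGroup V] [Module E V]
  [Finite V] (σ : E →+* E) (B : V →ₛₗ[σ] V →ₗ[E] E) (q : ℕ) (S : Subgroup (V ≃ₗ[E] V))
  (e₁ e₂ e₃ v : V) (x y z a₁ a₂ a₃ : S → E), St B q → finrank E V = 7 →
  Md B S e₁ e₂ e₃ v x y z a₁ a₂ a₃ → ¬ HasT B S → Co₀ σ x y z a₁ a₂ a₃

/-- Chevalley-Warning for skew-Hermitian two by two matrices. -/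
def CwStmt : Prop := ∀ (E : Type u) [Field E] [Fintype E] (σ : E →+* E) (q : ℕ),
  Fintype.card E = q ^ 2 → (∀ x, σ x = x ^ q) → ∀ D : AddSubgroup (E × E × E),
  (∀ d ∈ D, d.1 + σ d.1 = 0 ∧ d.2.2 + σ d.2.2 = 0) → q ^ 2 < Nat.card D →
  ∃ d ∈ D, d ≠ 0 ∧ d.1 * d.2.2 + d.2.1 * σ d.2.1 = 0

def L3Stmt : Prop := ∀ (E V : Type u) [Field E] [Fintype E] [AddCommGroup V] [Module E V]
  [Finite V] (σ : E →+* E) (B : V →ₛₗ[σ] V →ₗ[E] E) (q : ℕ) (S : Subgroup (V ≃ₗ[E] V))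
  (e₁ e₂ e₃ v : V) (x y z a₁ a₂ a₃ : S → E), St B q → finrank E V = 7 →
  Md B S e₁ e₂ e₃ v x y z a₁ a₂ a₃ → ¬ HasT B S →
  {b : E | ∃ n, x n = 0 ∧ y n = 0 ∧ z n = 0 ∧ a₃ n = 0 ∧ a₂ n = b}.ncard ≤ q

def Tv1Stmt : Prop := ∀ (E S : Type u) [Field E] [Fintype E] [Group S] [Finite S] (σ : E →+* E)
  (q : ℕ) (x y z a₁ a₂ a₃ : S → E), Fintype.card E = q ^ 2 → (∀ a, σ a = a ^ q) →
  Co σ q x y z a₁ a₂ a₃ → ∀ n, x n = 0 → y n = 0 → z n = 0 → a₃ n = 0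

def Tv3Stmt : Prop := ∀ (E S : Type u) [Field E] [Fintype E] [Group S] [Finite S] (σ : E →+* E)
  (q : ℕ) (x y z a₁ a₂ a₃ : S → E), Fintype.card E = q ^ 2 → (∀ a, σ a = a ^ q) →
  Co σ q x y z a₁ a₂ a₃ → (∀ n, x n = 0 → y n = 0 → z n = 0 → a₃ n = 0) →
  ∀ n, x n = 0 → y n = 0 → z n = 0 → a₂ n = 0

def Tv2aStmt : Prop := ∀ (E S : Type u) [Field E] [Fintype E] [Group S] [Finite S] (σ : E →+* E)
  (q : ℕ) (x y z a₁ a₂ a₃ : S → E), Fintype.card E = q ^ 2 → (∀ a, σ a = a ^ q) →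
  Co₀ σ x y z a₁ a₂ a₃ → (∀ n, x n = 0 → y n = 0 → z n = 0 → a₂ n = 0 ∧ a₃ n = 0) →
  (∀ b, ∃ g, y g = 0 ∧ a₃ g = b) ∧ ∀ c, ∃ g, x g = 0 ∧ y g = 0 ∧ z g = c ∧ a₃ g = 0

def Tv2bStmt : Prop := ∀ (E V : Type u) [Field E] [Fintype E] [AddCommGroup V] [Module E V]
  [Finite V] (σ : E →+* E) (B : V →ₛₗ[σ] V →ₗ[E] E) (q : ℕ) (S : Subgroup (V ≃ₗ[E] V))
  (e₁ e₂ e₃ v : V) (x y z a₁ a₂ a₃ : S → E), St B q → finrank E V = 7 →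
  Md B S e₁ e₂ e₃ v x y z a₁ a₂ a₃ → (∀ b, ∃ g, y g = 0 ∧ a₃ g = b) →
  (∀ c, ∃ g, x g = 0 ∧ y g = 0 ∧ z g = c ∧ a₃ g = 0) → HasT B S

def GenStmt : Prop := ∀ (E V : Type u) [Field E] [Fintype E] [AddCommGroup V] [Module E V]
  [Finite V] (σ : E →+* E) (B : V →ₛₗ[σ] V →ₗ[E] E) (q : ℕ) (G : Subgroup (V ≃ₗ[E] V)),
  St B q → finrank E V = 7 → G ≤ isom B → HasT B G → Iso2 B G → sisom B ≤ G

/-! ### The top -/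

def MainStmt : Prop := ∀ (E K : Type u) [Field E] [Fintype E] [Field K] [Algebra E K] [Finite K]
  (σ : E →+* E) (B : K →ₛₗ[σ] K →ₗ[E] E) (q R t : ℕ) (G : Subgroup (K ≃ₗ[E] K)),
  Cu B q R t G → sisom B ≤ G

def MaxStmt : Prop := ∀ (E K : Type u) [Field E] [Fintype E] [Field K] [Algebra E K] [Finite K]
  (σ : E →+* E) (B : K →ₛₗ[σ] K →ₗ[E] E) (q : ℕ), St B q → finrank E K = 7 →
  (∀ x y, B x y = Algebra.trace E K (x ^ q ^ 7 * y)) → ∀ N : Subgroup (K ≃ₗ[E] K),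
  (∀ g, g ∈ N ↔ Nm g) → Geo.IsMaximalIn (sisom B) (N ⊓ sisom B)

def C4Stmt : Prop := ∀ (F : Type u) [Field F] [Fintype F] (q : ℕ), Fintype.card F = q ^ 2 →
  ∀ K : Subalgebra F (Matrix (Fin 7) (Fin 7) F), Geo.IsFieldSubalgebra 7 K →
  Geo.IsAdjointClosedFor (hermForm 7 F q) K →
  Geo.IsMaximalIn (GU 7 F q ⊓ Geo.specialLinear (Fin 7) F)
    (Geo.subalgebraNormalizer K ⊓ (GU 7 F q ⊓ Geo.specialLinear (Fin 7) F))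

end Cfsg.Agent.H25.UG
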