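import Cfsg.Agent.H25.UGDefs

/-! # Project UG: a large prime power dividing `q ^ 2 + q + 1` -/

set_option autoImplicit false

namespace Cfsg.Agent.H25.UG

theorem small_div : ∀ m < 50, ∀ r < m, (r ^ 2 + r + 1) % m = 0 → m ∣ 36546861 ∨ 7 ∣ m := by
  decide +kernel

theorem no_q : ∀ k < 900, 2 ≤ k → 36546861 % ((7 * k - 1) ^ 2 + (7 * k - 1) + 1) ≠ 0 := by
  decide +kernel

theorem num2 : Num2Stmt := by
  intro q hq h7
  by_contra! hn
  have key : ∀ m < 50, 0 < m → m ∣ q ^ 2 + q + 1 → m ∣ 36546861 := fun m hm h0 hd => by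
    refine (small_div m hm (q % m) (Nat.mod_lt _ h0) ?_).resolve_right fun e => ?_
    · rw [← Nat.mod_eq_zero_of_dvd hd]
      simp [Nat.add_mod, Nat.pow_mod]
    · have := Nat.mod_eq_zero_of_dvd (e.trans hd)
      have h6 : q % 7 = 6 := by omega
      simp [Nat.add_mod, Nat.pow_mod, h6] at this
  have hd : q ^ 2 + q + 1 ∣ 36546861 := (Nat.dvd_iff_prime_pow_dvd_dvd _ _).2 fun p k hp h => by
    by_cases e : p = 3
    · subst e
      by_cases e : k ≤ 1
      · exact (pow_dvd_pow 3 e).trans (by norm_num)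
      · exact absurd (key (3 ^ 2) (by norm_num) (by norm_num)
          ((pow_dvd_pow 3 (by omega)).trans h)) (by norm_num)
    · exact key _ (hn p k hp e h) (pow_pos hp.pos _) h
  obtain ⟨k, hk⟩ := h7
  obtain rfl : q = 7 * k - 1 := by omega
  refine no_q k ?_ (by omega) (Nat.mod_eq_zero_of_dvd hd)
  by_contra! e
  have := Nat.le_of_dvd (by norm_num) hd
  have : 6299 ^ 2 ≤ (7 * k - 1) ^ 2 := Nat.pow_le_pow_left (by omega) 2
  omega

end Cfsg.Agent.H25.UG
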