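import Cfsg.Agent.H25.UGDefs

/-! # Project UG: the cocycle computations -/

set_option autoImplicit false

namespace Cfsg.Agent.H25.UG

open Cfsg.Agent.H31

universe u

section Chain

variable {E S : Type u} [Field E] [Group S]

/-- the kernel of a function that is additive on `H` -/
def kr (H : Subgroup S) (f : S → E) (hf : ∀ g ∈ H, ∀ h ∈ H, f (g * h) = f g + f h) :
    Subgroup S where
  carrier := {g | g ∈ H ∧ f g = 0}
  mul_mem' {a b} ha hb := ⟨H.mul_mem ha.1 hb.1, by rw [hf a ha.1 b hb.1, ha.2, hb.2, add_zero]⟩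
  one_mem' := ⟨H.one_mem, by simpa using hf 1 H.one_mem 1 H.one_mem⟩
  inv_mem' {a} ha := ⟨H.inv_mem ha.1, by
    have h1 : f 1 = 0 := by simpa using hf 1 H.one_mem 1 H.one_mem
    have := hf a ha.1 a⁻¹ (H.inv_mem ha.1)
    rwa [mul_inv_cancel, h1, ha.2, zero_add, eq_comm] at this⟩

theorem card_kr (H : Subgroup S) (f : S → E) (hf : ∀ g ∈ H, ∀ h ∈ H, f (g * h) = f g + f h) :
    Nat.card H = (f '' H).ncard * Nat.card (kr H f hf) := by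
  let φ : H →* Multiplicative E := MonoidHom.mk' (fun g => Multiplicative.ofAdd (f g))
    fun a b => congrArg Multiplicative.ofAdd (hf a a.2 b b.2)
  rw [← φ.ker.index_mul_card, Subgroup.index_ker]
  congr 1
  · rw [← Nat.card_coe_set_eq]
    refine Nat.card_congr (Equiv.subtypeEquiv Multiplicative.toAdd fun a => ?_)
    exact ⟨fun ⟨g, e⟩ => ⟨g, g.2, congrArg Multiplicative.toAdd e⟩,
      fun ⟨g, hg, e⟩ => ⟨⟨g, hg⟩, congrArg Multiplicative.ofAdd e⟩⟩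
  · exact Nat.card_congr ⟨fun g => ⟨g.1.1, g.1.2, congrArg Multiplicative.toAdd g.2⟩,
      fun g => ⟨⟨g.1, g.2.1⟩, congrArg Multiplicative.ofAdd g.2.2⟩, fun _ => rfl, fun _ => rfl⟩

theorem mem_kr {H : Subgroup S} {f : S → E} {hf : ∀ g ∈ H, ∀ h ∈ H, f (g * h) = f g + f h}
    {g : S} : g ∈ kr H f hf ↔ g ∈ H ∧ f g = 0 := Iff.rfl

theorem card_kr' {H : Subgroup S} {f : S → E} {hf : ∀ g ∈ H, ∀ h ∈ H, f (g * h) = f g + f h}
    (U : Set E) (hU : ∀ b, b ∈ U ↔ ∃ g ∈ H, f g = b) :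
    Nat.card H = U.ncard * Nat.card (kr H f hf) := by
  rw [card_kr H f hf, show U = f '' H from Set.ext hU]

end Chain

section Real

variable {E : Type u} [Field E] [Fintype E] {σ : E →+* E} {q : ℕ}
  (hE : Fintype.card E = q ^ 2) (hσ : ∀ a, σ a = a ^ q)
include hE

omit [Field E] in
theorem le_sq (U : Set E) : U.ncard ≤ q ^ 2 := by
  rw [← hE, ← Nat.card_eq_fintype_card, ← Set.ncard_univ]
  exact Set.ncard_le_ncard (Set.subset_univ _)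

omit [Fintype E] hE in
theorem le_one {U : Set E} (h : ∀ u ∈ U, u = 0) : U.ncard ≤ 1 := by
  rw [← Set.ncard_singleton (0 : E)]
  exact Set.ncard_le_ncard h

include hσ

theorem card_real : {x : E | σ x = x}.ncard = q := by
  rw [← Nat.card_coe_set_eq]
  exact card_fixed hE hσ

theorem le_q {U : Set E} {c : E} (hc : c ≠ 0) (h : ∀ u ∈ U, σ (u * c) = u * c) :
    U.ncard ≤ q := by
  rw [← card_real hE hσ]
  exact Set.ncard_le_ncard_of_injOn (· * c) h fun _ _ _ _ e => mul_right_cancel₀ hc e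

theorem pair {U U' : Set E} (h : ∀ u ∈ U, ∀ u' ∈ U', σ (u * u') = u * u') :
    U.ncard * U'.ncard ≤ q ^ 2 := by
  by_cases e : ∀ u ∈ U, u = 0
  · simpa using Nat.mul_le_mul (le_one e) (le_sq hE U')
  by_cases e' : ∀ u ∈ U', u = 0
  · simpa using Nat.mul_le_mul (le_sq hE U) (le_one e')
  push Not at e e'
  obtain ⟨u, hu, h0⟩ := e
  obtain ⟨u', hu', h0'⟩ := e'
  rw [sq]
  exact Nat.mul_le_mul (le_q hE hσ h0' fun a ha => h a ha u' hu')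
    (le_q hE hσ h0 fun a ha => mul_comm u a ▸ h u hu a ha)

end Real

namespace Co₀

variable {E S : Type u} [Field E] [Group S] {σ : E →+* E} {x y z a₁ a₂ a₃ : S → E}
  (c : Co₀ σ x y z a₁ a₂ a₃)
include c

theorem dif {g h : S} (hx : x g = x h) (hy : y g = y h) : ∃ n, x n = 0 ∧ y n = 0 ∧
    z n = z g - z h ∧ a₃ n = a₃ g - a₃ h ∧ a₂ n = a₂ g - a₂ h ∧
    a₁ n = a₁ g - a₁ h - (z g - z h) * a₃ h := by
  obtain ⟨n, rfl⟩ : ∃ n, g = n * h := ⟨g * h⁻¹, by simp⟩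
  have h1 : x n = 0 := by simpa [c.mx] using hx
  have h2 : y n = 0 := by simpa [c.my] using hy
  refine ⟨n, h1, h2, ?_, ?_, ?_, ?_⟩ <;> simp only [c.mz, c.m₁, c.m₂, c.m₃, h1, h2] <;> ring

theorem cz (g h : S) : ∃ n, x n = 0 ∧ y n = 0 ∧ z n = x g * y h - x h * y g ∧ a₃ n = 0 ∧
    a₂ n = y g * a₃ h - y h * a₃ g ∧ (x g * y h = x h * y g →
      a₁ n = x g * a₂ h + z g * a₃ h - x h * a₂ g - z h * a₃ g) := by
  obtain ⟨n, h1, h2, h3, h4, h5, h6⟩ := c.dif (g := g * h) (h := h * g)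
    (by rw [c.mx, c.mx, add_comm]) (by rw [c.my, c.my, add_comm])
  refine ⟨n, h1, h2, ?_, ?_, ?_, fun e => ?_⟩
  · rw [h3, c.mz, c.mz]; ring
  · rw [h4, c.m₃, c.m₃]; ring
  · rw [h5, c.m₂, c.m₂]; ring
  · rw [h6, c.m₁, c.m₁, c.mz, c.mz, e]; ring

theorem real₁ {n : S} (h1 : x n = 0) (h2 : y n = 0) (h3 : z n = 0) (h4 : a₃ n = 0)
    (h5 : a₂ n = 0) : σ (a₁ n) = a₁ n := by
  by_cases e : a₁ n = 0
  · rw [e, map_zero]
  obtain ⟨m, k1, k2, k3, k4, k5, k6⟩ := c.eA ⟨n, h1, h2, h3, fun a => e a.1⟩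
  exact c.k₁ m n k1 k2 k3 h1 h2 h3 (by simp [k4]) _ (by simp [k4]) (by simp [k5, h5])
    (by simp [k6, h4])

theorem creal (g h : S) (e : x g * y h = x h * y g) (e' : y g * a₃ h = y h * a₃ g) :
    σ (x g * a₂ h + z g * a₃ h - x h * a₂ g - z h * a₃ g) =
      x g * a₂ h + z g * a₃ h - x h * a₂ g - z h * a₃ g := by
  obtain ⟨n, h1, h2, h3, h4, h5, h6⟩ := c.cz g h
  rw [← h6 e]
  exact c.real₁ h1 h2 (by rw [h3, e, sub_self]) h4 (by rw [h5, e', sub_self])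

theorem fin (hi : IsInvol σ) (h2 : (2 : E) ≠ 0) {g₀ ζ : S} {y₀ b : E} (hx : x g₀ ≠ 0)
    (hy : y₀ ≠ 0) (hb : b ≠ 0) (k1 : x ζ = 0) (k2 : y ζ = 0) (k3 : z ζ = x g₀ * y₀)
    (k4 : a₃ ζ = 0) (k5 : a₂ ζ = -(y₀ * a₃ g₀)) (hr : ∀ g, σ (x g * b) = x g * b) : False := by
  have h3 : ∀ g, σ (x g₀ * y₀ * a₃ g + x g * (y₀ * a₃ g₀)) =
      x g₀ * y₀ * a₃ g + x g * (y₀ * a₃ g₀) := fun g => by
    have := c.creal ζ g (by simp [k1, k2]) (by simp [k2, k4])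
    simpa [k1, k3, k4, k5] using this
  have h4 : σ (x g₀ * y₀ * a₃ g₀) = x g₀ * y₀ * a₃ g₀ := by
    have := h3 g₀
    refine mul_left_cancel₀ h2 ?_
    simp only [map_add, map_mul] at this ⊢
    linear_combination this
  obtain ⟨θ, hθ⟩ := hi.ne_id
  obtain ⟨g, -, -, hg⟩ := c.sur 0 0 (θ / (x g₀ * y₀))
  have h5 := h3 g
  have h6 : x g * (y₀ * a₃ g₀) = x g * b * (x g₀ * y₀ * a₃ g₀) / (x g₀ * b) := by field_simp
  rw [h6, map_add, map_div₀, map_mul σ (x g * b), hr, hr, h4, hg,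
    mul_div_cancel₀ _ (mul_ne_zero hx hy)] at h5
  exact hθ (add_right_cancel h5)

variable [Fintype E] [Finite S] {q : ℕ} (hE : Fintype.card E = q ^ 2)
include hE

theorem count (K : Subgroup S) (hK : ∀ g ∈ K, a₁ g = 0 ∧ a₂ g = 0 ∧ a₃ g = 0) {m : ℕ}
    (h : Nat.card (⊤ : Subgroup S) = m * Nat.card K) : q ^ 6 ≤ m := by
  let H₁ := kr ⊤ a₃ fun g _ h _ => c.m₃ g h
  let H₂ := kr H₁ a₂ fun g _ h hh => by rw [c.m₂, hh.2, mul_zero, add_zero]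
  let H₃ := kr H₂ a₁ fun g _ h hh => by rw [c.m₁, hh.2, hh.1.2]; simp
  have u : (Set.univ : Set E).ncard = q ^ 2 := by
    rw [Set.ncard_univ, Nat.card_eq_fintype_card, hE]
  have e1 : Nat.card (⊤ : Subgroup S) = _ * Nat.card H₁ := card_kr' Set.univ fun b => by
    obtain ⟨g, -, -, k3⟩ := c.sur 0 0 b
    exact iff_of_true trivial ⟨g, trivial, k3⟩
  have e2 : Nat.card H₁ = _ * Nat.card H₂ := card_kr' Set.univ fun b => by
    obtain ⟨g, -, k2, k3⟩ := c.sur 0 b 0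
    exact iff_of_true trivial ⟨g, ⟨trivial, k3⟩, k2⟩
  have e3 : Nat.card H₂ = _ * Nat.card H₃ := card_kr' Set.univ fun b => by
    obtain ⟨g, k1, k2, k3⟩ := c.sur b 0 0
    exact iff_of_true trivial ⟨g, ⟨⟨trivial, k3⟩, k2⟩, k1⟩
  have e : Nat.card (⊤ : Subgroup S) = q ^ 2 * (q ^ 2 * (q ^ 2 * Nat.card H₃)) := by
    rw [e1, e2, e3, u]
  have l : Nat.card K ≤ Nat.card H₃ := Subgroup.card_le_of_le fun g hg =>
    ⟨⟨⟨trivial, (hK g hg).2.2⟩, (hK g hg).2.1⟩, (hK g hg).1⟩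
  refine Nat.le_of_mul_le_mul_right ?_ (Nat.card_pos (α := H₃))
  calc q ^ 6 * Nat.card H₃ = m * Nat.card K := by rw [← h, e]; ring
    _ ≤ _ := Nat.mul_le_mul_left _ l

theorem chainA : q ^ 6 ≤ (Set.range y).ncard * {b | ∃ g, y g = 0 ∧ x g = b}.ncard *
    {b | ∃ g, y g = 0 ∧ x g = 0 ∧ z g = b}.ncard *
    {b | ∃ g, y g = 0 ∧ x g = 0 ∧ z g = 0 ∧ a₃ g = b}.ncard *
    {b | ∃ n, x n = 0 ∧ y n = 0 ∧ z n = 0 ∧ a₃ n = 0 ∧ a₂ n = b}.ncard *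
    {b | ∃ n, x n = 0 ∧ y n = 0 ∧ z n = 0 ∧ a₃ n = 0 ∧ a₂ n = 0 ∧ a₁ n = b}.ncard := by
  let H₁ := kr ⊤ y fun g _ h _ => c.my g h
  let H₂ := kr H₁ x fun g _ h _ => c.mx g h
  let H₃ := kr H₂ z fun g hg h _ => by rw [c.mz, hg.2]; simp
  let H₄ := kr H₃ a₃ fun g _ h _ => c.m₃ g h
  let H₅ := kr H₄ a₂ fun g _ h hh => by rw [c.m₂, hh.2]; simp
  let H₆ := kr H₅ a₁ fun g _ h hh => by rw [c.m₁, hh.2, hh.1.2]; simp
  refine c.count hE H₆ (fun g hg => ⟨hg.2, hg.1.2, hg.1.1.2⟩) ?_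
  have e0 : Nat.card (⊤ : Subgroup S) = _ * Nat.card H₁ := card_kr'
    (Set.range y) fun b => by
      simp only [H₁, H₂, H₃, H₄, H₅, mem_kr, Set.mem_ofPred_eq, Set.mem_range, Subgroup.mem_top]
      exact exists_congr fun g => by tauto
  have e1 : Nat.card H₁ = _ * Nat.card H₂ := card_kr'
    {b | ∃ g, y g = 0 ∧ x g = b} fun b => by
      simp only [H₁, H₂, H₃, H₄, H₅, mem_kr, Set.mem_ofPred_eq, Set.mem_range, Subgroup.mem_top]
      exact exists_congr fun g => by tauto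
  have e2 : Nat.card H₂ = _ * Nat.card H₃ := card_kr'
    {b | ∃ g, y g = 0 ∧ x g = 0 ∧ z g = b} fun b => by
      simp only [H₁, H₂, H₃, H₄, H₅, mem_kr, Set.mem_ofPred_eq, Set.mem_range, Subgroup.mem_top]
      exact exists_congr fun g => by tauto
  have e3 : Nat.card H₃ = _ * Nat.card H₄ := card_kr'
    {b | ∃ g, y g = 0 ∧ x g = 0 ∧ z g = 0 ∧ a₃ g = b} fun b => by
      simp only [H₁, H₂, H₃, H₄, H₅, mem_kr, Set.mem_ofPred_eq, Set.mem_range, Subgroup.mem_top]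
      exact exists_congr fun g => by tauto
  have e4 : Nat.card H₄ = _ * Nat.card H₅ := card_kr'
    {b | ∃ n, x n = 0 ∧ y n = 0 ∧ z n = 0 ∧ a₃ n = 0 ∧ a₂ n = b} fun b => by
      simp only [H₁, H₂, H₃, H₄, H₅, mem_kr, Set.mem_ofPred_eq, Set.mem_range, Subgroup.mem_top]
      exact exists_congr fun g => by tauto
  have e5 : Nat.card H₅ = _ * Nat.card H₆ := card_kr'
    {b | ∃ n, x n = 0 ∧ y n = 0 ∧ z n = 0 ∧ a₃ n = 0 ∧ a₂ n = 0 ∧ a₁ n = b} fun b => by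
      simp only [H₁, H₂, H₃, H₄, H₅, mem_kr, Set.mem_ofPred_eq, Set.mem_range, Subgroup.mem_top]
      exact exists_congr fun g => by tauto
  rw [e0, e1, e2, e3, e4, e5]
  ring

theorem chainB : q ^ 6 ≤ (Set.range x).ncard * {b | ∃ g, x g = 0 ∧ a₃ g = b}.ncard *
    {b | ∃ g, x g = 0 ∧ a₃ g = 0 ∧ y g = b}.ncard *
    {b | ∃ g, x g = 0 ∧ a₃ g = 0 ∧ y g = 0 ∧ z g = b}.ncard *
    {b | ∃ n, x n = 0 ∧ y n = 0 ∧ z n = 0 ∧ a₃ n = 0 ∧ a₂ n = b}.ncard *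
    {b | ∃ n, x n = 0 ∧ y n = 0 ∧ z n = 0 ∧ a₃ n = 0 ∧ a₂ n = 0 ∧ a₁ n = b}.ncard := by
  let H₁ := kr ⊤ x fun g _ h _ => c.mx g h
  let H₂ := kr H₁ a₃ fun g _ h _ => c.m₃ g h
  let H₃ := kr H₂ y fun g _ h _ => c.my g h
  let H₄ := kr H₃ z fun g _ h hh => by rw [c.mz, hh.2]; simp
  let H₅ := kr H₄ a₂ fun g _ h hh => by rw [c.m₂, hh.1.1.2]; simp
  let H₆ := kr H₅ a₁ fun g _ h hh => by rw [c.m₁, hh.2, hh.1.1.1.2]; simp
  refine c.count hE H₆ (fun g hg => ⟨hg.2, hg.1.2, hg.1.1.1.1.2⟩) ?_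
  have e0 : Nat.card (⊤ : Subgroup S) = _ * Nat.card H₁ := card_kr'
    (Set.range x) fun b => by
      simp only [H₁, H₂, H₃, H₄, H₅, mem_kr, Set.mem_ofPred_eq, Set.mem_range, Subgroup.mem_top]
      exact exists_congr fun g => by tauto
  have e1 : Nat.card H₁ = _ * Nat.card H₂ := card_kr'
    {b | ∃ g, x g = 0 ∧ a₃ g = b} fun b => by
      simp only [H₁, H₂, H₃, H₄, H₅, mem_kr, Set.mem_ofPred_eq, Set.mem_range, Subgroup.mem_top]
      exact exists_congr fun g => by tauto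
  have e2 : Nat.card H₂ = _ * Nat.card H₃ := card_kr'
    {b | ∃ g, x g = 0 ∧ a₃ g = 0 ∧ y g = b} fun b => by
      simp only [H₁, H₂, H₃, H₄, H₅, mem_kr, Set.mem_ofPred_eq, Set.mem_range, Subgroup.mem_top]
      exact exists_congr fun g => by tauto
  have e3 : Nat.card H₃ = _ * Nat.card H₄ := card_kr'
    {b | ∃ g, x g = 0 ∧ a₃ g = 0 ∧ y g = 0 ∧ z g = b} fun b => by
      simp only [H₁, H₂, H₃, H₄, H₅, mem_kr, Set.mem_ofPred_eq, Set.mem_range, Subgroup.mem_top]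
      exact exists_congr fun g => by tauto
  have e4 : Nat.card H₄ = _ * Nat.card H₅ := card_kr'
    {b | ∃ n, x n = 0 ∧ y n = 0 ∧ z n = 0 ∧ a₃ n = 0 ∧ a₂ n = b} fun b => by
      simp only [H₁, H₂, H₃, H₄, H₅, mem_kr, Set.mem_ofPred_eq, Set.mem_range, Subgroup.mem_top]
      exact exists_congr fun g => by tauto
  have e5 : Nat.card H₅ = _ * Nat.card H₆ := card_kr'
    {b | ∃ n, x n = 0 ∧ y n = 0 ∧ z n = 0 ∧ a₃ n = 0 ∧ a₂ n = 0 ∧ a₁ n = b} fun b => by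
      simp only [H₁, H₂, H₃, H₄, H₅, mem_kr, Set.mem_ofPred_eq, Set.mem_range, Subgroup.mem_top]
      exact exists_congr fun g => by tauto
  rw [e0, e1, e2, e3, e4, e5]
  ring

variable (hσ : ∀ a, σ a = a ^ q)
include hσ

omit [Finite S] in
theorem A₁_le :
    {b | ∃ n, x n = 0 ∧ y n = 0 ∧ z n = 0 ∧ a₃ n = 0 ∧ a₂ n = 0 ∧ a₁ n = b}.ncard ≤ q :=
  le_q hE hσ one_ne_zero fun _ ⟨_, h1, h2, h3, h4, h5, h6⟩ => by
    rw [mul_one, ← h6, c.real₁ h1 h2 h3 h4 h5]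

end Co₀

theorem not_le {q : ℕ} (hq : 2 ≤ q) {m : ℕ} (h : q ^ 6 ≤ m) (h' : m ≤ q ^ 5) : False :=
  absurd (h.trans h') (Nat.pow_lt_pow_right hq (by norm_num)).not_ge

theorem tv1 : Tv1Stmt.{u} := by
  intro E S _ _ _ _ σ q x y z a₁ a₂ a₃ hE hσ c n n1 n2 n3
  by_contra hα
  have hq := two_le_of_card_sq hE
  have h2 : (2 : E) ≠ 0 := fun e => hα (c.k₀ e n n1 n2 n3).2.2
  have hY : ∀ g, ∃ m, x m = 0 ∧ y m = 0 ∧ z m = 0 ∧ a₃ m = 0 ∧ a₂ m = y g * a₃ n := fun g => by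
    obtain ⟨m, h1, h2, h3, h4, h5, -⟩ := c.cz g n
    exact ⟨m, h1, h2, by simp [h3, n1, n2], h4, by simp [h5, n2]⟩
  have hX : ∀ g m, x m = 0 → y m = 0 → z m = 0 → a₃ m = 0 → σ (x g * a₂ m) = x g * a₂ m :=
    fun g m h1 h2 h3 h4 => by
      simpa [h1, h2, h3, h4] using c.creal g m (by simp [h1, h2]) (by simp [h2, h4])
  have l1 := c.toCo₀.A₁_le hE hσ
  have l2 := c.l₃
  have l3 : {b | ∃ g, y g = 0 ∧ x g = 0 ∧ z g = b}.ncard *
      {b | ∃ g, y g = 0 ∧ x g = 0 ∧ z g = 0 ∧ a₃ g = b}.ncard ≤ q ^ 2 := pair hE hσ (by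
    rintro _ ⟨g, g1, g2, rfl⟩ _ ⟨m, m1, m2, m3, rfl⟩
    simpa [g1, g2, m1, m2, m3] using c.creal g m (by simp [g2, m2]) (by simp [g1, m1]))
  have ch := c.toCo₀.chainA hE
  obtain ⟨g₀, g1, g2⟩ : ∃ g, y g = 0 ∧ x g ≠ 0 := by
    by_contra! e
    have l4 : {b | ∃ g, y g = 0 ∧ x g = b}.ncard ≤ 1 := le_one fun _ ⟨g, a, b⟩ => b ▸ e g a
    have l5 : (Set.range y).ncard ≤ q := le_trans (Set.ncard_le_ncard_of_injOn (· * a₃ n)
      (by rintro _ ⟨g, rfl⟩; exact hY g) fun _ _ _ _ e => mul_right_cancel₀ hα e) l2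
    refine not_le hq ch ?_
    calc _ = _ * _ * (_ * _) * _ * _ := by ring
      _ ≤ q * 1 * q ^ 2 * q * q :=
        Nat.mul_le_mul (Nat.mul_le_mul (Nat.mul_le_mul (Nat.mul_le_mul l5 l4) l3) l2) l1
      _ = _ := by ring
  obtain ⟨h₀, h1⟩ : ∃ h, y h ≠ 0 := by
    by_contra! e
    have l4 : (Set.range y).ncard ≤ 1 := le_one fun _ ⟨g, b⟩ => b ▸ e g
    have l5 : {b | ∃ g, y g = 0 ∧ x g = b}.ncard *
        {b | ∃ n, x n = 0 ∧ y n = 0 ∧ z n = 0 ∧ a₃ n = 0 ∧ a₂ n = b}.ncard ≤ q ^ 2 :=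
      pair hE hσ (by
        rintro _ ⟨g, -, rfl⟩ _ ⟨m, m1, m2, m3, m4, rfl⟩
        exact hX g m m1 m2 m3 m4)
    refine not_le hq ch ?_
    calc _ = _ * (_ * _) * (_ * _) * _ := by ring
      _ ≤ 1 * q ^ 2 * q ^ 2 * q := Nat.mul_le_mul (Nat.mul_le_mul (Nat.mul_le_mul l4 l5) l3) l1
      _ = _ := by ring
  obtain ⟨ζ, k1, k2, k3, k4, k5, -⟩ := c.cz g₀ h₀
  obtain ⟨m, m1, m2, m3, m4, m5⟩ := hY h₀
  exact c.fin (isInvol_of_pow hE hσ) h2 g2 h1 (mul_ne_zero h1 hα) k1 k2 (by simp [k3, g1]) k4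
    (by simp [k5, g1]) fun g => m5 ▸ hX g m m1 m2 m3 m4

theorem tv3 : Tv3Stmt.{u} := by
  intro E S _ _ _ _ σ q x y z a₁ a₂ a₃ hE hσ c h3 n n1 n2 n3
  by_contra hα
  have hq := two_le_of_card_sq hE
  have h2 : (2 : E) ≠ 0 := fun e => hα (c.k₀ e n n1 n2 n3).2.1
  have hX : ∀ g, σ (x g * a₂ n) = x g * a₂ n := fun g => by
    have n4 := h3 n n1 n2 n3
    simpa [n1, n2, n3, n4] using c.creal g n (by simp [n1, n2]) (by simp [n2, n4])
  have l1 := c.toCo₀.A₁_le hE hσ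
  have l2 := c.l₃
  have l3 : {b | ∃ g, x g = 0 ∧ a₃ g = b}.ncard *
      {b | ∃ g, x g = 0 ∧ a₃ g = 0 ∧ y g = 0 ∧ z g = b}.ncard ≤ q ^ 2 := pair hE hσ (by
    rintro _ ⟨g, g1, rfl⟩ _ ⟨m, m1, m2, m3, rfl⟩
    simpa [g1, m1, m2, m3, mul_comm] using c.creal m g (by simp [g1, m1]) (by simp [m2, m3]))
  have ch := c.toCo₀.chainB hE
  obtain ⟨h₀, h1, h4, h5⟩ : ∃ h, x h = 0 ∧ a₃ h = 0 ∧ y h ≠ 0 := by
    by_contra! e
    have l4 : {b | ∃ g, x g = 0 ∧ a₃ g = 0 ∧ y g = b}.ncard ≤ 1 :=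
      le_one fun _ ⟨g, a, b, d⟩ => d ▸ e g a b
    have l5 : (Set.range x).ncard ≤ q := le_q hE hσ hα (by rintro _ ⟨g, rfl⟩; exact hX g)
    refine not_le hq ch ?_
    calc _ = _ * _ * (_ * _) * _ * _ := by ring
      _ ≤ q * 1 * q ^ 2 * q * q :=
        Nat.mul_le_mul (Nat.mul_le_mul (Nat.mul_le_mul (Nat.mul_le_mul l5 l4) l3) l2) l1
      _ = _ := by ring
  obtain ⟨g₀, g1⟩ : ∃ g, x g ≠ 0 := by
    by_contra! e
    have l4 : (Set.range x).ncard ≤ 1 := le_one fun _ ⟨g, b⟩ => b ▸ e g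
    obtain ⟨k, -, -, hk⟩ := c.sur 0 0 1
    have l5 : {b | ∃ g, x g = 0 ∧ a₃ g = 0 ∧ y g = b}.ncard ≤ q :=
      le_trans (Set.ncard_le_ncard (by
        rintro _ ⟨g, -, g2, rfl⟩
        obtain ⟨m, h1, h2, h3, h4, h5, -⟩ := c.cz g k
        exact ⟨m, h1, h2, by simp [h3, e], h4, by simp [h5, g2, hk]⟩)) l2
    refine not_le hq ch ?_
    calc _ = _ * _ * (_ * _) * _ * _ := by ring
      _ ≤ 1 * q * q ^ 2 * q * q :=
        Nat.mul_le_mul (Nat.mul_le_mul (Nat.mul_le_mul (Nat.mul_le_mul l4 l5) l3) l2) l1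
      _ = _ := by ring
  obtain ⟨ζ, k1, k2, k3, k4, k5, -⟩ := c.cz g₀ h₀
  exact c.fin (isInvol_of_pow hE hσ) h2 g1 h5 hα k1 k2 (by simp [k3, h1]) k4
    (by simp [k5, h4]) hX

theorem tv2a : Tv2aStmt.{u} := by
  intro E S _ _ _ _ σ q x y z a₁ a₂ a₃ hE hσ c hA
  have hq := two_le_of_card_sq hE
  have hi := isInvol_of_pow hE hσ
  have l1 := c.A₁_le hE hσ
  have l2 : {b | ∃ n, x n = 0 ∧ y n = 0 ∧ z n = 0 ∧ a₃ n = 0 ∧ a₂ n = b}.ncard ≤ 1 :=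
    le_one fun _ ⟨n, a, b, d, _, e⟩ => e ▸ (hA n a b d).1
  have ch := c.chainB hE
  have lX := le_sq hE (Set.range x)
  have hB : ∀ h, x h = 0 → a₃ h = 0 := fun h h1 => by
    by_contra hα
    have l3 : {b | ∃ g, x g = 0 ∧ a₃ g = b}.ncard *
        {b | ∃ g, x g = 0 ∧ a₃ g = 0 ∧ y g = 0 ∧ z g = b}.ncard ≤ q ^ 2 := pair hE hσ (by
      rintro _ ⟨g, g1, rfl⟩ _ ⟨m, m1, m2, m3, rfl⟩
      simpa [g1, m1, m2, m3, mul_comm] using c.creal m g (by simp [g1, m1]) (by simp [m2, m3]))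
    have l4 : {b | ∃ g, x g = 0 ∧ a₃ g = 0 ∧ y g = b}.ncard ≤ 1 := le_one (by
      rintro _ ⟨g, g1, g2, rfl⟩
      obtain ⟨m, m1, m2, m3, -, m5, -⟩ := c.cz g h
      have := (hA m m1 m2 (by simp [m3, g1, h1])).1
      simpa [m5, g2, hα] using this)
    refine not_le hq ch ?_
    calc _ = _ * _ * (_ * _) * _ * _ := by ring
      _ ≤ q ^ 2 * 1 * q ^ 2 * 1 * q :=
        Nat.mul_le_mul (Nat.mul_le_mul (Nat.mul_le_mul (Nat.mul_le_mul lX l4) l3) l2) l1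
      _ = _ := by ring
  have l3 : {b | ∃ g, x g = 0 ∧ a₃ g = b}.ncard ≤ 1 := le_one fun _ ⟨g, a, b⟩ => b ▸ hB g a
  have lZ := le_sq hE {b | ∃ g, x g = 0 ∧ a₃ g = 0 ∧ y g = 0 ∧ z g = b}
  set Y := {b | ∃ g, x g = 0 ∧ a₃ g = 0 ∧ y g = b} with hY
  set A := {b | ∃ n, x n = 0 ∧ y n = 0 ∧ z n = 0 ∧ a₃ n = 0 ∧ a₂ n = 0 ∧ a₁ n = b} with hA'
  have hYA : q ^ 2 ≤ Y.ncard * A.ncard := by
    refine Nat.le_of_mul_le_mul_left (c := q ^ 4) ?_ (pow_pos (show 0 < q by omega) _)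
    calc q ^ 4 * q ^ 2 = q ^ 6 := by ring
      _ ≤ _ := ch
      _ ≤ q ^ 2 * 1 * Y.ncard * q ^ 2 * 1 * A.ncard := by gcongr
      _ = _ := by ring
  have hYq : q ≤ Y.ncard := by
    refine Nat.le_of_mul_le_mul_right (c := q) ?_ (by omega)
    calc q * q = q ^ 2 := by ring
      _ ≤ _ := hYA
      _ ≤ _ := by gcongr
  obtain ⟨h₀, h1, h3, h2⟩ : ∃ h, x h = 0 ∧ a₃ h = 0 ∧ y h ≠ 0 := by
    by_contra! e
    have : Y.ncard ≤ 1 := le_one fun _ ⟨g, a, b, d⟩ => d ▸ e g a b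
    omega
  have hX : ∀ b, ∃ g, x g = b := by
    choose s _ _ hs using c.sur 0 0
    refine fun b => ?_
    obtain ⟨a, ha⟩ := Finite.surjective_of_injective (f := fun a => x (s a)) (fun a a' e => by
      have := hB (s a * (s a')⁻¹) (by
        have := c.mx (s a * (s a')⁻¹) (s a')
        rw [inv_mul_cancel_right, show x (s a) = x (s a') from e] at this
        simpa using this)
      have h4 := c.m₃ (s a * (s a')⁻¹) (s a')
      rwa [inv_mul_cancel_right, this, hs, hs, zero_add] at h4) b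
    exact ⟨_, ha⟩
  have hζ : ∀ g, ∃ ζ, x ζ = 0 ∧ y ζ = 0 ∧ z ζ = x g * y h₀ ∧ a₃ ζ = 0 ∧
      a₂ ζ = -(y h₀ * a₃ g) := fun g => by
    obtain ⟨ζ, k1, k2, k3, k4, k5, -⟩ := c.cz g h₀
    exact ⟨ζ, k1, k2, by simp [k3, h1], k4, by simp [k5, h3]⟩
  have key : ∀ g, -y g ∈ Y := by
    by_cases e2 : (2 : E) = 0
    · have : A.ncard ≤ 1 := le_one fun _ ⟨n, a, b, d, _, _, e⟩ => e ▸ (c.k₀ e2 n a b d).1
      have : Y = Set.univ := Set.eq_of_subset_of_ncard_le (Set.subset_univ _) (by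
        rw [Set.ncard_univ, Nat.card_eq_fintype_card, hE]
        exact hYA.trans (by simpa using Nat.mul_le_mul_left _ this))
      exact fun g => this ▸ trivial
    have r1 : ∀ g g', σ (x g' * y h₀ * a₃ g + x g * (y h₀ * a₃ g')) =
        x g' * y h₀ * a₃ g + x g * (y h₀ * a₃ g') := fun g g' => by
      obtain ⟨ζ, k1, k2, k3, k4, k5⟩ := hζ g'
      simpa [k1, k3, k4, k5] using c.creal ζ g (by simp [k1, k2]) (by simp [k2, k4])
    have r2 : ∀ g, σ (x g) * σ (y h₀ * a₃ g) = x g * (y h₀ * a₃ g) := fun g => by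
      have := r1 g g
      refine mul_left_cancel₀ e2 ?_
      simp only [map_add, map_mul] at this ⊢
      linear_combination this
    obtain ⟨θ, hθ⟩ := hi.ne_id
    have hθ' := sub_ne_zero.2 hθ
    obtain ⟨g₁, x1⟩ := hX 1
    obtain ⟨g₂, x2⟩ := hX θ
    obtain ⟨r, hr⟩ : ∃ r, r = y h₀ * a₃ g₁ := ⟨_, rfl⟩
    have rr : σ r = r := by simpa [x1, ← hr] using r2 g₁
    have r3 : ∀ g, σ (x g) ≠ x g → y h₀ * a₃ g = r * σ (x g) := fun g e => by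
      have k1 := r1 g g₁
      have k2 := r2 g
      rw [x1, one_mul, ← hr, map_add, map_mul σ (x g), rr] at k1
      refine mul_left_cancel₀ (sub_ne_zero.2 e) ?_
      linear_combination k2 - σ (x g) * k1
    have r4 : ∀ g, y h₀ * a₃ g = r * σ (x g) := fun g => by
      by_cases e : σ (x g) = x g
      · have k := r3 (g * g₂) (by
          rw [c.mx, x2, map_add, e]
          exact fun a => hθ (add_left_cancel a))
        rw [c.m₃, c.mx, map_add, mul_add, r3 g₂ (x2 ▸ hθ)] at k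
        linear_combination k
      · exact r3 g e
    have r0 : r ≠ 0 := fun e => by
      obtain ⟨k, -, -, hk⟩ := c.sur 0 0 1
      exact h2 (by simpa [e, hk] using r4 k)
    have hσy : σ (y h₀) ≠ 0 := (map_ne_zero σ).2 h2
    have r5 : ∀ g h, σ (x h) * (y g / y h₀ - σ (y g / y h₀)) =
        σ (x g) * (y h / y h₀ - σ (y h / y h₀)) := fun g h => by
      obtain ⟨ζ, k1, k2, k3, -, k5, -⟩ := c.cz g h
      obtain ⟨g', e⟩ := hX (z ζ / y h₀)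
      obtain ⟨ζ', j1, j2, j3, -, j5⟩ := hζ g'
      obtain ⟨n, n1, n2, n3, -, n5, -⟩ := c.dif (g := ζ) (h := ζ') (by rw [k1, j1]) (by rw [k2, j2])
      have := (hA n n1 n2 (by rw [n3, j3, e]; field_simp; ring)).1
      rw [n5, k5, j5, r4, e, k3] at this
      have a := r4 g
      have b := r4 h
      simp only [map_div₀, map_sub, map_mul] at this ⊢
      field_simp at this ⊢
      refine mul_left_cancel₀ r0 ?_
      linear_combination (y h₀) * this - σ (y h₀) * y g * b + σ (y h₀) * y h * a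
    have r6 : ∀ g, σ (y g / y h₀) = y g / y h₀ := fun g => by
      have a := r5 g g₁
      have b := r5 g₁ g₂
      rw [x1, map_one, one_mul] at a
      rw [x1, x2, map_one, one_mul] at b
      have d := congrArg σ b
      simp only [map_mul σ, map_sub σ, hi.invol] at d
      have : y g₁ / y h₀ - σ (y g₁ / y h₀) = 0 := by
        refine mul_left_cancel₀ hθ' ?_
        linear_combination b + d
      rw [this, mul_zero] at a
      exact (sub_eq_zero.1 a).symm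
    have : (· / y h₀) '' Y = {a | σ a = a} := Set.eq_of_subset_of_ncard_le
      (by rintro _ ⟨_, ⟨g, -, -, rfl⟩, rfl⟩; exact r6 g) (by
        rw [card_real hE hσ, Set.ncard_image_of_injective _ fun _ _ => (div_left_inj' h2).1]
        exact hYq)
    intro g
    obtain ⟨b, hb, e⟩ : -(y g / y h₀) ∈ (· / y h₀) '' Y := by
      rw [this]
      exact (map_neg σ _).trans (congrArg _ (r6 g))
    rwa [← (div_left_inj' h2).1 (e.trans (neg_div _ _).symm)]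
  refine ⟨fun b => ?_, fun b => ?_⟩
  · obtain ⟨g, -, -, hg⟩ := c.sur 0 0 b
    obtain ⟨h, -, k2, k3⟩ := key g
    exact ⟨g * h, by simp [c.my, k3], by simp [c.m₃, hg, k2]⟩
  · obtain ⟨g, hg⟩ := hX (b / y h₀)
    obtain ⟨ζ, k1, k2, k3, k4, -⟩ := hζ g
    exact ⟨ζ, k1, k2, by rw [k3, hg, div_mul_cancel₀ _ h2], k4⟩

end Cfsg.Agent.H25.UG
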