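import Cfsg.Agent.H25.UGAsm
import Cfsg.Agent.H25.UGTv
import Cfsg.Agent.H51.UGKt
import Cfsg.Agent.Lead.UgNum1
import Cfsg.Agent.H51.UGNum7
import Cfsg.Agent.H91.UgZt
import Cfsg.Agent.H20.UgUc
import Cfsg.Agent.H30.UgAb
import Cfsg.Agent.H90.UgE1
import Cfsg.Agent.H82.UgSm2
import Cfsg.Agent.H82.UgSmall
import Cfsg.Agent.H5.UgCon
import Cfsg.Agent.H82.UgDec
import Cfsg.Agent.H35.UgGl1
import Cfsg.Agent.H32.UgGl2
import Cfsg.Agent.H94.UgDc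
import Cfsg.Agent.H13.UgWr
import Cfsg.Agent.H39.UgOrbn
import Cfsg.Agent.H10.UgFun
import Cfsg.Agent.H27.UgOrb
import Cfsg.Agent.H1.UgLev0
import Cfsg.Agent.H18.UgLev7
import Cfsg.Agent.H56.UgPoly
import Cfsg.Agent.H24.UgInv
import Cfsg.Agent.H67.UgIso
import Cfsg.Agent.H59.UGSyl1
import Cfsg.Agent.H8.UgSyl
import Cfsg.Agent.H72.UgTv0
import Cfsg.Agent.H33.UgTvk
import Cfsg.Agent.H23.UgCw
import Cfsg.Agent.H64.UgTv2b
import Cfsg.Agent.H83.UgGen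
import Cfsg.Agent.H2.UgMax
import Cfsg.Agent.H33.UgC4
import Cfsg.Agent.H25.UGNum2
import Cfsg.Agent.H29.UgQs
import Cfsg.Agent.H75.UgDega
import Cfsg.Agent.H31.UgSpan
import Cfsg.Agent.H61.UgSl2
import Cfsg.Agent.H2.UgL3
import Cfsg.Agent.H1.UgLev1
import Cfsg.Agent.H76.UgQ2

/-! # Project UG: all the pieces -/

set_option autoImplicit false

namespace Cfsg.Agent.H25.UG

universe u

theorem dcS : DcStmt.{u} :=
  H94.UgDc.dc (H82.UgDec.dec' (H5.UgCon.con H20.UgUc.uc (H82.UgSmall.small H20.UgUc.uc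
    (H90.UgE1.e1 H20.UgUc.uc (H29.UgQs.qs H30.UgAb.ab)) H82.UgSm2.sm2)) Lead.UgNum1.num1
    H51.UGNum7.num7) (H32.UgGl2.gl2 H35.UgGl1.gl1) H75.UgDega.dega num2

theorem pieces : Pieces.{u} where
  zt := H91.UgZt.zt
  fn := H10.UgFun.funS dcS H13.UgWr.wr H39.UgOrbn.orbn H31.UgSpan.span
  orb1 := H27.UgOrb.orb1
  lev1 := H1.UgLev1.lev1 H1.UgLev0.lev0
  lev7 := H18.UgLev7.lev7 H1.UgLev0.lev0
  poly := H56.UgPoly.poly
  q2 := H76.UgQ2.q2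
  iso := H67.UgIso.iso H27.UgOrb.orb2 H24.UgInv.inv H61.UgSl2.sl2
  syl := H8.UgSyl.syl H59.UGSyl1.syl1
  tv0 := H72.UgTv0.tv0
  tvk := H33.UgTvk.tvk
  l3 := H2UgL3.l3 H23.UgCw.cw
  tv1 := tv1
  tv3 := tv3
  tv2a := tv2a
  tv2b := H64.UgTv2b.tv2b
  gen := H83.UgGen.gen

theorem c4S : C4Stmt.{u} := H33.UgC4.c4 (H2UgMax.maxS H51.UGKt.kt pieces.main)

end Cfsg.Agent.H25.UG
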